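import Mathlib
import Cfsg.Agent.H14.OtDefs

/-!
# S5972 team project (helper14): common lemmas for OT-UPPER and OT-BUILD (helper60)
-/

set_option autoImplicit false

namespace Cfsg.Agent.H60.Ot

open Cfsg.Agent.H45 Cfsg.Agent.H42.Spd Cfsg.Agent.H42.Ti Cfsg.Agent.H14.Ot Module Polynomial

universe u v

section Common

variable {F : Type u} [Field F] {V : Type v} [AddCommGroup V] [Module F V]

/-- The fixed space of an isometry is nondegenerate when it is orthogonal to `range (T - 1)` and
complements it. -/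
theorem ker_nondeg (B : V →ₗ[F] V →ₗ[F] F) (T : Module.End F V)
    (hsymm : ∀ x y, B x y = B y x) (hnd : ∀ x, (∀ y, B x y = 0) → x = 0)
    (hKU : LinearMap.ker (T - 1) ⊔ LinearMap.range (T - 1) = ⊤)
    (hUK : ∀ u ∈ LinearMap.range (T - 1), ∀ k ∈ LinearMap.ker (T - 1), B u k = 0) :
    LinearMap.ker (T - 1) ⊓ perp B (LinearMap.ker (T - 1)) = ⊥ := by
  rw [eq_bot_iff]
  intro x hx
  rw [Submodule.mem_bot]
  apply hnd
  intro v
  have hv : v ∈ LinearMap.ker (T - 1) ⊔ LinearMap.range (T - 1) := by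
    rw [hKU]
    trivial
  obtain ⟨k, hk, u, hu, rfl⟩ := Submodule.mem_sup.mp hv
  rw [map_add, hsymm x k, hx.2 k hk, zero_add, hsymm x u]
  exact hUK u hu x hx.1

/-- Polynomials in intertwined endomorphisms are intertwined. -/
theorem aeval_intertwine {V' : Type v} [AddCommGroup V'] [Module F V']
    (T : Module.End F V) (T' : Module.End F V') (ι : V' →ₗ[F] V)
    (hιT : ∀ x, ι (T' x) = T (ι x)) (φ : F[X]) (x : V') :
    ι ((aeval T' φ) x) = (aeval T φ) (ι x) := by
  have hpow : ∀ (k : ℕ) (x : V'), ι ((T' ^ k) x) = (T ^ k) (ι x) := by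
    intro k
    induction k with
    | zero => intro x; simp
    | succ k ih =>
      intro x
      rw [pow_succ', pow_succ', Module.End.mul_apply, Module.End.mul_apply, hιT, ih]
  rw [aeval_eq_sum_range, aeval_eq_sum_range]
  simp only [LinearMap.sum_apply, LinearMap.smul_apply, map_sum, map_smul, hpow]

theorem ot_ii_pos [Fintype F] (r : ℕ) (hr : r.Prime) (hrF : (r : F) ≠ 0) : 0 < ii F r := by
  have : Fact r.Prime := ⟨hr⟩
  have hne : (Fintype.card F : ZMod r) ≠ 0 := by
    intro h0
    rw [ZMod.natCast_eq_zero_iff] at h0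
    obtain ⟨n, hp, hcard⟩ := FiniteField.card F (ringChar F)
    rw [hcard] at h0
    have h1 := (Nat.prime_dvd_prime_iff_eq hr hp).mp (hr.dvd_of_dvd_pow h0)
    apply hrF
    rw [h1]
    exact CharP.cast_eq_zero F (ringChar F)
  unfold ii
  rw [orderOf_pos_iff]
  exact isOfFinOrder_iff_pow_eq_one.mpr
    ⟨r - 1, by have := hr.two_le; omega, ZMod.pow_card_sub_one_eq_one hne⟩

end Common

end Cfsg.Agent.H60.Ot
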