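import Mathlib
import Cfsg.Agent.H29.BG117Defs
import Cfsg.Agent.H28.Coprime
import Cfsg.Agent.H60.HupFit

set_option autoImplicit false

/-!
# Bender–Glauberman 11.7, piece (*) (helper60, for helper29)

`A` centralizes every `A`-invariant subgroup of `M` of order prime to `σ(M) ∪ {p}`:
reduction to the `A`-invariant Sylow subgroups and the pieces NT, T1, T2, FIN.
-/

namespace Cfsg.Agent.H60.BG117

open Cfsg Subgroup Cfsg.Agent.H58.BG10 Cfsg.Agent.H63.BG11 Cfsg.Agent.H29.BG117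

universe u

variable {G : Type u} [Group G] [Finite G]

/-- An `A`-invariant `s`-subgroup of `Y` is centralized by `A`. -/
theorem excStar_sylow (h1409 : St1409 G) (hF : StExcFacts G)
    (hNT : StExcNT G) (hT1 : StExcT1 G) (hT2 : StExcT2 G) (hFin : StCentT G)
    (M A A₀ : Subgroup G) (p : ℕ) [Fact p.Prime] (hE : Exc M A A₀ p) (Y : Subgroup G)
    (hYM : Y ≤ M)
    (hq : ∀ q : ℕ, q.Prime → q ∣ Nat.card Y → q ∉ sigma M ∧ q ≠ p)
    (s : ℕ) [Fact s.Prime] (Q : Subgroup G) (hQY : Q ≤ Y) (hQs : IsPGroup s Q)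
    (hAQ : A ≤ normalizer (Q : Set G)) : Q ≤ centralizer (A : Set G) := by
  by_contra hcon
  have hs : s.Prime := Fact.out
  have hth : TransitivityHypothesis A := (hF M A A₀ p hE).th
  have hQne : Q ≠ ⊥ := by
    rintro rfl
    exact hcon bot_le
  have hsQ : s ∣ Nat.card Q := by
    obtain ⟨n, hn⟩ := IsPGroup.iff_card.mp hQs
    have hn0 : n ≠ 0 := by
      rintro rfl
      rw [pow_zero] at hn
      exact hQne ((Subgroup.card_eq_one).mp hn)
    rw [hn]
    exact dvd_pow_self s hn0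
  have hsY : s ∣ Nat.card Y := hsQ.trans (Subgroup.card_dvd_of_le hQY)
  obtain ⟨hsig, hsp⟩ := hq s hs hsY
  obtain ⟨t, T, ht, htsig, htp, hTM, hMT, hTt, hTC, hTA⟩ :=
    hNT M A A₀ p hE s hsig hsp Q (hQY.trans hYM) hQs hAQ hcon
  haveI : Fact t.Prime := ⟨ht⟩
  obtain ⟨hpt, B, Z, hEB, hMZ⟩ := hT1 M A A₀ p hE t htsig htp T hTM hMT hTt hTC hTA
  have htdvd := hT2 M A A₀ p hE t hpt B Z hEB hMZ
  have hni : ¬ IsIdealPrime t G := (h1409 M hE.coatom t htsig Z hEB.card₀ hEB.norm).2.1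
  exact hTA (hFin p A hE.elem hE.card hth t htp hni htdvd T hTt (hE.le.trans hMT))

/-- (*) `A` centralizes every `A`-invariant subgroup of `M` of order prime to `σ(M) ∪ {p}`. -/
theorem excStar (h1409 : St1409 G) (hF : StExcFacts G)
    (hNT : StExcNT G) (hT1 : StExcT1 G) (hT2 : StExcT2 G) (hFin : StCentT G) :
    StExcStar G := by
  intro M A A₀ p _ hE Y hYM hAY hq
  have hp : p.Prime := Fact.out
  have hAp : IsPGroup p A := Cfsg.Agent.H28.isPGroup_of_isElementaryAbelian p hE.elem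
  have hpY : ¬ p ∣ Nat.card Y := fun h => (hq p hp h).2 rfl
  have htop : (centralizer (A : Set G)).subgroupOf Y = ⊤ := by
    apply Cfsg.Agent.H60.Hup.eq_top_of_sylow_le
    intro s _
    obtain ⟨Q, hQY, hAQ, hQs, hQrel⟩ :=
      Cfsg.Agent.H28.exists_invariant_sylow p A Y hAp hpY hAY s
    have hQC : Q ≤ centralizer (A : Set G) :=
      excStar_sylow h1409 hF hNT hT1 hT2 hFin M A A₀ p hE Y hYM hq s Q hQY hQs hAQ
    have hQs' : IsPGroup s (Q.subgroupOf Y) := hQs.comap_subtype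
    refine ⟨hQs'.toSylow hQrel, ?_⟩
    intro x hx
    have hx' : x ∈ Q.subgroupOf Y := hx
    rw [Subgroup.mem_subgroupOf] at hx' ⊢
    exact hQC hx'
  intro y hy
  have hmem : (⟨y, hy⟩ : Y) ∈ (centralizer (A : Set G)).subgroupOf Y := by
    rw [htop]
    exact Subgroup.mem_top _
  rw [Subgroup.mem_subgroupOf] at hmem
  exact hmem

end Cfsg.Agent.H60.BG117
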