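import Mathlib
import Cfsg.Agent.H42.SpnDefs

/-!
# SPN-EVEN (S5956 team piece for helper42): nondegenerate subspaces have even dimension
-/

set_option autoImplicit false

namespace Cfsg.Agent.H60.Spn

open Cfsg.Agent.H45 Cfsg.Agent.H42.Spd Cfsg.Agent.H42.Spn Module

universe u v

theorem even (hH : StIsoHyp.{u, v}) (hC : StIsoCompl.{u, v}) : StEven.{u, v} := by
  intro F _ _ V _ _ _ B T hI
  have hI1 : Iso B (1 : Module.End F V) := ⟨hI.alt, hI.nondeg, fun x y => rfl⟩
  have hinv : ∀ W : Submodule F V, W ∈ (1 : Module.End F V).invtSubmodule := by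
    intro W
    rw [Module.End.mem_invtSubmodule]
    intro x hx
    simpa using hx
  have key : ∀ n : ℕ, ∀ W : Submodule F V, W ⊓ perp B W = ⊥ → Module.finrank F W = n →
      Even n := by
    intro n
    induction n using Nat.strong_induction_on with
    | _ n ih =>
      intro W hW hn
      by_cases hbot : W = ⊥
      · subst hbot
        rw [finrank_bot] at hn
        rw [← hn]
        exact ⟨0, rfl⟩
      · obtain ⟨U, hUW, hU, hU2⟩ := hH F V B 1 hI1 W hW hbot
        obtain ⟨hN, -, hdim⟩ := hC F V B 1 hI1 U W ⟨hinv U, hU⟩ ⟨hinv W, hW⟩ hUW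
        rw [hU2, hn] at hdim
        have hev := ih (Module.finrank F ↥(W ⊓ perp B U)) (by omega) (W ⊓ perp B U) hN.2 rfl
        rw [← hdim]
        exact Even.add even_two hev
  intro W hW
  exact key _ W hW rfl

example (hH : Cfsg.Agent.H42.Spn.StIsoHyp.{u, v}) (hC : Cfsg.Agent.H42.Spn.StIsoCompl.{u, v}) :
    Cfsg.Agent.H42.Spn.StEven.{u, v} := even hH hC

end Cfsg.Agent.H60.Spn
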