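import Mathlib
import Cfsg.Agent.H95.OhDefs

/-!
# S5992 / S5993 team project (helper95): piece S5992-BACK (helper60)

Invariant nondegenerate subspaces of dimension `c j` without fixed vectors.
-/

set_option autoImplicit false

namespace Cfsg.Agent.H60.Oh

open Cfsg.Agent.H45 Cfsg.Agent.H42.Spd Cfsg.Agent.H42.Ti Cfsg.Agent.H14.Ot Cfsg.Agent.H95.Oh
  Module

universe u v

/-- S5992-BACK. -/
theorem back (hS : StOSplit.{u, v}) (hT2 : StTrick2.{u, v})
    (hSub : Cfsg.Agent.H42.Spd.StSub.{u, v}) : StBack.{u, v} := by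
  intro F _ _ V _ _ _ r B T hO j hj
  obtain ⟨V', _, _, _, A, T', ι, hctx, hιinj, hιT, hrange, hker', hND⟩ := hT2 F V r B T hO
  obtain ⟨hKU, -, -⟩ := hS F V r T hO.cast_ne hO.pow
  have hnd : Nd A T' ⊤ := by
    refine ⟨?_, ?_⟩
    · rw [Module.End.mem_invtSubmodule]
      exact le_top
    · rw [eq_bot_iff]
      intro x hx
      rw [Submodule.mem_bot]
      apply hctx.good.nondeg
      intro y
      exact hctx.good.refl (hx.2 y Submodule.mem_top)
  have hkk : kk T ⊤ = Module.finrank F ↥(LinearMap.ker (T - 1)) := by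
    unfold kk
    rw [top_inf_eq]
  have hkk' : kk T' ⊤ = 0 := by
    unfold kk
    rw [top_inf_eq, hker', finrank_bot]
  have hdim : Module.finrank F V = kk T ⊤ + Module.finrank F V' := by
    have h3 : Module.finrank F ↥(LinearMap.range (T - 1)) = Module.finrank F V' := by
      rw [← hrange]
      exact LinearMap.finrank_range_of_inj hιinj
    have h4 := LinearMap.finrank_range_add_finrank_ker (T - 1)
    rw [hkk, ← h3, ← h4]
    exact Nat.add_comm _ _
  obtain ⟨U', -, hU'nd, hU'dim, -⟩ := hSub F V' r A T' hctx ⊤ hnd j 0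
    (by
      rw [hkk', zero_add, finrank_top]
      rw [hdim] at hj
      exact Nat.le_of_add_le_add_left hj)
    (by rw [hkk'])
  refine ⟨U'.map ι, ?_, (hND U' hU'nd.1).mp hU'nd.2, ?_, ?_⟩
  · rw [Module.End.mem_invtSubmodule]
    rintro _ ⟨y, hy, rfl⟩
    show T (ι y) ∈ U'.map ι
    rw [← hιT]
    exact Submodule.mem_map_of_mem (hU'nd.1 hy)
  · rw [eq_bot_iff, ← hKU]
    intro x hx
    refine ⟨hx.2, ?_⟩
    have h1 : U'.map ι ≤ LinearMap.range (T - 1) := by
      rw [← hrange]
      exact LinearMap.map_le_range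
    exact h1 hx.1
  · have h2 : Module.finrank F ↥(U'.map ι) = Module.finrank F ↥U' :=
      (LinearEquiv.finrank_eq (Submodule.equivMapOfInjective ι hιinj U')).symm
    rw [h2, hU'dim, Nat.mul_zero, Nat.add_zero]

example : Cfsg.Agent.H14.Ot.StOSplit.{u, v} → Cfsg.Agent.H95.Oh.StTrick2.{u, v} →
    Cfsg.Agent.H42.Spd.StSub.{u, v} → Cfsg.Agent.H95.Oh.StBack.{u, v} := back

end Cfsg.Agent.H60.Oh
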