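import Mathlib
import Cfsg.Agent.H95.OhDefs

/-!
# S5992 / S5993 team project (helper95): piece S5992-TYPEODD (helper60)

For `i` odd, a space with a fixed-point-free isometry of order `r` is of plus type.
-/

set_option autoImplicit false

namespace Cfsg.Agent.H60.Oh

open Cfsg.Agent.H45 Cfsg.Agent.H42.Spd Cfsg.Agent.H42.Ti Cfsg.Agent.H14.Ot Cfsg.Agent.H95.Oh
  Module

universe u v

/-- S5992-TYPEODD. -/
theorem typeOdd (hT : StOTrick.{u, v}) (hB : Cfsg.Agent.H42.Ti.StTiBuild.{u, v})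
    (hM : Cfsg.Agent.H42.Spd.StModc.{u, v}) : StTypeOdd.{u, v} := by
  intro F _ _ V _ _ _ r B T hO hker hodd
  obtain ⟨V', _, _, _, A, T', ι, hctx, hιinj, hιT, hrange, hker', -, hTI⟩ := hT F V r B T hO
  have hnd : Nd A T' ⊤ := by
    refine ⟨?_, ?_⟩
    · rw [Module.End.mem_invtSubmodule]
      exact le_top
    · rw [eq_bot_iff]
      intro x hx
      rw [Submodule.mem_bot]
      apply hctx.good.nondeg
      intro y
      exact hctx.good.refl (hx.2 y Submodule.mem_top)
  have hkk' : kk T' ⊤ = 0 := by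
    unfold kk
    rw [top_inf_eq, hker', finrank_bot]
  have hdim : Module.finrank F V' = Module.finrank F V := by
    have h3 : Module.finrank F ↥(LinearMap.range (T - 1)) = Module.finrank F V' := by
      rw [← hrange]
      exact LinearMap.finrank_range_of_inj hιinj
    have h4 := LinearMap.finrank_range_add_finrank_ker (T - 1)
    rw [hker, finrank_bot, add_zero] at h4
    rw [← h3, h4]
  have hcc : cc F r = 2 * ii F r := by
    unfold cc ii
    rw [if_neg]
    intro hev
    exact (Nat.not_even_iff_odd.mpr hodd) hev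
  obtain ⟨s, hs⟩ := hM F V' r A T' hctx ⊤ hnd
  rw [finrank_top, hkk', zero_add, hcc] at hs
  obtain ⟨U', hU'inv, hU'TI, hU'dim⟩ := hB F V' r A T' hctx s 0 (by rw [hkk'])
    (fun _ => by rw [hkk', zero_add, hs])
    (fun hev => absurd hev (Nat.not_even_iff_odd.mpr hodd))
  refine ⟨U'.map ι, le_top, (hTI U' hU'inv).mp hU'TI, ?_⟩
  have h2 : Module.finrank F ↥(U'.map ι) = Module.finrank F ↥U' :=
    (LinearEquiv.finrank_eq (Submodule.equivMapOfInjective ι hιinj U')).symm
  rw [h2, hU'dim, finrank_top, ← hdim, hs]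
  ring

example : Cfsg.Agent.H14.Ot.StOTrick.{u, v} → Cfsg.Agent.H42.Ti.StTiBuild.{u, v} →
    Cfsg.Agent.H42.Spd.StModc.{u, v} → Cfsg.Agent.H95.Oh.StTypeOdd.{u, v} := typeOdd

end Cfsg.Agent.H60.Oh
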