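import Mathlib
import Cfsg.Agent.H14.OtDefs

/-!
# S5972 team project (helper14): piece OT-MODC (helper60)

The non-fixed part of an orthogonal isometry of odd prime order has dimension divisible by `c`.
-/

set_option autoImplicit false

namespace Cfsg.Agent.H60.Ot

open Cfsg.Agent.H45 Cfsg.Agent.H42.Spd Cfsg.Agent.H42.Ti Cfsg.Agent.H14.Ot Module Polynomial

universe u v

/-- OT-MODC. -/
theorem oModc (hT : StOTrick.{u, v}) (_hS : StOSplit.{u, v})
    (hM : Cfsg.Agent.H42.Spd.StModc.{u, v}) : StOModc.{u, v} := by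
  intro F _ _ V _ _ _ r B T hO
  obtain ⟨V', _, _, _, A, T', ι, hctx, hιinj, -, hrange, hker', -, -⟩ := hT F V r B T hO
  have hnd : Nd A T' ⊤ := by
    refine ⟨?_, ?_⟩
    · rw [Module.End.mem_invtSubmodule]
      exact le_top
    · rw [eq_bot_iff]
      intro x hx
      rw [Submodule.mem_bot]
      apply hctx.good.nondeg
      intro y
      exact hctx.good.refl (hx.2 y Submodule.mem_top)
  obtain ⟨s, hs⟩ := hM F V' r A T' hctx ⊤ hnd
  refine ⟨s, ?_⟩
  have h1 : kk T' ⊤ = 0 := by
    unfold kk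
    rw [top_inf_eq, hker', finrank_bot]
  have h2 : kk T ⊤ = Module.finrank F ↥(LinearMap.ker (T - 1)) := by
    unfold kk
    rw [top_inf_eq]
  have h3 : Module.finrank F ↥(LinearMap.range (T - 1)) = Module.finrank F V' := by
    rw [← hrange]
    exact LinearMap.finrank_range_of_inj hιinj
  have h4 := LinearMap.finrank_range_add_finrank_ker (T - 1)
  rw [finrank_top, h1, zero_add] at hs
  rw [h2, ← hs, ← h3, ← h4]
  exact Nat.add_comm _ _

example : Cfsg.Agent.H14.Ot.StOTrick.{u, v} → Cfsg.Agent.H14.Ot.StOSplit.{u, v} →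
    Cfsg.Agent.H42.Spd.StModc.{u, v} → Cfsg.Agent.H14.Ot.StOModc.{u, v} := oModc

end Cfsg.Agent.H60.Ot
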