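import Mathlib
import Cfsg.Agent.H14.OtDefs

/-!
# S5972 team project (helper14): piece OT-TRICK (helper60)

The form trick: on `U = range (T - 1)` the form `A x y = B x ((T - T ^ (r - 1)) y)` is
alternating, nondegenerate and `T`-invariant, with the same invariant totally isotropic subspaces.
-/

set_option autoImplicit false

namespace Cfsg.Agent.H60.Ot

open Cfsg.Agent.H45 Cfsg.Agent.H42.Spd Cfsg.Agent.H42.Ti Cfsg.Agent.H14.Ot Module Polynomial

universe u v

section Core

variable {F : Type u} [Field F] {W : Type v} [AddCommGroup W] [Module F W]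

theorem trick_pow_apply (T : Module.End F W) (r : ℕ) (hr : 1 ≤ r) (hT : T ^ r = 1) (x : W) :
    (T ^ (r - 1)) (T x) = x ∧ T ((T ^ (r - 1)) x) = x := by
  have h1 : T ^ (r - 1) * T = 1 := by rw [← pow_succ, Nat.sub_add_cancel hr, hT]
  have h2 : T * T ^ (r - 1) = 1 := by rw [← pow_succ', Nat.sub_add_cancel hr, hT]
  constructor
  · have := congrArg (fun f : Module.End F W => f x) h1
    simpa using this
  · have := congrArg (fun f : Module.End F W => f x) h2
    simpa using this

theorem trick_isom_pow (B : W →ₗ[F] W →ₗ[F] F) (T : Module.End F W)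
    (hisom : ∀ x y, B (T x) (T y) = B x y) (k : ℕ) (x y : W) :
    B ((T ^ k) x) ((T ^ k) y) = B x y := by
  induction k with
  | zero => simp
  | succ k ih => rw [pow_succ', Module.End.mul_apply, Module.End.mul_apply, hisom, ih]

/-- `B y (h x) = - B x (h y)` for `h = T - T ^ (r - 1)`. -/
theorem trick_herm (B : W →ₗ[F] W →ₗ[F] F) (T : Module.End F W) (r : ℕ) (hr : 1 ≤ r)
    (hsymm : ∀ x y, B x y = B y x) (hisom : ∀ x y, B (T x) (T y) = B x y) (hT : T ^ r = 1)
    (x y : W) : B y ((T - T ^ (r - 1)) x) = - B x ((T - T ^ (r - 1)) y) := by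
  obtain ⟨h1, h2⟩ := trick_pow_apply T r hr hT x
  have e1 : B y (T x) = B x ((T ^ (r - 1)) y) := by
    rw [← trick_isom_pow B T hisom (r - 1) y (T x), h1, hsymm]
  have e2 : B y ((T ^ (r - 1)) x) = B x (T y) := by
    rw [← hisom y ((T ^ (r - 1)) x), h2, hsymm]
  rw [LinearMap.sub_apply, LinearMap.sub_apply, map_sub, map_sub, e1, e2]
  ring

theorem trick_inj (T : Module.End F W) (r : ℕ) (hodd : Odd r) (hT : T ^ r = 1)
    (hker : LinearMap.ker (T - 1) = ⊥) (x : W) (hx : (T - T ^ (r - 1)) x = 0) : x = 0 := by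
  have hr : 1 ≤ r := hodd.pos
  obtain ⟨h1, h2⟩ := trick_pow_apply T r hr hT x
  have e1 : T x = (T ^ (r - 1)) x := by
    rw [LinearMap.sub_apply] at hx
    exact sub_eq_zero.mp hx
  have e2 : T (T x) = x := by rw [e1, h2]
  obtain ⟨k, hk⟩ := hodd
  have e3 : ∀ j : ℕ, (T ^ (2 * j)) x = x := by
    intro j
    induction j with
    | zero => simp
    | succ j ih =>
      rw [show 2 * (j + 1) = 2 * j + 2 by ring, pow_add, Module.End.mul_apply, pow_two,
        Module.End.mul_apply, e2, ih]
  have e4 : T x = x := by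
    have := congrArg (fun f : Module.End F W => f x) hT
    simp only [Module.End.one_apply] at this
    rw [hk, pow_succ', Module.End.mul_apply, e3 k] at this
    exact this
  have : x ∈ LinearMap.ker (T - 1) := by
    rw [LinearMap.mem_ker, LinearMap.sub_apply, e4, Module.End.one_apply, sub_self]
  rw [hker] at this
  exact (Submodule.mem_bot F).mp this

end Core

/-- OT-TRICK. -/
theorem oTrick (hS : StOSplit.{u, v}) : StOTrick.{u, v} := by
  intro F _ _ V _ _ _ r B T hO
  obtain ⟨hKU, hKUtop, -⟩ := hS F V r T hO.cast_ne hO.pow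
  have hr1 : 1 ≤ r := hO.prime.one_lt.le
  have hodd : Odd r := hO.prime.odd_of_ne_two hO.ne_two
  have hUinv : ∀ x ∈ LinearMap.range (T - 1), T x ∈ LinearMap.range (T - 1) := by
    rintro x ⟨y, rfl⟩
    refine ⟨T y, ?_⟩
    simp only [LinearMap.sub_apply, Module.End.one_apply, map_sub]
  let T' : Module.End F ↥(LinearMap.range (T - 1)) := T.restrict hUinv
  let ι : ↥(LinearMap.range (T - 1)) →ₗ[F] V := (LinearMap.range (T - 1)).subtype
  have hιT : ∀ x : ↥(LinearMap.range (T - 1)), ι (T' x) = T (ι x) := fun x => rfl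
  have hιTpow : ∀ (k : ℕ) (x : ↥(LinearMap.range (T - 1))), ι ((T' ^ k) x) = (T ^ k) (ι x) := by
    intro k
    induction k with
    | zero => intro x; simp
    | succ k ih =>
      intro x
      rw [pow_succ', pow_succ', Module.End.mul_apply, Module.End.mul_apply, hιT, ih]
  have hιinj : Function.Injective ι := (LinearMap.range (T - 1)).injective_subtype
  have hT'pow : T' ^ r = 1 := by
    apply LinearMap.ext
    intro x
    apply hιinj
    rw [hιTpow, hO.pow]
    rfl
  let B' : ↥(LinearMap.range (T - 1)) →ₗ[F] ↥(LinearMap.range (T - 1)) →ₗ[F] F := B.compl₁₂ ι ι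
  have hB' : ∀ x y, B' x y = B (ι x) (ι y) := fun x y => rfl
  have hB'symm : ∀ x y, B' x y = B' y x := fun x y => hO.symm _ _
  have hB'isom : ∀ x y, B' (T' x) (T' y) = B' x y := fun x y => hO.isom _ _
  have hUK : ∀ x : ↥(LinearMap.range (T - 1)), ∀ k ∈ LinearMap.ker (T - 1), B (ι x) k = 0 := by
    rintro ⟨_, ⟨y, rfl⟩⟩ k hk
    have hk' : T k = k := by
      rw [LinearMap.mem_ker, LinearMap.sub_apply, Module.End.one_apply] at hk
      exact sub_eq_zero.mp hk
    show B ((T - 1) y) k = 0
    rw [LinearMap.sub_apply, Module.End.one_apply, map_sub, LinearMap.sub_apply]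
    nth_rewrite 1 [← hk']
    rw [hO.isom, sub_self]
  have hB'nd : ∀ x : ↥(LinearMap.range (T - 1)), (∀ y, B' x y = 0) → x = 0 := by
    intro x hx
    apply hιinj
    rw [map_zero]
    apply hO.nondeg
    intro v
    have hv : v ∈ LinearMap.ker (T - 1) ⊔ LinearMap.range (T - 1) := by
      rw [hKUtop]
      trivial
    obtain ⟨k, hk, u, hu, rfl⟩ := Submodule.mem_sup.mp hv
    rw [map_add, hUK x k hk, zero_add]
    exact hx ⟨u, hu⟩
  have hker' : LinearMap.ker (T' - 1) = ⊥ := by
    rw [eq_bot_iff]
    intro x hx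
    rw [LinearMap.mem_ker, LinearMap.sub_apply, Module.End.one_apply] at hx
    have hx' : T (ι x) = ι x := by
      rw [← hιT]
      exact congrArg ι (sub_eq_zero.mp hx)
    have hmem : ι x ∈ LinearMap.ker (T - 1) ⊓ LinearMap.range (T - 1) := by
      refine ⟨?_, x.2⟩
      rw [SetLike.mem_coe, LinearMap.mem_ker, LinearMap.sub_apply, Module.End.one_apply, hx',
        sub_self]
    rw [hKU] at hmem
    rw [Submodule.mem_bot]
    apply hιinj
    rw [map_zero]
    exact (Submodule.mem_bot F).mp hmem
  let h' : Module.End F ↥(LinearMap.range (T - 1)) := T' - T' ^ (r - 1)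
  let A : ↥(LinearMap.range (T - 1)) →ₗ[F] ↥(LinearMap.range (T - 1)) →ₗ[F] F := B'.compl₂ h'
  have hA : ∀ x y, A x y = B' x (h' y) := fun x y => rfl
  have hherm : ∀ x y, A y x = - A x y :=
    fun x y => trick_herm B' T' r hr1 hB'symm hB'isom hT'pow x y
  have hinj : ∀ x, h' x = 0 → x = 0 := fun x hx => trick_inj T' r hodd hT'pow hker' x hx
  have hcomm : ∀ y, h' (T' y) = T' (h' y) := by
    intro y
    have hc : h' * T' = T' * h' := by
      show (T' - T' ^ (r - 1)) * T' = T' * (T' - T' ^ (r - 1))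
      rw [sub_mul, mul_sub, ← pow_succ, ← pow_succ']
    exact congrArg (fun f : Module.End F ↥(LinearMap.range (T - 1)) => f y) hc
  refine ⟨↥(LinearMap.range (T - 1)), inferInstance, inferInstance, inferInstance, A, T', ι,
    ?_, hιinj, hιT, ?_, hker', hUK, ?_⟩
  · refine ⟨hO.prime, hO.ne_two, hO.cast_ne, ⟨?_, ?_, ?_, ?_, ?_⟩, hT'pow⟩
    · intro x y
      rw [RingHom.id_apply, hherm x y]
      ring
    · intro x hx
      apply hinj
      apply hB'nd
      intro y
      rw [hB'symm]
      have h1 := hherm x y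
      rw [hx y, neg_zero] at h1
      exact h1
    · intro _ x
      have h1 := hherm x x
      have h2 : (2 : F) * A x x = 0 := by linear_combination h1
      exact (mul_eq_zero.mp h2).resolve_left hO.two_ne
    · intro x y
      rw [hA, hcomm, hB'isom]
      rfl
    · have : CharP F (ringChar F) := ringChar.charP F
      refine isSemisimple_of_pow_eq_one (ringChar F) T' r ?_ hT'pow
      intro hdvd
      exact hO.cast_ne ((ringChar.spec F r).mpr hdvd)
  · exact Submodule.range_subtype _
  · intro W' hW'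
    have hW'T : ∀ v ∈ W', T' v ∈ W' := fun v hv => hW' hv
    have hW'pow : ∀ (k : ℕ), ∀ v ∈ W', (T' ^ k) v ∈ W' := by
      intro k
      induction k with
      | zero => intro v hv; simpa using hv
      | succ k ih =>
        intro v hv
        rw [pow_succ', Module.End.mul_apply]
        exact hW'T _ (ih v hv)
    have hW'h : ∀ v ∈ W', h' v ∈ W' := by
      intro v hv
      show (T' - T' ^ (r - 1)) v ∈ W'
      rw [LinearMap.sub_apply]
      exact W'.sub_mem (hW'T v hv) (hW'pow _ v hv)
    constructor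
    · intro hTI a ha b hb
      obtain ⟨u, hu, rfl⟩ := ha
      obtain ⟨v, hv, rfl⟩ := hb
      let hr' : ↥W' →ₗ[F] ↥W' := h'.restrict hW'h
      have hrinj : Function.Injective hr' := by
        rw [← LinearMap.ker_eq_bot, LinearMap.ker_eq_bot']
        intro z hz
        have hz' : h' (z : ↥(LinearMap.range (T - 1))) = 0 := congrArg Subtype.val hz
        exact Subtype.ext (hinj _ hz')
      obtain ⟨v', hv'⟩ := (LinearMap.injective_iff_surjective.mp hrinj) ⟨v, hv⟩
      have hv'' : h' (v' : ↥(LinearMap.range (T - 1))) = v := congrArg Subtype.val hv'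
      have h1 := hTI u hu v' v'.2
      rw [hA, hv''] at h1
      exact h1
    · intro hTI u hu v hv
      rw [hA]
      exact hTI _ (Submodule.mem_map_of_mem hu) _ (Submodule.mem_map_of_mem (hW'h v hv))

example : Cfsg.Agent.H14.Ot.StOSplit.{u, v} → Cfsg.Agent.H14.Ot.StOTrick.{u, v} := oTrick

end Cfsg.Agent.H60.Ot
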