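import Mathlib

/-!
# S3793-P3: structure of a minimal group on which `σ ^ p ^ n` acts nontrivially

`fg_struct`: `Q` finite solvable, `σ` a fixed-point-free automorphism with `σ ^ p ^ (n+1) = 1`,
`β = σ ^ p ^ n` nontrivial on `Q` but trivial on every proper `σ`-invariant subgroup.  Then `Q` is
a `q`-group (`q ≠ p`) of class at most two; if `Q` is abelian every nontrivial power of `σ` is
fixed-point-free, and if `Q` is nonabelian then `β` centralises the centre and acts
fixed-point-freely modulo the centre.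
-/

set_option autoImplicit false
set_option linter.style.haveILetI false
set_option linter.unusedVariables false
set_option linter.unusedSectionVars false

namespace Cfsg.Agent.H60

open scoped commutatorElement

theorem fg_pow_prime_pow_mem {H : Type*} [Group H] {p : ℕ} (hp : p.Prime) (S : Subgroup H)
    (x : H) (m i : ℕ) (hx1 : x ^ p ^ (m + 1) = 1) (hi0 : 0 < i) (h : x ^ i ∈ S) :
    ∃ a, p ^ a ≤ i ∧ x ^ p ^ a ∈ S := by
  obtain ⟨a, ha, hg⟩ := (Nat.dvd_prime_pow hp).mp (Nat.gcd_dvd_right i (p ^ (m + 1)))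
  refine ⟨a, ?_, ?_⟩
  · have : p ^ a ∣ i := hg ▸ Nat.gcd_dvd_left i (p ^ (m + 1))
    exact Nat.le_of_dvd hi0 this
  · have e : (x ^ p ^ a) = (x ^ i) ^ (Nat.gcdA i (p ^ (m + 1))) := by
      have h2 := Nat.gcd_eq_gcd_ab i (p ^ (m + 1))
      rw [hg] at h2
      have h3 : x ^ ((p ^ a : ℕ) : ℤ) =
          x ^ ((i : ℤ) * Nat.gcdA i (p ^ (m + 1)) +
            ((p ^ (m + 1) : ℕ) : ℤ) * Nat.gcdB i (p ^ (m + 1))) := by
        rw [h2]
      rw [zpow_natCast, zpow_add, zpow_mul, zpow_mul, zpow_natCast, zpow_natCast, hx1, one_zpow,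
        mul_one] at h3
      exact h3
    rw [e]
    exact Subgroup.zpow_mem _ h _

/-- A finite group with a fixed-point-free automorphism of `p`-power order has order prime to
`p`. -/
theorem fg_card_coprime {Q : Type*} [Group Q] [Finite Q] {p : ℕ} (hp : p.Prime) (m : ℕ)
    (σ : MulAut Q) (hσ : σ ^ p ^ m = 1) (hfpf : ∀ x, σ x = x → x = 1) :
    ¬ p ∣ Nat.card Q := by
  haveI : Fact p.Prime := ⟨hp⟩
  have hP : IsPGroup p (Subgroup.zpowers σ) := by
    rintro ⟨g, hg⟩
    obtain ⟨k, rfl⟩ := Subgroup.mem_zpowers_iff.mp hg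
    refine ⟨m, ?_⟩
    apply Subtype.ext
    show (σ ^ k) ^ p ^ m = 1
    rw [← zpow_natCast, ← zpow_mul, mul_comm, zpow_mul, zpow_natCast, hσ, one_zpow]
  have h1 := hP.card_modEq_card_fixedPoints Q
  have h2 : MulAction.fixedPoints (Subgroup.zpowers σ) Q = {1} := by
    ext x
    rw [MulAction.mem_fixedPoints, Set.mem_singleton_iff]
    constructor
    · intro h
      exact hfpf x (h ⟨σ, Subgroup.mem_zpowers σ⟩)
    · rintro rfl g
      exact map_one (g : MulAut Q)
  rw [h2] at h1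
  have h3 : Nat.card (({1} : Set Q)) = 1 := by
    rw [Nat.card_coe_set_eq, Set.ncard_singleton]
  rw [h3] at h1
  intro hdvd
  have h4 : Nat.card Q % p = 0 := Nat.mod_eq_zero_of_dvd hdvd
  have h5 : Nat.card Q % p = 1 % p := h1
  rw [h4, Nat.mod_eq_of_lt hp.one_lt] at h5
  exact absurd h5 (by norm_num)

set_option maxHeartbeats 800000 in
theorem fg_struct {Q : Type*} [Group Q] [Finite Q] (hsol : Group.IsSolvable Q) {p : ℕ}
    (hp : p.Prime) (n : ℕ)
    (σ : MulAut Q) (hσ : σ ^ p ^ (n + 1) = 1) (hfpf : ∀ x, σ x = x → x = 1)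
    (hne : ∃ x, (σ ^ p ^ n) x ≠ x)
    (hmin : ∀ U : Subgroup Q, U ≠ ⊤ → (∀ x ∈ U, σ x ∈ U) → ∀ x ∈ U, (σ ^ p ^ n) x = x) :
    (∃ q : ℕ, q.Prime ∧ q ≠ p ∧ IsPGroup q Q) ∧
    (∀ x y : Q, ⁅x, y⁆ ∈ Subgroup.center Q) ∧
    ((∀ x y : Q, x * y = y * x) →
        ∀ i, 0 < i → i < p ^ (n + 1) → ∀ x, (σ ^ i) x = x → x = 1) ∧
    ((∃ x y : Q, x * y ≠ y * x) →
        (∀ z ∈ Subgroup.center Q, (σ ^ p ^ n) z = z) ∧
        (∀ x : Q, x⁻¹ * (σ ^ p ^ n) x ∈ Subgroup.center Q → x ∈ Subgroup.center Q)) := by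
  classical
  obtain ⟨β, hβ⟩ : ∃ β : MulAut Q, β = σ ^ p ^ n := ⟨_, rfl⟩
  rw [← hβ] at hne hmin ⊢
  have hβp : β ^ p = 1 := by rw [hβ, ← pow_mul, ← pow_succ]; exact hσ
  have hβσ : ∀ x, β (σ x) = σ (β x) := by
    intro x
    have h1 : β * σ = σ * β := by rw [hβ, ← pow_succ, ← pow_succ']
    exact DFunLike.congr_fun h1 x
  have hpQ : ¬ p ∣ Nat.card Q := fg_card_coprime hp (n + 1) σ hσ hfpf
  have hcp : ∀ c : Q, c ^ p = 1 → c = 1 := by
    intro c hc
    have h1 : orderOf c ∣ p := orderOf_dvd_of_pow_eq_one hc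
    have h2 : orderOf c ∣ Nat.card Q := orderOf_dvd_natCard c
    rcases (Nat.dvd_prime hp).mp h1 with h | h
    · exact orderOf_eq_one_iff.mp h
    · rw [h] at h2; exact absurd h2 hpQ
  have hpow : ∀ x : Q, β (x⁻¹ * β x) = x⁻¹ * β x → β x = x := by
    intro x hx
    have h1 : ∀ i : ℕ, (β ^ i) x = x * (x⁻¹ * β x) ^ i := by
      intro i
      induction i with
      | zero => simp
      | succ i ih =>
        rw [pow_succ', MulAut.mul_apply, ih, map_mul, map_pow, hx, pow_succ', ← mul_assoc,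
          mul_inv_cancel_left]
    have h2 := h1 p
    rw [hβp, MulAut.one_apply] at h2
    have h3 : (x⁻¹ * β x) ^ p = 1 := by
      have h4 : x * (x⁻¹ * β x) ^ p = x * 1 := by rw [← h2, mul_one]
      exact mul_left_cancel h4
    have h4 := hcp _ h3
    exact (inv_mul_eq_one.mp h4).symm
  -- `Q = [Q, β]`
  obtain ⟨Q₂, hQ₂⟩ : ∃ Q₂ : Subgroup Q, Q₂ = Subgroup.closure {y | ∃ x, y = x⁻¹ * β x} :=
    ⟨_, rfl⟩
  have hQ₂σ : ∀ y ∈ Q₂, σ y ∈ Q₂ := by
    intro y hy
    rw [hQ₂] at hy ⊢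
    induction hy using Subgroup.closure_induction with
    | mem y hy =>
      obtain ⟨x, rfl⟩ := hy
      apply Subgroup.subset_closure
      exact ⟨σ x, by rw [map_mul, map_inv, hβσ]⟩
    | one => rw [map_one]; exact Subgroup.one_mem _
    | mul a b _ _ ha hb => rw [map_mul]; exact Subgroup.mul_mem _ ha hb
    | inv a _ ha => rw [map_inv]; exact Subgroup.inv_mem _ ha
  have hQ₂eq : Q₂ = ⊤ := by
    by_contra hne'
    have h1 := hmin Q₂ hne' hQ₂σ
    obtain ⟨x₀, hx₀⟩ := hne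
    apply hx₀
    apply hpow
    apply h1
    rw [hQ₂]; exact Subgroup.subset_closure ⟨x₀, rfl⟩
  have hgen : ∀ K : Subgroup Q, (∀ x, x⁻¹ * β x ∈ K) → ∀ y, y ∈ K := by
    intro K hK y
    have h1 : Q₂ ≤ K := by
      rw [hQ₂, Subgroup.closure_le]
      rintro _ ⟨x, rfl⟩
      exact hK x
    exact h1 (by rw [hQ₂eq]; exact Subgroup.mem_top y)
  haveI hQnt : Nontrivial Q := by
    obtain ⟨x₀, hx₀⟩ := hne
    refine ⟨⟨x₀, 1, ?_⟩⟩
    intro h
    apply hx₀
    rw [h, map_one]
  have hDne : commutator Q ≠ ⊤ := (Group.IsSolvable.commutator_lt_top_of_nontrivial Q).ne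
  have hchar : ∀ U : Subgroup Q, U.Characteristic → ∀ x ∈ U, σ x ∈ U := by
    intro U hU x hx
    exact (Subgroup.characteristic_iff_map_le.mp hU σ) ⟨x, hx, rfl⟩
  have hDβ : ∀ c ∈ commutator Q, β c = c := hmin _ hDne (hchar _ inferInstance)
  have hDcent : ∀ c ∈ commutator Q, c ∈ Subgroup.center Q := by
    intro c hc
    rw [Subgroup.mem_center_iff]
    have h1 : ∀ y, y ∈ Subgroup.centralizer {c} := by
      apply hgen
      intro x
      rw [Subgroup.mem_centralizer_iff]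
      intro c' hc'
      rw [Set.mem_singleton_iff] at hc'
      rw [hc']
      have h2 : x * c * x⁻¹ ∈ commutator Q :=
        (inferInstance : (commutator Q).Normal).conj_mem c hc x
      have h4 := hDβ _ h2
      simp only [map_mul, map_inv] at h4
      rw [hDβ c hc] at h4
      calc c * (x⁻¹ * β x) = x⁻¹ * (x * c * x⁻¹) * β x := by group
        _ = x⁻¹ * (β x * c * (β x)⁻¹) * β x := by rw [h4]
        _ = x⁻¹ * β x * c := by group
    intro g
    exact (Subgroup.mem_centralizer_iff.mp (h1 g) c rfl).symm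
  have hcc : ∀ x y : Q, ⁅x, y⁆ ∈ Subgroup.center Q := fun x y =>
    hDcent _ (Subgroup.commutator_mem_commutator (Subgroup.mem_top x) (Subgroup.mem_top y))
  -- nilpotent, Sylow subgroups normal
  have hnil : Group.IsNilpotent Q := by
    rw [Group.isNilpotent_iff]
    refine ⟨2, ?_⟩
    rw [eq_top_iff]
    intro x _
    rw [Subgroup.mem_upperCentralSeries_succ_iff]
    intro y
    rw [Subgroup.upperCentralSeries_one]
    exact hcc x y
  have hnorm : ∀ (q : ℕ), Fact q.Prime → ∀ (P : Sylow q Q), (P : Subgroup Q).Normal :=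
    ((Group.isNilpotent_of_finite_tfae (G := Q)).out 0 3).mp hnil
  have hSyl : ∀ (q : ℕ) (hq : Fact q.Prime) (P : Sylow q Q), (P : Subgroup Q) ≠ ⊤ →
      ∀ x ∈ (P : Subgroup Q), β x = x := by
    intro q hq P hP
    exact hmin _ hP (hchar _ (Sylow.characteristic_of_normal P (hnorm q hq P)))
  have hq : ∃ q : ℕ, q.Prime ∧ q ≠ p ∧ IsPGroup q Q := by
    by_contra hcon
    have hall : ∀ (q : ℕ) (hq : Fact q.Prime) (P : Sylow q Q), (P : Subgroup Q) ≠ ⊤ := by
      intro q hq P hP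
      apply hcon
      have hPG : IsPGroup q Q := by
        intro x
        obtain ⟨k, hk⟩ := P.isPGroup' ⟨x, by rw [hP]; exact Subgroup.mem_top x⟩
        exact ⟨k, by simpa using congrArg Subtype.val hk⟩
      refine ⟨q, hq.out, ?_, hPG⟩
      intro hqp
      obtain ⟨k, hk⟩ := IsPGroup.iff_card.mp hPG
      have hk0 : k ≠ 0 := by
        intro h0
        rw [h0, pow_zero] at hk
        exact (Finite.one_lt_card (α := Q)).ne' hk
      apply hpQ
      rw [hk, ← hqp]
      exact dvd_pow_self q hk0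
    obtain ⟨F, hF⟩ : ∃ F : Subgroup Q, ∀ x, x ∈ F ↔ β x = x :=
      ⟨{ carrier := {x | β x = x}
         mul_mem' := by
           intro a b ha hb
           show β (a * b) = a * b
           rw [map_mul, ha, hb]
         one_mem' := map_one β
         inv_mem' := by
           intro a ha
           show β a⁻¹ = a⁻¹
           rw [map_inv, ha] }, fun x => Iff.rfl⟩
    have hFtop : F = ⊤ := by
      apply Subgroup.eq_top_of_card_eq
      apply Nat.dvd_antisymm (Subgroup.card_subgroup_dvd_card F)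
      rw [← Nat.factorization_prime_le_iff_dvd Nat.card_pos.ne' Nat.card_pos.ne']
      intro q hq
      haveI : Fact q.Prime := ⟨hq⟩
      obtain ⟨P⟩ : Nonempty (Sylow q Q) := inferInstance
      have h1 : (P : Subgroup Q) ≤ F := fun x hx =>
        (hF x).mpr (hSyl q ⟨hq⟩ P (hall q ⟨hq⟩ P) x hx)
      have h2 : Nat.card (P : Subgroup Q) ∣ Nat.card F := Subgroup.card_dvd_of_le h1
      rw [Sylow.card_eq_multiplicity] at h2
      exact (hq.pow_dvd_iff_le_factorization Nat.card_pos.ne').mp h2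
    obtain ⟨x₀, hx₀⟩ := hne
    exact hx₀ ((hF x₀).mp (by rw [hFtop]; exact Subgroup.mem_top x₀))
  refine ⟨hq, hcc, ?_, ?_⟩
  · -- abelian case
    intro hcomm i hi0 hi x hx
    obtain ⟨φ, hφ⟩ : ∃ φ : Q →* Q, ∀ y, φ y = y⁻¹ * β y := by
      refine ⟨MonoidHom.mk' (fun y => y⁻¹ * β y) ?_, fun y => rfl⟩
      intro a b
      show (a * b)⁻¹ * β (a * b) = a⁻¹ * β a * (b⁻¹ * β b)
      rw [map_mul, mul_inv_rev, hcomm b⁻¹ a⁻¹, mul_assoc, mul_assoc, ← mul_assoc b⁻¹,
        hcomm b⁻¹ (β a), mul_assoc]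
    have hsurj : Function.Surjective φ := by
      intro y
      exact hgen φ.range (fun x => ⟨x, hφ x⟩) y
    have hinj : Function.Injective φ := Finite.injective_iff_surjective.mpr hsurj
    have hβ1 : ∀ y, β y = y → y = 1 := by
      intro y hy
      apply hinj
      rw [hφ, hy, map_one, inv_mul_cancel]
    apply hβ1
    obtain ⟨a, ha, haS⟩ := fg_pow_prime_pow_mem hp (MulAction.stabilizer (MulAut Q) x) σ n i hσ
      hi0 (by rw [MulAction.mem_stabilizer_iff]; exact hx)
    have han : a ≤ n := by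
      have h1 : p ^ a < p ^ (n + 1) := lt_of_le_of_lt ha hi
      have h2 := (Nat.pow_lt_pow_iff_right hp.one_lt).mp h1
      omega
    have hβS : β ∈ MulAction.stabilizer (MulAut Q) x := by
      have e : β = (σ ^ p ^ a) ^ p ^ (n - a) := by
        rw [hβ, ← pow_mul, ← pow_add]
        congr 2
        omega
      rw [e]
      exact Subgroup.pow_mem _ haS _
    exact MulAction.mem_stabilizer_iff.mp hβS
  · -- nonabelian case
    rintro ⟨a, b, hab⟩
    have hZne : Subgroup.center Q ≠ ⊤ := by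
      intro h
      apply hab
      have h1 : b ∈ Subgroup.center Q := by rw [h]; exact Subgroup.mem_top b
      exact Subgroup.mem_center_iff.mp h1 a
    have hZβ : ∀ z ∈ Subgroup.center Q, β z = z := hmin _ hZne (hchar _ inferInstance)
    refine ⟨hZβ, ?_⟩
    intro x hx
    have hβx : β x = x := hpow x (hZβ _ hx)
    rw [Subgroup.mem_center_iff]
    have h1 : ∀ y, y ∈ Subgroup.centralizer {x} := by
      apply hgen
      intro y
      rw [Subgroup.mem_centralizer_iff]
      intro x' hx'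
      rw [Set.mem_singleton_iff] at hx'
      rw [hx']
      have h2 : β ⁅x, y⁆ = ⁅x, y⁆ := hZβ _ (hcc x y)
      rw [commutatorElement_def] at h2
      simp only [map_mul, map_inv, hβx] at h2
      have h3 : β y * x⁻¹ * (β y)⁻¹ = y * x⁻¹ * y⁻¹ := by
        have h5 : x * (β y * x⁻¹ * (β y)⁻¹) = x * (y * x⁻¹ * y⁻¹) := by
          rw [← mul_assoc, ← mul_assoc, ← mul_assoc, ← mul_assoc]; exact h2
        exact mul_left_cancel h5
      have h4 : (y⁻¹ * β y) * x⁻¹ = x⁻¹ * (y⁻¹ * β y) := by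
        calc (y⁻¹ * β y) * x⁻¹ = y⁻¹ * (β y * x⁻¹ * (β y)⁻¹) * β y := by group
          _ = y⁻¹ * (y * x⁻¹ * y⁻¹) * β y := by rw [h3]
          _ = x⁻¹ * (y⁻¹ * β y) := by group
      calc x * (y⁻¹ * β y) = x * (y⁻¹ * β y * x⁻¹) * x := by group
        _ = x * (x⁻¹ * (y⁻¹ * β y)) * x := by rw [h4]
        _ = y⁻¹ * β y * x := by group
    intro g
    exact (Subgroup.mem_centralizer_iff.mp (h1 g) x rfl).symm

end Cfsg.Agent.H60
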