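import Cfsg.Agent.H74.TsDefs
import Cfsg.Agent.H25.SxSylJ

/-!
# TS-OV (piece of S2948, helper74): a 2-local `L ≰ M` is in the family of a Sylow 2-subgroup
`T₀` of `L` with `N_G(J(T₀)) ≤ M`.
-/

set_option autoImplicit false
open Cfsg

universe u

namespace Cfsg.Agent.H60.Ts

section
variable {G : Type u} [Group G]

theorem ov_mem_normalizer_of_map_conj_eq {H : Subgroup G} {g : G}
    (h : H.map (MulAut.conj g).toMonoidHom = H) : g ∈ Subgroup.normalizer (H : Set G) := by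
  rw [Subgroup.mem_normalizer_iff]
  intro x
  constructor
  · intro hx
    have h1 : g * x * g⁻¹ ∈ H.map (MulAut.conj g).toMonoidHom := ⟨x, hx, rfl⟩
    rwa [h] at h1
  · intro hx
    rw [← h] at hx
    obtain ⟨y, hy, hyx⟩ := hx
    have h2 : y = x := by
      have h3 : g * y * g⁻¹ = g * x * g⁻¹ := hyx
      have h4 : g⁻¹ * (g * y * g⁻¹) * g = g⁻¹ * (g * x * g⁻¹) * g := by rw [h3]
      simpa [mul_assoc] using h4
    rw [← h2]; exact hy

theorem ov_map_conj_eq_of_mem_normalizer {H : Subgroup G} {g : G}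
    (hg : g ∈ Subgroup.normalizer (H : Set G)) : H.map (MulAut.conj g).toMonoidHom = H := by
  rw [Subgroup.mem_normalizer_iff] at hg
  ext x
  constructor
  · rintro ⟨y, hy, rfl⟩
    exact (hg y).mp hy
  · intro hx
    refine ⟨g⁻¹ * x * g, ?_, ?_⟩
    · refine (hg (g⁻¹ * x * g)).mpr ?_
      have h1 : g * (g⁻¹ * x * g) * g⁻¹ = x := by group
      rw [h1]; exact hx
    · show g * (g⁻¹ * x * g) * g⁻¹ = x
      group

end

theorem ov : Cfsg.Agent.H74.Ts.StOV.{u} := by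
  intro G _ _ hchar M T₀ L hL hLM hSyl hNJ
  have hSyl' := hSyl
  obtain ⟨hT₀L, hT₀2, hodd⟩ := hSyl
  obtain ⟨U, hU2, hUne, hLeq⟩ := hL
  -- facts on Q := pCoreOf 2 L
  have hQn : (pCore 2 ↥L).Normal := Subgroup.sSup_normal _ (fun _ hH => hH.1)
  have hQp : IsPGroup 2 ↥(pCore 2 ↥L) :=
    Sylow.sSup_of_normal _ (fun _ hH => hH.2) (fun _ hH => hH.1)
  have hQL : pCoreOf 2 L ≤ L := Subgroup.map_subtype_le _
  have hQ2 : IsPGroup 2 ↥(pCoreOf 2 L) := hQp.map L.subtype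
  -- `L` normalizes `Q`
  have hconjQ : ∀ l ∈ L, (pCoreOf 2 L).map (MulAut.conj l).toMonoidHom ≤ pCoreOf 2 L := by
    rintro l hl _ ⟨_, ⟨q, hq, rfl⟩, rfl⟩
    exact ⟨⟨l, hl⟩ * q * ⟨l, hl⟩⁻¹, hQn.conj_mem q hq ⟨l, hl⟩, rfl⟩
  have hconjQ' : ∀ l ∈ L, (pCoreOf 2 L).map (MulAut.conj l).toMonoidHom = pCoreOf 2 L := by
    intro l hl
    apply Subgroup.eq_of_le_of_card_ge (hconjQ l hl)
    rw [Subgroup.card_map_of_injective (MulAut.conj l).injective]
  have hLnorm : L ≤ Subgroup.normalizer (pCoreOf 2 L : Set G) := fun l hl =>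
    ov_mem_normalizer_of_map_conj_eq (hconjQ' l hl)
  -- `Q ≤ T₀`
  have hQT : pCoreOf 2 L ≤ T₀ := by
    have hsup : IsPGroup 2 ↥(T₀ ⊔ pCoreOf 2 L) :=
      IsPGroup.to_sup_of_normal_right' hT₀2 hQ2 (hT₀L.trans hLnorm)
    have hle1 : T₀ ≤ T₀ ⊔ pCoreOf 2 L := le_sup_left
    have hle2 : T₀ ⊔ pCoreOf 2 L ≤ L := sup_le hT₀L hQL
    have hmul := Subgroup.relIndex_mul_relIndex T₀ (T₀ ⊔ pCoreOf 2 L) L hle1 hle2
    have hodd1 : Odd (T₀.relIndex (T₀ ⊔ pCoreOf 2 L)) := by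
      rw [← hmul] at hodd
      exact (Nat.odd_mul.mp hodd).1
    obtain ⟨n, hn⟩ := hsup.index (T₀.subgroupOf (T₀ ⊔ pCoreOf 2 L))
    have hrel : T₀.relIndex (T₀ ⊔ pCoreOf 2 L) = 2 ^ n := hn
    have hn0 : n = 0 := by
      by_contra hne
      rw [hrel] at hodd1
      have : Even (2 ^ n) := (Nat.even_pow' hne).mpr even_two
      exact (Nat.not_odd_iff_even.mpr this) hodd1
    rw [hn0, pow_zero, Subgroup.relIndex_eq_one] at hrel
    exact le_sup_right.trans hrel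
  refine ⟨hSyl', ?_, ?_⟩
  · -- `J(T₀) ≰ Q`
    intro hJ
    have hJeq : thompsonSubgroupOf 2 (pCoreOf 2 L) = thompsonSubgroupOf 2 T₀ :=
      Cfsg.Agent.H25.Sx.thompson_eq_of_sandwich 2 (pCoreOf 2 L) T₀ hQT hJ
    apply hLM
    refine le_trans ?_ hNJ
    intro l hl
    apply ov_mem_normalizer_of_map_conj_eq
    rw [← hJeq, ← Cfsg.Agent.H25.Sx.thompson_map_conj, hconjQ' l hl]
  · -- `C_G(Q) ≤ Q`
    subst hLeq
    have hUN : U ≤ Subgroup.normalizer (U : Set G) := Subgroup.le_normalizer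
    have hUQ : U ≤ pCoreOf 2 (Subgroup.normalizer (U : Set G)) := by
      intro u hu
      have h1 : U.subgroupOf (Subgroup.normalizer (U : Set G)) ≤
          pCore 2 ↥(Subgroup.normalizer (U : Set G)) :=
        le_sSup ⟨Subgroup.normal_in_normalizer, hU2.comap_subtype⟩
      exact ⟨⟨u, hUN hu⟩, h1 (Subgroup.mem_subgroupOf.mpr hu), rfl⟩
    intro g hg
    have hgU : g ∈ Subgroup.centralizer (U : Set G) :=
      Subgroup.centralizer_le hUQ hg
    have hgN : g ∈ Subgroup.normalizer (U : Set G) :=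
      Subgroup.centralizer_le_normalizer (U : Set G) hgU
    have hchar2 := hchar.2 U hU2 hUne
    unfold IsOfCharacteristicTwo at hchar2
    have hmem : (⟨g, hgN⟩ : ↥(Subgroup.normalizer (U : Set G))) ∈
        Subgroup.centralizer (pCore 2 ↥(Subgroup.normalizer (U : Set G)) :
          Set ↥(Subgroup.normalizer (U : Set G))) := by
      rw [Subgroup.mem_centralizer_iff]
      intro q hq
      apply Subtype.ext
      rw [Subgroup.mem_centralizer_iff] at hg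
      exact hg (q : G) ⟨q, hq, rfl⟩
    exact ⟨⟨g, hgN⟩, hchar2 hmem, rfl⟩

example : ∀ {G : Type u} [Group G] [Finite G], IsCharacteristicTwoType G →
  ∀ (M T₀ L : Subgroup G), IsTwoLocal L → ¬ L ≤ M → IsSylowTwoIn T₀ L →
  Subgroup.normalizer (thompsonSubgroupOf 2 T₀ : Set G) ≤ M →
  L ∈ jOvergroups T₀ := ov

end Cfsg.Agent.H60.Ts

#print axioms Cfsg.Agent.H60.Ts.ov
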