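import Mathlib
import Cfsg.Agent.H34.ThDefs

/-!
# S1632 team project (helper34): piece TH-1D (helper60)

One-dimensional Poisson summation for a Gaussian with a shift and a phase, and the uniform bound
for shifted Gaussian sums.
-/

set_option autoImplicit false

namespace Cfsg.Agent.H60.Th

open Real Cfsg.Agent.H34.Th

/-- TH-1D (a). -/
theorem oneF : St1F := by
  intro a ha s p
  have haC : (0 : ℝ) < ((a : ℂ)).re := by simpa using ha
  have ha0 : (a : ℂ) ≠ 0 := by exact_mod_cast ha.ne'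
  constructor
  · have h1 : Summable (fun n : ℤ =>
        ‖jacobiTheta₂_term n (Complex.I * ((a * s : ℝ) : ℂ)) (Complex.I * (a : ℂ))‖) :=
      ((summable_jacobiTheta₂_term_iff (Complex.I * ((a * s : ℝ) : ℂ)) (Complex.I * (a : ℂ))).mpr
        (by simpa using ha)).norm
    have h2 : ∀ k : ℤ, Real.exp (-π * a * ((k : ℝ) + s) ^ 2) = Real.exp (-π * a * s ^ 2) *
        ‖jacobiTheta₂_term k (Complex.I * ((a * s : ℝ) : ℂ)) (Complex.I * (a : ℂ))‖ := by
      intro k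
      rw [norm_jacobiTheta₂_term, ← Real.exp_add]
      congr 1
      have e1 : (Complex.I * ((a * s : ℝ) : ℂ)).im = a * s := by
        rw [Complex.I_mul_im, Complex.ofReal_re]
      have e2 : (Complex.I * (a : ℂ)).im = a := by
        rw [Complex.I_mul_im, Complex.ofReal_re]
      rw [e1, e2]
      ring
    have h3 : (fun k : ℤ => Real.exp (-π * a * ((k : ℝ) + s) ^ 2)) = fun k : ℤ =>
        Real.exp (-π * a * s ^ 2) *
          ‖jacobiTheta₂_term k (Complex.I * ((a * s : ℝ) : ℂ)) (Complex.I * (a : ℂ))‖ :=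
      funext h2
    rw [h3]
    exact h1.mul_left _
  · have key := Complex.tsum_exp_neg_quadratic haC (Complex.I * (p : ℂ) - (a : ℂ) * (s : ℂ))
    have hL : ∀ k : ℤ, Complex.exp (((-π * a * ((k : ℝ) + s) ^ 2 : ℝ) : ℂ) +
        2 * π * Complex.I * (((k : ℝ) * p : ℝ) : ℂ)) =
        Complex.exp (-((π : ℂ) * a * s ^ 2)) * Complex.exp (-π * (a : ℂ) * (k : ℂ) ^ 2 +
          2 * π * (Complex.I * (p : ℂ) - (a : ℂ) * (s : ℂ)) * k) := by
      intro k
      rw [← Complex.exp_add]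
      congr 1
      push_cast
      ring
    have hR : ∀ m : ℤ, Complex.exp (((-π * ((m : ℝ) - p) ^ 2 / a : ℝ) : ℂ) +
        2 * π * Complex.I * ((((m : ℝ) - p) * s : ℝ) : ℂ)) =
        Complex.exp (-((π : ℂ) * a * s ^ 2)) * Complex.exp (-π / (a : ℂ) *
          ((m : ℂ) + Complex.I * (Complex.I * (p : ℂ) - (a : ℂ) * (s : ℂ))) ^ 2) := by
      intro m
      rw [← Complex.exp_add]
      congr 1
      push_cast
      have hI : Complex.I ^ 2 = -1 := Complex.I_sq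
      field_simp
      linear_combination (2 * (m : ℂ) * (p : ℂ) - 2 * (p : ℂ) * (a : ℂ) * (s : ℂ) * Complex.I +
        (p : ℂ) ^ 2 * (Complex.I ^ 2 - 1) + (a : ℂ) ^ 2 * (s : ℂ) ^ 2) * hI
    have hsq : ((1 / Real.sqrt a : ℝ) : ℂ) = 1 / (a : ℂ) ^ (1 / 2 : ℂ) := by
      rw [Real.sqrt_eq_rpow, Complex.ofReal_div, Complex.ofReal_one, Complex.ofReal_cpow ha.le]
      norm_num
    simp only [hL, hR]
    rw [tsum_mul_left, tsum_mul_left, key, hsq]
    ring

/-- TH-1D (b). -/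
theorem oneUB (h : St1F) : St1UB := by
  intro a ha
  have hainv : 0 < 1 / a := one_div_pos.mpr ha
  have hsumD : Summable (fun m : ℤ => Real.exp (-π * (1 / a) * ((m : ℝ) + 0) ^ 2)) :=
    (h (1 / a) hainv 0 0).1
  refine ⟨(1 / Real.sqrt a) * ∑' m : ℤ, Real.exp (-π * (1 / a) * ((m : ℝ) + 0) ^ 2), ?_⟩
  intro s
  obtain ⟨hsum, heq⟩ := h a ha s 0
  refine ⟨hsum, ?_⟩
  have hLHS : ∑' k : ℤ, Complex.exp (((-π * a * ((k : ℝ) + s) ^ 2 : ℝ) : ℂ) +
      2 * π * Complex.I * (((k : ℝ) * 0 : ℝ) : ℂ)) =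
      ((∑' k : ℤ, Real.exp (-π * a * ((k : ℝ) + s) ^ 2) : ℝ) : ℂ) := by
    rw [Complex.ofReal_tsum]
    apply tsum_congr
    intro k
    rw [mul_zero, Complex.ofReal_zero, mul_zero, add_zero, Complex.ofReal_exp]
  rw [hLHS] at heq
  have hnorm : ∀ m : ℤ, ‖Complex.exp (((-π * ((m : ℝ) - 0) ^ 2 / a : ℝ) : ℂ) +
      2 * π * Complex.I * ((((m : ℝ) - 0) * s : ℝ) : ℂ))‖ =
      Real.exp (-π * (1 / a) * ((m : ℝ) + 0) ^ 2) := by
    intro m
    rw [Complex.norm_exp]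
    congr 1
    have e1 : (2 * (π : ℂ) * Complex.I * ((((m : ℝ) - 0) * s : ℝ) : ℂ)).re = 0 := by
      have e0 : 2 * (π : ℂ) * Complex.I * ((((m : ℝ) - 0) * s : ℝ) : ℂ) =
          ((2 * π * (((m : ℝ) - 0) * s) : ℝ) : ℂ) * Complex.I := by
        push_cast
        ring
      rw [e0, Complex.re_ofReal_mul, Complex.I_re, mul_zero]
    rw [Complex.add_re, Complex.ofReal_re, e1, add_zero]
    ring
  have hnsum : Summable (fun m : ℤ => ‖Complex.exp (((-π * ((m : ℝ) - 0) ^ 2 / a : ℝ) : ℂ) +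
      2 * π * Complex.I * ((((m : ℝ) - 0) * s : ℝ) : ℂ))‖) := by
    rw [show (fun m : ℤ => ‖Complex.exp (((-π * ((m : ℝ) - 0) ^ 2 / a : ℝ) : ℂ) +
      2 * π * Complex.I * ((((m : ℝ) - 0) * s : ℝ) : ℂ))‖) =
      fun m : ℤ => Real.exp (-π * (1 / a) * ((m : ℝ) + 0) ^ 2) from funext hnorm]
    exact hsumD
  have h1 : ‖((∑' k : ℤ, Real.exp (-π * a * ((k : ℝ) + s) ^ 2) : ℝ) : ℂ)‖ ≤
      (1 / Real.sqrt a) * ∑' m : ℤ, Real.exp (-π * (1 / a) * ((m : ℝ) + 0) ^ 2) := by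
    rw [heq, norm_mul, Complex.norm_real, Real.norm_of_nonneg (by positivity)]
    apply mul_le_mul_of_nonneg_left _ (by positivity)
    exact (norm_tsum_le_tsum_norm hnsum).trans (le_of_eq (tsum_congr hnorm))
  have h2 : ‖((∑' k : ℤ, Real.exp (-π * a * ((k : ℝ) + s) ^ 2) : ℝ) : ℂ)‖ =
      ∑' k : ℤ, Real.exp (-π * a * ((k : ℝ) + s) ^ 2) := by
    rw [Complex.norm_real, Real.norm_of_nonneg (tsum_nonneg (fun k => (Real.exp_pos _).le))]
  rw [h2] at h1
  exact h1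

example : Cfsg.Agent.H34.Th.St1F := oneF

example : Cfsg.Agent.H34.Th.St1F → Cfsg.Agent.H34.Th.St1UB := oneUB

end Cfsg.Agent.H60.Th
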