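import Mathlib
import Cfsg.Agent.H42.TiDefs
import Cfsg.Agent.H77.SpdFix

set_option autoImplicit false

/-!
# SPI-UPPEREVEN (S5955 team piece for helper42): the upper bound for `i` even
-/

namespace Cfsg.Agent.H60.Ti

open Cfsg.Agent.H45 Cfsg.Agent.H42.Spd Cfsg.Agent.H42.Spn Cfsg.Agent.H42.Ti Module Polynomial

universe u v

theorem tiUpperEven (hC : StCycSet.{u}) (hP : StTiPrim.{u, v}) (hD : StTiCompDvd.{u, v})
    (hN : StTiCompNd.{u, v}) (hH : StTiHalf.{u, v}) : StTiUpperEven.{u, v} := by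
  intro F _ _ V _ _ _ r B T hc hev Φs hΦ W hW hTI
  have hI : Iso B T := ⟨hc.good.alt rfl, hc.good.nondeg, hc.good.isom⟩
  obtain ⟨hcard, hdeg, -⟩ := (hC F r hc.prime hc.cast_ne).2 Φs hΦ
  have hr3 : 3 ≤ r := by
    have h1 := hc.prime.two_le
    have h2 := hc.ne_two
    omega
  have hi0 : 0 < ii F r := by
    rcases Nat.eq_zero_or_pos (ii F r) with h | h
    · rw [h, mul_zero] at hcard
      omega
    · exact h
  have hprim := hP F V r T hc.prime hc.cast_ne hc.pow Φs hΦ W hW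
  have htop : Nd B T ⊤ := nd_top B T hc.good.nondeg (fun x y h => hc.good.refl h)
  have hfix : Nd B T (⊤ ⊓ LinearMap.ker (T - 1)) := Cfsg.Agent.H77.Spd.fix F V r B T hc ⊤ htop
  have hw : 2 * Module.finrank F ↥(W ⊓ LinearMap.ker (T - 1)) ≤ kk T ⊤ :=
    hH F V B T hI (⊤ ⊓ LinearMap.ker (T - 1)) (W ⊓ LinearMap.ker (T - 1)) hfix.2
      (le_inf le_top inf_le_right) (fun u hu v hv => hTI u hu.1 v hv.1)
  have hcomp : ∀ φ ∈ Φs, ∃ s, Module.finrank F ↥(W ⊓ LinearMap.ker (aeval T φ)) = ii F r * s ∧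
      s ≤ Module.finrank F ↥(LinearMap.ker (aeval T φ)) / (2 * ii F r) := by
    intro φ hφ
    obtain ⟨hmon, hirr, hdvd⟩ := (hΦ φ).1 hφ
    have h1 := hD F V T φ hirr W hW
    rw [hdeg φ hφ] at h1
    obtain ⟨s, hs⟩ := h1
    refine ⟨s, hs, ?_⟩
    have hnd := hN F V r B T hc hev φ hmon hirr hdvd ⊤ htop
    have h2 := hH F V B T hI (⊤ ⊓ LinearMap.ker (aeval T φ)) (W ⊓ LinearMap.ker (aeval T φ))
      hnd.2 (le_inf le_top inf_le_right) (fun u hu v hv => hTI u hu.1 v hv.1)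
    rw [top_inf_eq, hs] at h2
    rw [Nat.le_div_iff_mul_le (by omega)]
    calc s * (2 * ii F r) = 2 * (ii F r * s) := by ring
      _ ≤ _ := h2
  choose! sf hsf using hcomp
  refine ⟨∑ φ ∈ Φs, sf φ, Module.finrank F ↥(W ⊓ LinearMap.ker (T - 1)), ?_, hw, ?_⟩
  · rw [hprim, Finset.mul_sum, add_comm]
    congr 1
    exact Finset.sum_congr rfl (fun φ hφ => (hsf φ hφ).1)
  · exact Finset.sum_le_sum (fun φ hφ => (hsf φ hφ).2)

example (hC : Cfsg.Agent.H42.Ti.StCycSet.{u}) (hP : Cfsg.Agent.H42.Ti.StTiPrim.{u, v})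
    (hD : Cfsg.Agent.H42.Ti.StTiCompDvd.{u, v}) (hN : Cfsg.Agent.H42.Ti.StTiCompNd.{u, v})
    (hH : Cfsg.Agent.H42.Ti.StTiHalf.{u, v}) : Cfsg.Agent.H42.Ti.StTiUpperEven.{u, v} :=
  tiUpperEven hC hP hD hN hH

end Cfsg.Agent.H60.Ti
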