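import Mathlib
import Cfsg.Agent.H58.FzBasic

/-!
# S4306 team pieces S1NA (`step1_na`) and S2 (`step2`)
-/

set_option autoImplicit false
set_option linter.style.haveILetI false
set_option linter.unusedVariables false
set_option linter.unusedSectionVars false

namespace Cfsg.Agent.H60.Fz

open Cfsg.Agent.H58.Fz
open Cfsg.Agent.H58.FrobAct Cfsg.Agent.H58.Ward
open scoped commutatorElement

universe u

variable {X : Type u} [Group X] [Finite X] {p q k v r s : ℕ} {V R S A : Subgroup X} {y x : X}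

/-- A fixed-point-free element `b` normalizing `B`: every element of `B` is a commutator
`[b, a]`, `a ∈ B`. -/
theorem fpf_comm_surj (B : Subgroup X) (b : X)
    (hb : b ∈ Subgroup.normalizer (B : Set X))
    (hfix : ∀ a ∈ B, b * a = a * b → a = 1) :
    ∀ d ∈ B, ∃ a ∈ B, d = b * a * b⁻¹ * a⁻¹ := by
  have hmem : ∀ a ∈ B, b * a * b⁻¹ * a⁻¹ ∈ B := fun a ha =>
    B.mul_mem (conj_mem_of_mem_normalizer hb ha) (B.inv_mem ha)
  have hinj : Function.Injective (fun a : B => (⟨b * a * b⁻¹ * (a : X)⁻¹, hmem a a.2⟩ : B)) := by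
    intro a a' h
    have h1 : b * a * b⁻¹ * (a : X)⁻¹ = b * a' * b⁻¹ * (a' : X)⁻¹ := congrArg Subtype.val h
    have h3 : (b * a' * b⁻¹)⁻¹ * (b * a * b⁻¹) = (a' : X)⁻¹ * a := by
      calc (b * a' * b⁻¹)⁻¹ * (b * a * b⁻¹)
          = (b * a' * b⁻¹)⁻¹ * (b * a * b⁻¹ * (a : X)⁻¹) * a := by group
        _ = (b * a' * b⁻¹)⁻¹ * (b * a' * b⁻¹ * (a' : X)⁻¹) * a := by rw [h1]
        _ = (a' : X)⁻¹ * a := by group
    have h2 : b * ((a' : X)⁻¹ * a) = ((a' : X)⁻¹ * a) * b := by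
      calc b * ((a' : X)⁻¹ * a) = (b * a' * b⁻¹)⁻¹ * (b * a * b⁻¹) * b := by group
        _ = ((a' : X)⁻¹ * a) * b := by rw [h3]
    have h4 := hfix _ (B.mul_mem (B.inv_mem a'.2) a.2) h2
    exact Subtype.ext (inv_mul_eq_one.mp h4).symm
  have hsurj := Finite.surjective_of_injective hinj
  intro d hd
  obtain ⟨a, ha⟩ := hsurj ⟨d, hd⟩
  exact ⟨a, a.2, (congrArg Subtype.val ha).symm⟩

/-- `p ∣ q - 1` in the minimal configuration. -/
theorem FCfg_p_dvd (c : FCfg p q k v r s V R S A y x) : p ∣ q - 1 := by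
  haveI : Fact q.Prime := ⟨c.hq⟩
  haveI : Fact p.Prime := ⟨c.hp⟩
  have h1 : ∀ i : ℕ, x ^ i * y * (x ^ i)⁻¹ = y ^ (k ^ i) := by
    intro i
    induction i with
    | zero => simp
    | succ i ih =>
      calc x ^ (i + 1) * y * (x ^ (i + 1))⁻¹ = x * (x ^ i * y * (x ^ i)⁻¹) * x⁻¹ := by
            rw [pow_succ']; group
        _ = x * y ^ (k ^ i) * x⁻¹ := by rw [ih]
        _ = (x * y * x⁻¹) ^ (k ^ i) := by rw [conj_pow]
        _ = (y ^ k) ^ (k ^ i) := by rw [c.hxy]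
        _ = y ^ (k ^ (i + 1)) := by rw [← pow_mul, pow_succ']
  have h2 : y ^ (k ^ p) = y ^ 1 := by
    rw [← h1 p, c.hx]; simp
  rw [pow_eq_pow_iff_modEq, c.orderOf_y] at h2
  have h3 : ((k : ZMod q)) ^ p = 1 := by
    have := (ZMod.natCast_eq_natCast_iff _ _ _).mpr h2
    simpa using this
  have h4 : (k : ZMod q) ≠ 1 := by
    intro h
    apply c.hk
    have : ((k : ℕ) : ZMod q) = ((1 : ℕ) : ZMod q) := by simpa using h
    exact (ZMod.natCast_eq_natCast_iff _ _ _).mp this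
  have h5 : orderOf (k : ZMod q) = p := orderOf_eq_prime h3 h4
  have h6 : (k : ZMod q) ≠ 0 := by
    intro h
    rw [h, zero_pow c.hp.ne_zero] at h3
    exact zero_ne_one h3
  have h7 : (k : ZMod q) ^ (q - 1) = 1 := ZMod.pow_card_sub_one_eq_one h6
  rw [← h5]
  exact orderOf_dvd_of_pow_eq_one h7

theorem FCfg_r_dvd (c : FCfg p q k v r s V R S A y x) : r ∣ Nat.card R := by
  haveI : Fact r.Prime := ⟨c.hr⟩
  rcases c.hR.card_eq_or_dvd with h | h
  · exact absurd (Subgroup.eq_bot_of_card_eq R h) c.hRne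
  · exact h

theorem FCfg_v_dvd (c : FCfg p q k v r s V R S A y x) : v ∣ Nat.card V := by
  haveI : Fact v.Prime := ⟨c.hv⟩
  rcases c.hVv.card_eq_or_dvd with h | h
  · exact absurd (Subgroup.eq_bot_of_card_eq V h) c.hVne
  · exact h

theorem FCfg_q_ne_r (c : FCfg p q k v r s V R S A y x) : q ≠ r := by
  intro hqr
  have h1 := c.copqR
  rw [hqr] at h1
  exact c.hr.one_lt.ne' (Nat.Coprime.eq_one_of_dvd h1.symm (FCfg_r_dvd c))

theorem FCfg_v_ne_q (c : FCfg p q k v r s V R S A y x) : v ≠ q := by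
  intro hvq
  have h1 := c.copqV
  rw [← hvq] at h1
  exact c.hv.one_lt.ne' (Nat.Coprime.eq_one_of_dvd h1.symm (FCfg_v_dvd c))

/-- `q = r ^ n + 1` is impossible in the minimal configuration. -/
theorem FCfg_final (c : FCfg p q k v r s V R S A y x) (n : ℕ) (hq : q = r ^ n + 1) : False := by
  have h1 : p ∣ q - 1 := FCfg_p_dvd c
  rw [hq, Nat.add_sub_cancel] at h1
  have h2 : p ∣ r := c.hp.dvd_of_dvd_pow h1
  have h3 : p = r := (Nat.prime_dvd_prime_iff_eq c.hp c.hr).mp h2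
  have h5 := c.coppR
  rw [h3] at h5
  exact c.hr.one_lt.ne' (Nat.Coprime.eq_one_of_dvd h5.symm (FCfg_r_dvd c))

/-- `Z(R) ≤ D = C_R(S)` when `R` is nonabelian. -/
theorem ZR_le_D (c : FCfg p q k v r s V R S A y x)
    (hRnc : ¬ ∀ a ∈ R, ∀ b ∈ R, a * b = b * a) :
    R ⊓ Subgroup.centralizer (R : Set X) ≤ R ⊓ Subgroup.centralizer (S : Set X) := by
  apply c.proper_le_D _ inf_le_left
    (fun g hg => normalizer_inf_centralizer R R g (c.hAR hg) (c.hAR hg))
    (fun g hg => normalizer_inf_centralizer R R g (c.hSR hg) (c.hSR hg))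
  intro hEq
  apply hRnc
  intro a ha b hb
  have h1 : R ≤ Subgroup.centralizer (R : Set X) := inf_eq_left.mp hEq
  exact ((Subgroup.mem_centralizer_iff.mp (h1 ha)) b hb).symm

theorem mem_cent_singleton {g z : X} (h : z * g = g * z) :
    g ∈ Subgroup.centralizer ({z} : Set X) := by
  rw [Subgroup.mem_centralizer_iff]
  intro w hw
  rw [Set.mem_singleton_iff] at hw
  rw [hw]; exact h

/-- The case `D₀ = C_D(y) ≠ 1`: `y` is fixed-point-free on `V` and centralizes `D`. -/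
theorem D0_case (aq : AQ X) (c : FCfg p q k v r s V R S A y x)
    (hD0 : (R ⊓ Subgroup.centralizer (S : Set X)) ⊓ Subgroup.centralizer {y} ≠ ⊥) :
    (∀ u ∈ V, y * u = u * y → u = 1) ∧
    R ⊓ Subgroup.centralizer (S : Set X) ≤ Subgroup.centralizer {y} := by
  obtain ⟨D, hD⟩ : ∃ D : Subgroup X, D = R ⊓ Subgroup.centralizer (S : Set X) := ⟨_, rfl⟩
  rw [← hD] at hD0 ⊢
  have hDR : D ≤ R := by rw [hD]; exact inf_le_left
  have hDS : D ≤ Subgroup.centralizer (S : Set X) := by rw [hD]; exact inf_le_right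
  have hDcR : D ≤ Subgroup.centralizer (R : Set X) := by rw [hD]; exact c.D_le_cent
  have hAD : A ≤ Subgroup.normalizer (D : Set X) := by
    rw [hD]; exact fun g hg => normalizer_inf_centralizer R S g (c.hAR hg) (c.hAS hg)
  have hDc : ∀ a ∈ D, ∀ a' ∈ D, a * a' = a' * a := fun a ha a' ha' =>
    ((Subgroup.mem_centralizer_iff.mp (hDcR ha)) a' (hDR ha')).symm
  obtain ⟨D₀, hD₀⟩ : ∃ D₀ : Subgroup X, D₀ = D ⊓ Subgroup.centralizer {y} := ⟨_, rfl⟩
  rw [← hD₀] at hD0
  have hD₀D : D₀ ≤ D := by rw [hD₀]; exact inf_le_left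
  have hD₀y : D₀ ≤ Subgroup.centralizer {y} := by rw [hD₀]; exact inf_le_right
  have hRD₀ : R ≤ Subgroup.normalizer (D₀ : Set X) := by
    intro g hg
    apply mem_normalizer_of_comm
    intro z hz
    exact (Subgroup.mem_centralizer_iff.mp (hDcR (hD₀D hz))) g hg
  have hSD₀ : S ≤ Subgroup.normalizer (D₀ : Set X) := by
    intro g hg
    apply mem_normalizer_of_comm
    intro z hz
    exact (Subgroup.mem_centralizer_iff.mp (hDS (hD₀D hz))) g hg
  have hAD₀ : A ≤ Subgroup.normalizer (D₀ : Set X) := by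
    rw [hD₀]; exact c.hA_inf_cy D hAD
  have hCV : V ⊓ Subgroup.centralizer (D₀ : Set X) = ⊥ :=
    c.CV_bot D₀ ((hD₀D.trans hDR).trans le_sup_left) hD0 hRD₀ hSD₀ hAD₀
  have hfix : ∀ u ∈ V, y * u = u * y → u = 1 := by
    intro u hu huy
    have h1 : u ∈ V ⊓ Subgroup.centralizer {y} :=
      Subgroup.mem_inf.mpr ⟨hu, mem_cent_singleton huy⟩
    have h2 := c.hVR h1
    have h3 : u ∈ V ⊓ Subgroup.centralizer (D₀ : Set X) := by
      refine Subgroup.mem_inf.mpr ⟨hu, ?_⟩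
      rw [Subgroup.mem_centralizer_iff]
      intro z hz
      exact (Subgroup.mem_centralizer_iff.mp h2) z
        (Subgroup.mem_inf.mpr ⟨hDR (hD₀D hz), hD₀y hz⟩)
    rw [hCV] at h3
    exact Subgroup.mem_bot.mp h3
  refine ⟨hfix, ?_⟩
  have hyD : y ∈ Subgroup.normalizer (D : Set X) := hAD c.hyA
  have haq := aq D V y q c.hq c.hy hDc c.hVc hyD (hDR.trans c.hRV) (c.hAV c.hyA)
    (Nat.Coprime.coprime_dvd_left (Subgroup.card_dvd_of_le hDR) c.copqR)
    (cop_of_le c.copRV hDR le_rfl) hfix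
  intro a ha
  have h1 := haq a ha
  have h2 : y * a * y⁻¹ * a⁻¹ ∈ R :=
    R.mul_mem (conj_mem_of_mem_normalizer (c.hAR c.hyA) (hDR ha)) (R.inv_mem (hDR ha))
  have h3 : y * a * y⁻¹ * a⁻¹ ∈ (R ⊔ S) ⊓ Subgroup.centralizer (V : Set X) :=
    Subgroup.mem_inf.mpr ⟨Subgroup.mem_sup_left h2, h1⟩
  rw [c.hfaith] at h3
  have h4 : y * a * y⁻¹ * a⁻¹ = 1 := Subgroup.mem_bot.mp h3
  apply mem_cent_singleton
  calc y * a = (y * a * y⁻¹ * a⁻¹) * a * y := by group
    _ = a * y := by rw [h4, one_mul]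

/-- **S4306-S1NA.** -/
theorem step1_na (aq : AQ X) (te : TE X) (c : FCfg p q k v r s V R S A y x)
    (h : S ⊓ Subgroup.centralizer {y} ≤ Subgroup.centralizer (R : Set X))
    (hRnc : ¬ ∀ a ∈ R, ∀ b ∈ R, a * b = b * a)
    (hR0 : ¬ R ⊓ Subgroup.centralizer {y} ≤ Subgroup.centralizer (S : Set X)) : False := by
  obtain ⟨D, hD⟩ : ∃ D : Subgroup X, D = R ⊓ Subgroup.centralizer (S : Set X) := ⟨_, rfl⟩
  have hDR : D ≤ R := by rw [hD]; exact inf_le_left
  have hDS : D ≤ Subgroup.centralizer (S : Set X) := by rw [hD]; exact inf_le_right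
  have hDcR : D ≤ Subgroup.centralizer (R : Set X) := by rw [hD]; exact c.D_le_cent
  have hAD : A ≤ Subgroup.normalizer (D : Set X) := by
    rw [hD]; exact fun g hg => normalizer_inf_centralizer R S g (c.hAR hg) (c.hAS hg)
  have hRD : R ≤ Subgroup.normalizer (D : Set X) := by
    intro g hg
    apply mem_normalizer_of_comm
    intro z hz
    exact (Subgroup.mem_centralizer_iff.mp (hDcR hz)) g hg
  have hSD : S ≤ Subgroup.normalizer (D : Set X) := by
    intro g hg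
    apply mem_normalizer_of_comm
    intro z hz
    exact (Subgroup.mem_centralizer_iff.mp (hDS hz)) g hg
  have hDc : ∀ a ∈ D, ∀ a' ∈ D, a * a' = a' * a := fun a ha a' ha' =>
    ((Subgroup.mem_centralizer_iff.mp (hDcR ha)) a' (hDR ha')).symm
  have hZD : R ⊓ Subgroup.centralizer (R : Set X) ≤ D := by rw [hD]; exact ZR_le_D c hRnc
  have hRRD : ⁅R, R⁆ ≤ D := by rw [hD]; exact c.RR_le
  have hDne : D ≠ ⊥ := by
    intro h0
    apply hRnc
    have h1 : ⁅R, R⁆ = ⊥ := by rw [eq_bot_iff, ← h0]; exact hRRD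
    have h2 : R ≤ Subgroup.centralizer (R : Set X) :=
      Subgroup.commutator_eq_bot_iff_le_centralizer.mp h1
    intro a ha b hb
    exact ((Subgroup.mem_centralizer_iff.mp (h2 ha)) b hb).symm
  obtain ⟨R₀, hR₀⟩ : ∃ R₀ : Subgroup X, R₀ = R ⊓ Subgroup.centralizer {y} := ⟨_, rfl⟩
  have hR₀R : R₀ ≤ R := by rw [hR₀]; exact inf_le_left
  have hR₀y : R₀ ≤ Subgroup.centralizer {y} := by rw [hR₀]; exact inf_le_right
  have hR₀V : R₀ ≤ Subgroup.normalizer (V : Set X) := hR₀R.trans c.hRV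
  by_cases hD0 : D ⊓ Subgroup.centralizer {y} = ⊥
  · -- Case `D₀ = ⊥`
    obtain ⟨U, hU⟩ : ∃ U : Subgroup X, U = ⁅V, R₀⁆ := ⟨_, rfl⟩
    have hUV : U ≤ V := by
      rw [hU]; exact Cfsg.Agent.H1.commutator_le_of_le_normalizer R₀ V hR₀V
    have hyR₀ : y ∈ Subgroup.normalizer (R₀ : Set X) := by
      rw [hR₀]; exact c.hA_inf_cy R c.hAR c.hyA
    have hyU : y ∈ Subgroup.normalizer (U : Set X) := by
      rw [hU]; exact normalizer_commutator V R₀ y (c.hAV c.hyA) hyR₀
    have hDU : D ≤ Subgroup.normalizer (U : Set X) := by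
      intro g hg
      rw [hU]
      apply normalizer_commutator V R₀ g (c.hRV (hDR hg))
      apply mem_normalizer_of_comm
      intro z hz
      exact ((Subgroup.mem_centralizer_iff.mp (hDcR hg)) z (hR₀R hz)).symm
    have hUfix : ∀ u ∈ U, y * u = u * y → u = 1 := by
      intro u hu huy
      have h1 : u ∈ V ⊓ Subgroup.centralizer {y} :=
        Subgroup.mem_inf.mpr ⟨hUV hu, mem_cent_singleton huy⟩
      have h2 := c.hVR h1
      rw [← hR₀] at h2
      have h3 := centralizer_inf_commutator_eq_bot V R₀ c.hVc hR₀V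
        (cop_of_le c.copRV hR₀R le_rfl)
      have h4 : u ∈ (V ⊓ Subgroup.centralizer (R₀ : Set X)) ⊓ ⁅V, R₀⁆ :=
        Subgroup.mem_inf.mpr ⟨Subgroup.mem_inf.mpr ⟨hUV hu, h2⟩, by rw [← hU]; exact hu⟩
      rw [h3] at h4
      exact Subgroup.mem_bot.mp h4
    have haq := aq D U y q c.hq c.hy hDc (fun a ha b hb => c.hVc a (hUV ha) b (hUV hb))
      (hAD c.hyA) hDU hyU
      (Nat.Coprime.coprime_dvd_left (Subgroup.card_dvd_of_le hDR) c.copqR)
      (cop_of_le c.copRV hDR hUV) hUfix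
    have hDfix : ∀ a ∈ D, y * a = a * y → a = 1 := by
      intro a ha hay
      have h1 : a ∈ D ⊓ Subgroup.centralizer {y} :=
        Subgroup.mem_inf.mpr ⟨ha, mem_cent_singleton hay⟩
      rw [hD0] at h1
      exact Subgroup.mem_bot.mp h1
    have hDCU : D ≤ Subgroup.centralizer (U : Set X) := by
      intro d hd
      obtain ⟨a, ha, rfl⟩ := fpf_comm_surj D y (hAD c.hyA) hDfix d hd
      exact haq a ha
    have hCV : V ⊓ Subgroup.centralizer (D : Set X) = ⊥ :=
      c.CV_bot D (hDR.trans le_sup_left) hDne hRD hSD hAD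
    have hUbot : U = ⊥ := by
      rw [eq_bot_iff, ← hCV]
      exact le_inf hUV (Subgroup.le_centralizer_iff.mp hDCU)
    have h5 : V ≤ Subgroup.centralizer (R₀ : Set X) := by
      apply Subgroup.commutator_eq_bot_iff_le_centralizer.mp
      rw [← hU]; exact hUbot
    have h6 : R₀ = ⊥ :=
      c.faith R₀ (hR₀R.trans le_sup_left) (Subgroup.le_centralizer_iff.mp h5)
    apply hR0
    rw [← hR₀, h6]
    exact bot_le
  · -- Case `D₀ ≠ ⊥`
    obtain ⟨hVfix, hDy⟩ := D0_case aq c (by rw [← hD]; exact hD0)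
    rw [← hD] at hDy
    obtain ⟨Y, hY⟩ : ∃ Y : Subgroup X, Y = Subgroup.zpowers y := ⟨_, rfl⟩
    have hCY : Subgroup.centralizer (Y : Set X) = Subgroup.centralizer {y} := by
      rw [hY]; exact centralizer_zpowers y
    have hYR : Y ≤ Subgroup.normalizer (R : Set X) := by
      rw [hY, Subgroup.zpowers_le]; exact c.hAR c.hyA
    have hYS : Y ≤ Subgroup.normalizer (S : Set X) := by
      rw [hY, Subgroup.zpowers_le]; exact c.hAS c.hyA
    have hcopY : (Nat.card Y).Coprime (Nat.card R) := by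
      rw [hY, Nat.card_zpowers, c.orderOf_y]; exact c.copqR.symm
    have hcopYS : (Nat.card Y).Coprime (Nat.card S) := by
      rw [hY, Nat.card_zpowers, c.orderOf_y]; exact c.copqS.symm
    obtain ⟨Γ, hΓ⟩ : ∃ Γ : Subgroup X, Γ = ⁅R, Y⁆ := ⟨_, rfl⟩
    have hΓR : Γ ≤ R := by
      rw [hΓ]; exact Cfsg.Agent.H1.commutator_le_of_le_normalizer Y R hYR
    have hsup : Γ ⊔ R₀ = R := by
      have h1 := Cfsg.Agent.H1.coprime_commutator_sup_centralizer Y R hYR hcopY (Or.inr c.solvR)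
      rw [hCY] at h1
      rw [hΓ, hR₀]; exact h1
    have hΓΓ : ⁅Γ, Y⁆ = Γ := by
      rw [hΓ]
      exact Cfsg.Agent.H1.coprime_commutator_commutator Y R hYR hcopY (Or.inr c.solvR)
    have hΓR₀ : ⁅Γ, R₀⁆ = ⊥ := by
      rw [hΓ]
      apply Subgroup.commutator_commutator_eq_bot_of_rotate
      · have h1 : ⁅Y, R₀⁆ = ⊥ := by
          rw [Subgroup.commutator_eq_bot_iff_le_centralizer, Subgroup.le_centralizer_iff, hCY]
          exact hR₀y
        rw [h1, Subgroup.commutator_bot_left]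
      · rw [Subgroup.commutator_eq_bot_iff_le_centralizer, hCY]
        exact ((Subgroup.commutator_mono hR₀R le_rfl).trans hRRD).trans hDy
    have hcomm_ΓR₀ : ∀ g ∈ Γ, ∀ z ∈ R₀, g * z = z * g := by
      have h1 : Γ ≤ Subgroup.centralizer (R₀ : Set X) :=
        Subgroup.commutator_eq_bot_iff_le_centralizer.mp hΓR₀
      intro g hg z hz
      exact ((Subgroup.mem_centralizer_iff.mp (h1 hg)) z hz).symm
    have hZΓ : ∀ g ∈ Γ, (∀ h ∈ Γ, g * h = h * g) → g ∈ D := by
      intro g hg hgc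
      apply hZD
      refine Subgroup.mem_inf.mpr ⟨hΓR hg, ?_⟩
      have h1 : R ≤ Subgroup.centralizer ({g} : Set X) := by
        rw [← hsup]
        apply sup_le
        · intro h' hh
          exact mem_cent_singleton (hgc h' hh)
        · intro z hz
          exact mem_cent_singleton (hcomm_ΓR₀ g hg z hz)
      rw [Subgroup.mem_centralizer_iff]
      intro h' hh
      exact ((Subgroup.mem_centralizer_iff.mp (h1 hh)) g (Set.mem_singleton g)).symm
    have hΓnc : ∃ a ∈ Γ, ∃ b ∈ Γ, a * b ≠ b * a := by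
      by_contra hcon
      push Not at hcon
      have h1 : Γ ≤ D := fun g hg => hZΓ g hg (fun h' hh => hcon g hg h' hh)
      have h2 : Γ = ⊥ := by
        rw [← hΓΓ, Subgroup.commutator_eq_bot_iff_le_centralizer, hCY]
        exact h1.trans hDy
      have h3 : R ≤ Subgroup.centralizer {y} := by
        have h3' := hsup
        rw [h2, bot_sup_eq] at h3'
        exact le_of_eq_of_le h3'.symm hR₀y
      have h4 : ⁅⁅S, Y⁆, R⁆ = ⊥ := by
        apply Subgroup.commutator_commutator_eq_bot_of_rotate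
        · have h4' : ⁅Y, R⁆ = ⊥ := by
            rw [Subgroup.commutator_eq_bot_iff_le_centralizer, Subgroup.le_centralizer_iff, hCY]
            exact h3
          rw [h4', Subgroup.commutator_bot_left]
        · rw [Subgroup.commutator_eq_bot_iff_le_centralizer, hCY]
          exact (Cfsg.Agent.H1.commutator_le_of_le_normalizer S R c.hSR).trans h3
      have h5 : ⁅S, Y⁆ ≤ Subgroup.centralizer (R : Set X) :=
        Subgroup.commutator_eq_bot_iff_le_centralizer.mp h4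
      have h6 := Cfsg.Agent.H1.coprime_commutator_sup_centralizer Y S hYS hcopYS (Or.inr c.solvS)
      rw [hCY] at h6
      have h7 : S ≤ Subgroup.centralizer (R : Set X) :=
        le_of_eq_of_le h6.symm (sup_le h5 h)
      exact c.S0_ne (inf_eq_left.mpr h7)
    have hΓr : IsPGroup r Γ := c.hR.to_le hΓR
    have hyΓ : y ∈ Subgroup.normalizer (Γ : Set X) := by
      rw [hΓ]
      exact normalizer_commutator R Y y (c.hAR c.hyA)
        (by rw [hY]; exact Subgroup.le_normalizer (Subgroup.mem_zpowers y))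
    have hΓV : Γ ⊓ Subgroup.centralizer (V : Set X) = ⊥ :=
      c.faith _ (inf_le_left.trans (hΓR.trans le_sup_left)) inf_le_right
    have hcl2 : ∀ a ∈ Γ, ∀ b ∈ Γ, ∀ c' ∈ Γ,
        (a * b * a⁻¹ * b⁻¹) * c' = c' * (a * b * a⁻¹ * b⁻¹) := by
      intro a ha b hb c' hc'
      have h1 : a * b * a⁻¹ * b⁻¹ ∈ ⁅R, R⁆ := by
        have h1' := Subgroup.commutator_mem_commutator (hΓR ha) (hΓR hb)
        rwa [commutatorElement_def] at h1'
      exact ((Subgroup.mem_centralizer_iff.mp (hDcR (hRRD h1))) c' (hΓR hc')).symm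
    have hiff : ∀ g ∈ Γ, y * g = g * y ↔ ∀ h ∈ Γ, g * h = h * g := by
      intro g hg
      constructor
      · intro hyg h' hh
        have hgR₀ : g ∈ R₀ := by
          rw [hR₀]
          exact Subgroup.mem_inf.mpr ⟨hΓR hg, mem_cent_singleton hyg⟩
        exact (hcomm_ΓR₀ h' hh g hgR₀).symm
      · intro hgc
        have h1 := hDy (hZΓ g hg hgc)
        exact (Subgroup.mem_centralizer_iff.mp h1) y (Set.mem_singleton y)
    obtain ⟨n, hn⟩ := te V Γ y q r v c.hq c.hr c.hv (FCfg_q_ne_r c) c.hvr (FCfg_v_ne_q c)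
      c.hVc c.hVe hΓr (hΓR.trans c.hRV) (c.hAV c.hyA) hyΓ c.hy hΓV hΓnc hcl2 hiff hVfix
    exact FCfg_final c n hn

/-- **S4306-S2.** -/
theorem step2 (aq : AQ X) (te : TE X) (c : FCfg p q k v r s V R S A y x)
    (hSy : S ≤ Subgroup.centralizer {y}) : R ⊓ Subgroup.centralizer {y} = ⊥ := by
  by_contra hR0
  have hR0D := c.Ry_le_D hSy
  have hRnc : ¬ ∀ a ∈ R, ∀ b ∈ R, a * b = b * a := by
    intro hRc
    apply hR0
    rw [eq_bot_iff, ← c.D_bot_of_comm hRc]
    exact hR0D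
  have hD0 : (R ⊓ Subgroup.centralizer (S : Set X)) ⊓ Subgroup.centralizer {y} ≠ ⊥ := by
    intro h0
    apply hR0
    rw [eq_bot_iff, ← h0]
    exact le_inf hR0D inf_le_right
  obtain ⟨hVfix, hDy⟩ := D0_case aq c hD0
  have hZD := ZR_le_D c hRnc
  have hRnc' : ∃ a ∈ R, ∃ b ∈ R, a * b ≠ b * a := by
    by_contra hcon
    push Not at hcon
    exact hRnc hcon
  have hcl2 : ∀ a ∈ R, ∀ b ∈ R, ∀ c' ∈ R,
      (a * b * a⁻¹ * b⁻¹) * c' = c' * (a * b * a⁻¹ * b⁻¹) := by
    intro a ha b hb c' hc'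
    have h1 : a * b * a⁻¹ * b⁻¹ ∈ ⁅R, R⁆ := by
      have h1' := Subgroup.commutator_mem_commutator ha hb
      rwa [commutatorElement_def] at h1'
    exact ((Subgroup.mem_centralizer_iff.mp (c.D_le_cent (c.RR_le h1))) c' hc').symm
  have hiff : ∀ g ∈ R, y * g = g * y ↔ ∀ h ∈ R, g * h = h * g := by
    intro g hg
    constructor
    · intro hyg h' hh
      have hgR₀ : g ∈ R ⊓ Subgroup.centralizer {y} :=
        Subgroup.mem_inf.mpr ⟨hg, mem_cent_singleton hyg⟩
      exact ((Subgroup.mem_centralizer_iff.mp (c.D_le_cent (hR0D hgR₀))) h' hh).symm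
    · intro hgc
      have h1 : g ∈ R ⊓ Subgroup.centralizer (R : Set X) := by
        refine Subgroup.mem_inf.mpr ⟨hg, ?_⟩
        rw [Subgroup.mem_centralizer_iff]
        intro h' hh
        exact (hgc h' hh).symm
      exact (Subgroup.mem_centralizer_iff.mp (hDy (hZD h1))) y (Set.mem_singleton y)
  have hRV' : R ⊓ Subgroup.centralizer (V : Set X) = ⊥ :=
    c.faith _ (inf_le_left.trans le_sup_left) inf_le_right
  obtain ⟨n, hn⟩ := te V R y q r v c.hq c.hr c.hv (FCfg_q_ne_r c) c.hvr (FCfg_v_ne_q c)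
    c.hVc c.hVe c.hR c.hRV (c.hAV c.hyA) (c.hAR c.hyA) c.hy hRV' hRnc' hcl2 hiff hVfix
  exact FCfg_final c n hn

end Cfsg.Agent.H60.Fz
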