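import Mathlib
import Cfsg.Agent.Helper55.BG151Defs
import Cfsg.Agent.H70.BG161Scalar

/-!
# S1360-USCALAR (helper60, for helper55): the `U`-version of S1421-SCALAR
(adapted from helper70's `Cfsg.Agent.H70.BG161.scalar`)
-/

set_option autoImplicit false

namespace Cfsg.Agent.H60.BG151

open Cfsg Subgroup Cfsg.Agent.H58.BG10 Cfsg.Agent.H58.BG12 Cfsg.Agent.H38.BG161
  Cfsg.Agent.Helper55.BG151 Cfsg.Agent.H70.BG161

universe u

variable {G : Type u} [Group G]

/-- USCALAR -/
theorem uScalar [Finite G] (hG : IsMinSimpleOddOrder G) (hTau : StTauCases G)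
    (hAlpha : StAlpha G) (hOrbit : StOrbit G) (hFix : StFixScalar G) (hLine : StLineCount G)
    (hPow : StPowOrder G) (hBasic : StBasic G) : StUScalar G := by
  intro M E S A p _ hA hI hT2 U hUE hU hsing e he X hXA hXcard
  obtain ⟨X₀, hX₀A, hX₀card, hX₀sing⟩ := hsing
  obtain ⟨-, -, b3, -, -, -⟩ := hBasic M E S A p hA
  -- centralizing `A` implies normalizing `X`
  have hcn : ∀ g : G, g ∈ centralizer (A : Set G) → g ∈ normalizer (X : Set G) := by
    intro g hg
    apply mem_normalizer_of_conj_mem
    intro x hx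
    have h1 : x * g = g * x := hg x (hXA hx)
    have h2 : g * x * g⁻¹ = x := by rw [← h1, mul_inv_cancel_right]
    rw [h2]; exact hx
  have hpow_norm : ∀ (g : G) (l : ℕ), (∀ a ∈ A, g * a * g⁻¹ = a ^ l) →
      g ∈ normalizer (X : Set G) := by
    intro g l hl
    apply mem_normalizer_of_conj_mem
    intro x hx
    rw [hl x (hXA hx)]; exact pow_mem hx l
  revert e
  apply mem_of_prime_powers (normalizer (X : Set G)) U
  intro e he q hq k hord
  have heE : e ∈ E := hUE he
  by_cases hqp : q = p
  · -- `e` lies in `S`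
    rw [hqp] at hord
    obtain ⟨P, hP⟩ := hA.syl
    have hz : IsPGroup p (zpowers e) :=
      IsPGroup.of_card (n := k) (by rw [Nat.card_zpowers, hord])
    have hsup : IsPGroup p (zpowers e ⊔ (P : Subgroup G) : Subgroup G) := by
      apply IsPGroup.to_sup_of_normal_right' hz P.isPGroup'
      rw [hP, zpowers_le]; exact hA.norm heE
    have hmax := P.is_maximal' hsup le_sup_right
    have heS : e ∈ S := by
      rw [← hP, ← hmax]; exact (le_sup_left : zpowers e ≤ _) (mem_zpowers e)
    apply hcn
    rw [mem_centralizer_iff]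
    intro a ha
    exact hA.comm a (hA.AS ha) e heS
  · by_cases hq2 : q ∈ tau2 M
    · exact hcn e (hT2 e heE q hq hqp hq2 ⟨k, hord⟩)
    · rcases Nat.eq_zero_or_pos k with hk0 | hkpos
      · rw [hk0, pow_zero, orderOf_eq_one_iff] at hord
        rw [hord]; exact one_mem _
      obtain ⟨j, rfl⟩ : ∃ j, k = j + 1 := ⟨k - 1, by omega⟩
      have hqE : q ∣ Nat.card E :=
        dvd_trans (by rw [hord]; exact dvd_pow_self q (by omega))
          (Subgroup.orderOf_dvd_natCard E heE)
      have hqτ := hTau M hA.coatom E hA.compl q hq hqE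
      have hq13 : q ∈ tau1 M ∪ tau3 M := by
        rcases hqτ with (h1 | h2) | h3
        · exact Or.inl h1
        · exact absurd h2 hq2
        · exact Or.inr h3
      have hPR : PRankLE q 1 M := by
        rcases hq13 with h1 | h3
        · exact h1.2.2.2.2
        · exact h3.2.2.2
      by_contra hcon
      have heNS : e ∈ normalizer (S : Set G) := hA.norm heE
      have hno : ∀ Y : Subgroup G, Y ≤ A → Nat.card Y = p → e ∉ normalizer (Y : Set G) := by
        intro Y hYA hYc hY
        obtain ⟨l, hl⟩ := hFix M E S A p hA hI e heNS Y hYA hYc hY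
        exact hcon (hpow_norm e l hl)
      have hd1 : q ∣ p + 1 :=
        hLine p A hA.elem hA.card e q hq (b3 heE) ⟨j + 1, hord⟩ hno
      have heC : e ∉ centralizer (A : Set G) := fun h => hcon (hcn e h)
      have hord₀ : orderOf (e ^ (q ^ j)) = q := by
        rw [orderOf_pow_of_dvd (pow_ne_zero j hq.ne_zero)
          (by rw [hord]; exact pow_dvd_pow q (by omega)), hord, pow_succ,
          Nat.mul_div_cancel_left _ (pow_pos hq.pos j)]
      have he₀E : e ^ (q ^ j) ∈ E := pow_mem heE _
      have he₀U : e ^ (q ^ j) ∈ U := pow_mem he _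
      by_cases he₀C : e ^ (q ^ j) ∈ centralizer (A : Set G)
      · exact heC (hAlpha M E S A p hA hI e q j hq hqp heE hord he₀C hPR)
      · have hreg : sigmaCore M ⊓ centralizer ({e ^ (q ^ j)} : Set G) = ⊥ :=
          hU _ he₀U q hq hord₀ hq13
        have he₀N : e ^ (q ^ j) ∈ normalizer (X₀ : Set G) := by
          by_contra hn
          exact hOrbit M E S A p hA _ q hq he₀E hord₀ X₀ hX₀A hX₀card hn hX₀sing hreg
        obtain ⟨l, hl⟩ := hFix M E S A p hA hI _ (hA.norm he₀E) X₀ hX₀A hX₀card he₀N
        have hd2 : q ∣ p - 1 :=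
          hPow p A hA.elem hA.card _ q l hq
            (by have := pow_orderOf_eq_one (e ^ (q ^ j)); rwa [hord₀] at this) hl he₀C
        have hp2 : 2 ≤ p := (Fact.out : p.Prime).two_le
        have hd3 : q ∣ 2 := by
          have h3 : p + 1 = (p - 1) + 2 := by omega
          rw [h3] at hd1
          exact (Nat.dvd_add_right hd2).1 hd1
        have hq2' : q = 2 := (Nat.prime_dvd_prime_iff_eq hq Nat.prime_two).1 hd3
        have hodd : Odd (Nat.card G) := hG.1
        have h2G : q ∣ Nat.card G :=
          dvd_trans (by rw [hord]; exact dvd_pow_self q (by omega)) (orderOf_dvd_natCard e)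
        rw [hq2'] at h2G
        exact (Nat.not_even_iff_odd.2 hodd) (even_iff_two_dvd.2 h2G)

example [Finite G] (hG : IsMinSimpleOddOrder G) (hTau : StTauCases G) (hAlpha : StAlpha G)
    (hOrbit : StOrbit G) (hFix : StFixScalar G) (hLine : StLineCount G) (hPow : StPowOrder G)
    (hBasic : StBasic G) : Cfsg.Agent.Helper55.BG151.StUScalar G :=
  uScalar hG hTau hAlpha hOrbit hFix hLine hPow hBasic

end Cfsg.Agent.H60.BG151
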