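import Cfsg.Agent.H87.CrDefs

set_option autoImplicit false

/-!
# S5141, piece CR-INVAR (helper60, for helper87): `O^{p'}(E)` is invariant in `F`

For `E` weakly normal in `F`, the subsystem `opSys p E` of `E` is invariant in `F`.
-/

namespace Cfsg.Agent.H60.Cr

open Cfsg Cfsg.FusionSystem Cfsg.Agent.H86 Cfsg.Agent.H87 Cfsg.Agent.H87.Cr

variable {Ω : Type*} [Group Ω] {S T : Subgroup Ω}

/-- Conjugating an `E`-automorphism of `P ≤ T` by an `F`-automorphism `a` of `T` gives an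
`E`-automorphism of `a(P)`. -/
theorem congr_mem_autGroup_of_autInv {F : FusionSystem S} {E : FusionSystem T} (hI : AutInv E F)
    {P : Subgroup Ω} (hPT : P ≤ T) {a : Ω → Ω} (ha : Mor F T a) (haT : imgS T a = T)
    {α : MulAut P} (hα : α ∈ E.autGroup P) :
    MulAut.congr (isoEquiv (ha.restrict hPT) rfl) α ∈ E.autGroup (imgS P a) := by
  have haP := ha.restrict hPT
  have hP'T : imgS P a ≤ T := by
    have := ha.imgS_mono hPT
    rwa [haT] at this
  rw [mem_autGroup_iff hP'T]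
  have hα' := (mem_autGroup_iff hPT α).1 hα
  obtain ⟨χ, hχ, hχeq⟩ := hI P (autFun P α) a hPT hα' ha haT
  refine hχ.congr (fun y hy => ?_)
  obtain ⟨x, hx, rfl⟩ := haP.mem_imgS.1 hy
  rw [hχeq x hx, autFun_of_mem _ hy, autFun_of_mem _ hx]
  have e1 : (⟨a x, hy⟩ : imgS P a) = isoEquiv haP rfl ⟨x, hx⟩ := Subtype.ext rfl
  rw [e1, congr_apply_apply]
  rfl

/-- The conjugate by an `F`-automorphism `a` of `T` of an element of `O^{p'}(Aut_E(P))`, `P`
centric in `E`, is a map of every system `D` containing the groups `O^{p'}(Aut_E(Q))`. -/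
theorem conj_gen {p : ℕ} {F : FusionSystem S} {E : FusionSystem T}
    (hE : E.IsWeaklyNormalIn F p) {D : FusionSystem T} (hD : Gen0 p E D) {P : Subgroup Ω}
    (hP : E.IsCentric P) {α : MulAut P}
    (hα : α ∈ (Subgroup.closure {α : ↥(E.autGroup P) | ∃ k : ℕ, orderOf α = p ^ k}).map
      (E.autGroup P).subtype) {a : Ω → Ω} (ha : Mor F T a) (haT : imgS T a = T) :
    Mor D (imgS P a) (fun y => a (autFun P α (invOn T a y))) := by
  have hTS : T ≤ S := hE.2.2.2.1.1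
  obtain ⟨-, -, hI, -⟩ := (isInvariantIn_iff hTS).1 hE.2.2
  have hPT : P ≤ T := hP.1
  have haP := ha.restrict hPT
  have hP'T : imgS P a ≤ T := by
    have := ha.imgS_mono hPT
    rwa [haT] at this
  have hP'c : E.IsCentric (imgS P a) :=
    Cfsg.Agent.H16.Oliver.isCentric_imgS_aut (kcfg_of_wn hE) hP ha haT
  let ψ : ↥(E.autGroup P) →* ↥(E.autGroup (imgS P a)) :=
    ((MulAut.congr (isoEquiv haP rfl)).toMonoidHom.comp (E.autGroup P).subtype).codRestrict
      (E.autGroup (imgS P a)) (fun β => congr_mem_autGroup_of_autInv hI hPT ha haT β.2)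
  have hψinj : Function.Injective ψ := by
    intro β γ h
    have h1 : MulAut.congr (isoEquiv haP rfl) (β : MulAut P) =
        MulAut.congr (isoEquiv haP rfl) (γ : MulAut P) := congrArg Subtype.val h
    exact Subtype.ext ((MulAut.congr (isoEquiv haP rfl)).injective h1)
  have hcl : Subgroup.closure {α : ↥(E.autGroup P) | ∃ k : ℕ, orderOf α = p ^ k} ≤
      (Subgroup.closure {β : ↥(E.autGroup (imgS P a)) | ∃ k : ℕ, orderOf β = p ^ k}).comap ψ := by
    rw [Subgroup.closure_le]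
    rintro g ⟨k, hk⟩
    apply Subgroup.subset_closure
    refine ⟨k, ?_⟩
    show orderOf (ψ g) = p ^ k
    rw [orderOf_injective ψ hψinj g]
    exact hk
  obtain ⟨α', hα', rfl⟩ := hα
  have h1 : ((ψ α' : ↥(E.autGroup (imgS P a))) : MulAut (imgS P a)) ∈ D.autGroup (imgS P a) :=
    hD (imgS P a) hP'c ⟨ψ α', hcl hα', rfl⟩
  have h2 := (mem_autGroup_iff hP'T _).1 h1
  refine h2.congr (fun y hy => ?_)
  obtain ⟨x, hx, rfl⟩ := haP.mem_imgS.1 hy
  show autFun (imgS P a) (MulAut.congr (isoEquiv haP rfl) (α' : MulAut P)) (a x) =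
    a (autFun P (α' : MulAut P) (invOn T a (a x)))
  rw [invOn_apply ha.injOn (hPT hx), autFun_of_mem _ hy, autFun_of_mem _ hx]
  have e1 : (⟨a x, hy⟩ : imgS P a) = isoEquiv haP rfl ⟨x, hx⟩ := Subtype.ext rfl
  rw [e1, congr_apply_apply]
  rfl

/-- The largest `Aut_F(T)`-invariant subsystem of a system `D` containing the groups
`O^{p'}(Aut_E(P))` contains them as well. -/
theorem gen0_invSys {p : ℕ} {F : FusionSystem S} {E : FusionSystem T}
    (hE : E.IsWeaklyNormalIn F p) (hTS : T ≤ S) {D : FusionSystem T} (hD : Gen0 p E D) :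
    Gen0 p E (invSys D (Cfsg.Agent.H88.restrictSystem F T hTS)) := by
  intro P hP
  have hPT : P ≤ T := hP.1
  have hsub : E.IsSubsystemOf F := hE.2.2.1
  rintro _ ⟨α, hα, rfl⟩
  show (α : MulAut P) ∈ (invSys D (Cfsg.Agent.H88.restrictSystem F T hTS)).autGroup P
  rw [mem_autGroup_iff hPT, mor_invSys_iff]
  have hαE : Mor E P (autFun P (α : MulAut P)) := (mem_autGroup_iff hPT _).1 α.2
  refine ⟨Cfsg.Agent.H88.mor_restrictSystem_iff.2
      ⟨mor_of_subsystem hsub hαE, hPT, fun x hx => hαE.mem hx⟩,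
    (mem_autGroup_iff hPT _).1 (hD P hP ⟨α, hα, rfl⟩), fun a ha haT => ?_⟩
  exact conj_gen hE hD hP ⟨α, hα, rfl⟩ (Cfsg.Agent.H88.mor_restrictSystem_iff.1 ha).1 haT

/-- CR-INVAR: `O^{p'}(E)` is invariant in `F`. -/
theorem opSys_invariant [Finite S] {p : ℕ} [Fact p.Prime] (hS : IsPGroup p S)
    {F : FusionSystem S} {E : FusionSystem T} (hE : E.IsWeaklyNormalIn F p) :
    (opSys p E).IsInvariantIn F := by
  have hTS : T ≤ S := hE.2.2.2.1.1
  obtain ⟨hsub, hsc, hI, hFr⟩ := (isInvariantIn_iff hTS).1 hE.2.2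
  haveI : Finite T := finite_of_le hTS
  have hT : IsPGroup p T := hS.to_le hTS
  have hFTmor : ∀ {a : Ω → Ω}, Mor F T a → imgS T a = T →
      Mor (Cfsg.Agent.H88.restrictSystem F T hTS) T a := by
    intro a ha haT
    refine Cfsg.Agent.H88.mor_restrictSystem_iff.2 ⟨ha, le_rfl, fun x hx => ?_⟩
    rw [← haT]
    exact ha.mem_imgS_of_mem hx
  have h0e : Gen0 p E (invSys (e0Sys p E) (Cfsg.Agent.H88.restrictSystem F T hTS)) :=
    gen0_invSys hE hTS (gen0_e0Sys p E)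
  have h0 : Gen0 p E (invSys (opSys p E) (Cfsg.Agent.H88.restrictSystem F T hTS)) :=
    gen0_invSys hE hTS (gen0_opSys p E)
  have hA : GenA p E (invSys (opSys p E) (Cfsg.Agent.H88.restrictSystem F T hTS)) := by
    rintro a₀ ⟨ha₀, ha₀T, P, hP, ha₀P⟩
    rw [mor_invSys_iff]
    refine ⟨hFTmor (mor_of_subsystem hsub ha₀) ha₀T,
      genA_opSys p E a₀ ⟨ha₀, ha₀T, P, hP, ha₀P⟩, fun a ha haT => ?_⟩
    have haF : Mor F T a := (Cfsg.Agent.H88.mor_restrictSystem_iff.1 ha).1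
    rw [haT]
    obtain ⟨χ, hχ, hχeq⟩ := hI T a₀ a le_rfl ha₀ haF haT
    rw [haT] at hχ
    have hb : Mor E T (fun y => a (a₀ (invOn T a y))) := by
      refine hχ.congr (fun y hy => ?_)
      have hy' : y ∈ imgS T a := by rw [haT]; exact hy
      obtain ⟨x, hx, rfl⟩ := haF.mem_imgS.1 hy'
      show χ (a x) = a (a₀ (invOn T a (a x)))
      rw [invOn_apply haF.injOn hx, hχeq x hx]
    have hbT : imgS T (fun y => a (a₀ (invOn T a y))) = T :=
      imgS_eq_of_maps hb (fun x hx => hb.mem hx)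
    have hP'c : E.IsCentric (imgS P a) :=
      Cfsg.Agent.H16.Oliver.isCentric_imgS_aut (kcfg_of_wn hE) hP haF haT
    have hbP : Mor (e0Sys p E) (imgS P a) (fun y => a (a₀ (invOn T a y))) :=
      (mor_invSys_iff.1 ((mor_e0Sys_iff.1 ha₀P).2 _ h0e)).2.2 a ha haT
    exact genA_opSys p E _ ⟨hb, hbT, imgS P a, hP'c, hbP⟩
  rw [isInvariantIn_iff hTS]
  refine ⟨fun P φ hφ => hsub P (opSys_subsystem p E P hφ), hsc, ?_, ?_⟩
  · intro P f a hPT hf ha haT
    have h1 : Mor (invSys (opSys p E) (Cfsg.Agent.H88.restrictSystem F T hTS)) P f :=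
      opSys_le h0 hA hf
    refine ⟨fun y => a (f (invOn T a y)),
      (mor_invSys_iff.1 h1).2.2 a (hFTmor ha haT) haT, fun x hx => ?_⟩
    show a (f (invOn T a (a x))) = a (f x)
    rw [invOn_apply ha.injOn (hPT hx)]
  · intro P f hPT hf
    obtain ⟨a, f₁, ha, haT, hf₁, hfa⟩ := hFr P f hPT hf
    obtain ⟨-, hfr, -⟩ :=
      primeIdx_main hT hE.1 (opSys p E) (opSys_subsystem p E) (gen0_opSys p E)
    obtain ⟨φ, hφ, hφf⟩ := hf₁
    obtain ⟨α, hα, φ₀, hφ₀, hα0⟩ := hfr P φ hφ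
    have hb : Mor E T (autFun T α) := (mem_autGroup_iff le_rfl α).1 hα
    have hbF : Mor F T (autFun T α) := mor_of_subsystem hsub hb
    have hbT : imgS T (autFun T α) = T := imgS_autFun hb
    refine ⟨a ∘ autFun T α, extFun P φ₀, hbF.comp ha (fun x hx => hb.mem hx), ?_,
      mor_extFun hφ₀, fun x hx => ?_⟩
    · rw [hbF.imgS_comp ha (fun x hx => hb.mem hx), hbT, haT]
    · have hx0 : φ₀ ⟨x, hx⟩ ∈ T := ((opSys p E).le_of_mem hφ₀).2 _
      show f x = a (autFun T α (extFun P φ₀ x))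
      rw [hfa x hx, ← hφf ⟨x, hx⟩, hα0 ⟨x, hx⟩ hx0, extFun_of_mem _ _ hx, autFun_of_mem α hx0]

end Cfsg.Agent.H60.Cr
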