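import Mathlib
import Cfsg.Agent.H81.DihBDefs

/-!
# S4481-LATC (team piece for helper81): the common coordinate of the generic lattice vectors
-/

set_option autoImplicit false

namespace Cfsg.Agent.H60.DihB

open Cfsg.Agent.H81.DihB

universe u

theorem latC : StmtLatC.{u} := by
  intro ι _ m h d u i₀ L hgen hsym
  classical
  haveI : Nonempty ι := ⟨i₀⟩
  choose! X Y hXY' using hgen
  have hXY : ∀ k, 0 < k → k < m → k ≠ h → X k ≠ i₀ ∧ Y k ≠ i₀ ∧ X k ≠ Y k ∧ u (X k) k = -1 ∧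
      u (Y k) k = 1 ∧ ∀ i, i ≠ i₀ → i ≠ X k → i ≠ Y k → u i k = 0 := hXY'
  have hm := L.hm
  have hh := L.hh
  -- row formula
  have hrow : ∀ k, 0 < k → k < m → k ≠ h → ∀ i, u i k =
      (if i = Y k then 1 else 0) - (if i = i₀ then 1 else 0) - (if i = X k then 1 else 0) := by
    intro k h1 h2 h3 i
    obtain ⟨hx0, hy0, hxy, hux, huy, hrest⟩ := hXY k h1 h2 h3
    by_cases hi0 : i = i₀
    · rw [hi0, if_neg (Ne.symm hy0), if_pos rfl, if_neg (Ne.symm hx0), L.hu0 k h1 h2]; norm_num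
    · by_cases hix : i = X k
      · rw [hix, if_neg hxy, if_neg hx0, if_pos rfl, hux]; norm_num
      · by_cases hiy : i = Y k
        · rw [hiy, if_pos rfl, if_neg hy0, if_neg (Ne.symm hxy), huy]; norm_num
        · rw [if_neg hiy, if_neg hi0, if_neg hix, hrest i hi0 hix hiy]; norm_num
  have hstar : ∀ k, 0 < k → k < m → k ≠ h → ∀ k', 0 < k' → k' < m →
      u (Y k) k' - u (X k) k' = 1 + (if k = k' then 1 else 0) + (if k + k' = m then 1 else 0) := by
    intro k h1 h2 h3 k' h1' h2'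
    have hG := L.hG k k' h1 h2 h1' h2'
    have hsum : ∑ i, u i k * u i k' = u (Y k) k' - u i₀ k' - u (X k) k' := by
      rw [Finset.sum_congr rfl (fun i _ => by rw [hrow k h1 h2 h3 i])]
      simp [sub_mul, Finset.sum_sub_distrib, ite_mul]
    rw [hsum, L.hu0 k' h1' h2'] at hG
    linarith
  have htri : ∀ k, 0 < k → k < m → k ≠ h → ∀ i, i ≠ i₀ →
      (i = X k ∧ u i k = -1) ∨ (i = Y k ∧ u i k = 1) ∨ (i ≠ X k ∧ i ≠ Y k ∧ u i k = 0) := by
    intro k h1 h2 h3 i hi0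
    obtain ⟨hx0, hy0, hxy, hux, huy, hrest⟩ := hXY k h1 h2 h3
    by_cases hix : i = X k
    · exact Or.inl ⟨hix, by rw [hix]; exact hux⟩
    · by_cases hiy : i = Y k
      · exact Or.inr (Or.inl ⟨hiy, by rw [hiy]; exact huy⟩)
      · exact Or.inr (Or.inr ⟨hix, hiy, hrest i hi0 hix hiy⟩)
  have hkey : ∀ k, 0 < k → k < m → k ≠ h → ∀ k', 0 < k' → k' < m → k' ≠ h → k ≠ k' →
      k + k' ≠ m → (X k = X k' ∧ Y k ≠ Y k') ∨ (Y k = Y k' ∧ X k ≠ X k') := by
    intro k h1 h2 h3 k' h1' h2' h3' hne hne'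
    obtain ⟨hx0, hy0, hxy, -, -, -⟩ := hXY k h1 h2 h3
    have hs := hstar k h1 h2 h3 k' h1' h2'
    rw [if_neg hne, if_neg hne'] at hs
    rcases htri k' h1' h2' h3' (Y k) hy0 with ⟨ey, vy⟩ | ⟨ey, vy⟩ | ⟨ey1, ey2, vy⟩ <;>
    rcases htri k' h1' h2' h3' (X k) hx0 with ⟨ex, vx⟩ | ⟨ex, vx⟩ | ⟨ex1, ex2, vx⟩ <;>
    first
      | (exfalso; omega)
      | exact Or.inl ⟨ex, ey2⟩
      | exact Or.inr ⟨ey, ex1⟩
  have hsymXY : ∀ k, 0 < k → k < m → k ≠ h → X (m - k) = X k ∧ Y (m - k) = Y k := by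
    intro k h1 h2 h3
    obtain ⟨hx0, hy0, hxy, hux, huy, -⟩ := hXY k h1 h2 h3
    have g1 : 0 < m - k := by omega
    have g2 : m - k < m := by omega
    have g3 : m - k ≠ h := by omega
    have sx : u (X k) (m - k) = -1 := by rw [hsym k h1 h2]; exact hux
    have sy : u (Y k) (m - k) = 1 := by rw [hsym k h1 h2]; exact huy
    constructor
    · rcases htri (m - k) g1 g2 g3 (X k) hx0 with ⟨e, v⟩ | ⟨e, v⟩ | ⟨e1, e2, v⟩
      · exact e.symm
      · exfalso; omega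
      · exfalso; omega
    · rcases htri (m - k) g1 g2 g3 (Y k) hy0 with ⟨e, v⟩ | ⟨e, v⟩ | ⟨e1, e2, v⟩
      · exfalso; omega
      · exact e.symm
      · exfalso; omega
  have build : ∀ (A B : ℕ → ι) (δ : ℤ), (δ = 1 ∨ δ = -1) →
      (∀ k, 0 < k → k < m → k ≠ h → A k ≠ i₀ ∧ B k ≠ i₀ ∧ A k ≠ B k ∧ u (A k) k = -δ ∧
        u (B k) k = δ ∧ ∀ i, i ≠ i₀ → i ≠ A k → i ≠ B k → u i k = 0) →
      (∀ k, 0 < k → k < m → k ≠ h → A k = A 1) →
      (∀ k k', 0 < k → k < m → k ≠ h → 0 < k' → k' < m → k' ≠ h → B k = B k' →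
        k = k' ∨ k + k' = m) →
      Common m h u i₀ (A 1) δ B := by
    intro A B δ hδ hAB hall hlast
    have g1 : (0:ℕ) < 1 := one_pos
    have g2 : 1 < m := by omega
    have g3 : 1 ≠ h := by omega
    refine ⟨hδ, (hAB 1 g1 g2 g3).1, ?_, hlast⟩
    intro k h1 h2 h3
    obtain ⟨ha0, hb0, hab, hua, hub, hrest⟩ := hAB k h1 h2 h3
    have e := hall k h1 h2 h3
    refine ⟨hb0, ?_, ?_, hub, ?_⟩
    · rw [← e]; exact Ne.symm hab
    · rw [← e]; exact hua
    · intro i hi0 hi1 hij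
      exact hrest i hi0 (by rw [e]; exact hi1) hij
  have allEq : 4 ≤ h → ∀ (A B : ℕ → ι),
      (∀ k, 0 < k → k < m → k ≠ h → ∀ k', 0 < k' → k' < m → k' ≠ h → k ≠ k' → k + k' ≠ m →
        (A k = A k' ∧ B k ≠ B k') ∨ (B k = B k' ∧ A k ≠ A k')) →
      (∀ k, 0 < k → k < m → k ≠ h → A (m - k) = A k) → A 1 = A 2 →
      ∀ k, 0 < k → k < m → k ≠ h → A k = A 1 := by
    intro h4 A B hK hS h12 k h1 h2 h3
    by_contra hne
    have a1 : (0:ℕ) < 1 := one_pos
    have a2 : 1 < m := by omega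
    have a3 : 1 ≠ h := by omega
    have b1 : (0:ℕ) < 2 := two_pos
    have b2 : 2 < m := by omega
    have b3 : 2 ≠ h := by omega
    have hk1 : k ≠ 1 := fun e => hne (by rw [e])
    have hkm1 : k + 1 ≠ m := by
      intro e
      have e' : k = m - 1 := by omega
      exact hne (by rw [e']; exact hS 1 a1 a2 a3)
    have hB1 : B k = B 1 := by
      rcases hK k h1 h2 h3 1 a1 a2 a3 hk1 hkm1 with ⟨e, -⟩ | ⟨e, -⟩
      · exact absurd e hne
      · exact e
    have hk2 : k ≠ 2 := fun e => hne (by rw [e]; exact h12.symm)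
    have hkm2 : k + 2 ≠ m := by
      intro e
      have e' : k = m - 2 := by omega
      exact hne (by rw [e', hS 2 b1 b2 b3]; exact h12.symm)
    have hB2 : B k = B 2 := by
      rcases hK k h1 h2 h3 2 b1 b2 b3 hk2 hkm2 with ⟨e, -⟩ | ⟨e, -⟩
      · exact absurd (e.trans h12.symm) hne
      · exact e
    rcases hK 1 a1 a2 a3 2 b1 b2 b3 (by norm_num) (by omega) with ⟨-, e⟩ | ⟨-, e⟩
    · exact e (hB1.symm.trans hB2)
    · exact e h12
  have hhcases : h = 2 ∨ 4 ≤ h := by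
    obtain ⟨c, hc⟩ := L.he
    omega
  rcases hhcases with h2 | h4
  · -- `h = 2`
    refine ⟨X 1, 1, Y, build X Y 1 (Or.inl rfl) ?_ ?_ ?_⟩
    · intro k h1 h2' h3
      exact hXY k h1 h2' h3
    · intro k h1 h2' h3
      have hk : k = 1 ∨ k = 3 := by omega
      rcases hk with rfl | rfl
      · rfl
      · have hs1 := (hsymXY 1 one_pos (by omega) (by omega)).1
        have e : m - 1 = 3 := by omega
        rw [e] at hs1; exact hs1
    · intro k k' h1 h2' h3 h1' h2'' h3' _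
      omega
  · have a1 : (0:ℕ) < 1 := one_pos
    have a2 : 1 < m := by omega
    have a3 : 1 ≠ h := by omega
    have b1 : (0:ℕ) < 2 := two_pos
    have b2 : 2 < m := by omega
    have b3 : 2 ≠ h := by omega
    by_cases h12 : X 1 = X 2
    · have allX := allEq h4 X Y hkey (fun k a b c => (hsymXY k a b c).1) h12
      refine ⟨X 1, 1, Y, build X Y 1 (Or.inl rfl) ?_ allX ?_⟩
      · intro k h1 h2' h3
        exact hXY k h1 h2' h3
      · intro k k' h1 h2' h3 h1' h2'' h3' e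
        by_contra hcon
        push Not at hcon
        rcases hkey k h1 h2' h3 k' h1' h2'' h3' hcon.1 hcon.2 with ⟨-, e'⟩ | ⟨-, e'⟩
        · exact e' e
        · apply e'
          rw [allX k h1 h2' h3, allX k' h1' h2'' h3']
    · have hY12 : Y 1 = Y 2 := by
        rcases hkey 1 a1 a2 a3 2 b1 b2 b3 (by norm_num) (by omega) with ⟨e, -⟩ | ⟨e, -⟩
        · exact absurd e h12
        · exact e
      have hkey' : ∀ k, 0 < k → k < m → k ≠ h → ∀ k', 0 < k' → k' < m → k' ≠ h → k ≠ k' →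
          k + k' ≠ m → (Y k = Y k' ∧ X k ≠ X k') ∨ (X k = X k' ∧ Y k ≠ Y k') :=
        fun k a b c k' a' b' c' d e => (hkey k a b c k' a' b' c' d e).symm
      have allY := allEq h4 Y X hkey' (fun k a b c => (hsymXY k a b c).2) hY12
      refine ⟨Y 1, -1, X, build Y X (-1) (Or.inr rfl) ?_ allY ?_⟩
      · intro k h1 h2' h3
        obtain ⟨hx0, hy0, hxy, hux, huy, hrest⟩ := hXY k h1 h2' h3
        exact ⟨hy0, hx0, Ne.symm hxy, by rw [huy]; norm_num, hux, fun i a b c => hrest i a c b⟩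
      · intro k k' h1 h2' h3 h1' h2'' h3' e
        by_contra hcon
        push Not at hcon
        rcases hkey k h1 h2' h3 k' h1' h2'' h3' hcon.1 hcon.2 with ⟨e', -⟩ | ⟨-, e'⟩
        · have hyk := allY k h1 h2' h3
          have hyk' := allY k' h1' h2'' h3'
          rcases hkey k h1 h2' h3 k' h1' h2'' h3' hcon.1 hcon.2 with ⟨-, e''⟩ | ⟨-, e''⟩
          · exact e'' (hyk.trans hyk'.symm)
          · exact e'' e
        · exact e' e

example : StmtLatC.{u} := latC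

end Cfsg.Agent.H60.DihB
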