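import Mathlib
import Cfsg.Agent.H84.DihDefs
import Cfsg.Agent.H60.ZD8Fusion
import Cfsg.Agent.H60.QuatSylow

/-!
# helper60: piece CORE1 of S4482 -- the centralizer of the central involution of a dihedral
Sylow 2-subgroup has a normal 2-complement

Route: Thompson transfer inside `C(J)` (twice), intersect the two subgroups of index two; the
intersection has cyclic Sylow 2-subgroups, hence a normal 2-complement.
-/

set_option autoImplicit false

namespace Cfsg.Agent.H60.Dih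

open Cfsg.Agent.H84.Dih Cfsg.Agent.H60

universe u

/-- The unique involution of a cyclic `2`-group `⟨σ⟩` of order `2 ^ m`. -/
theorem invol_of_mem_zpowers {H : Type*} [Group H] [Finite H] {σ x : H} {m : ℕ} (hm : 1 ≤ m)
    (hσ : orderOf σ = 2 ^ m) (hx : x ∈ Subgroup.zpowers σ) (hx2 : orderOf x = 2) :
    x = σ ^ (2 ^ (m - 1)) := by
  rw [← mem_powers_iff_mem_zpowers] at hx
  obtain ⟨k, hk⟩ := hx
  have hk' : σ ^ k = x := hk
  have h1 : (σ ^ k) ^ 2 = 1 := by rw [hk', ← hx2]; exact pow_orderOf_eq_one _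
  rw [← pow_mul] at h1
  have h2 : 2 ^ m ∣ k * 2 := by rw [← hσ]; exact orderOf_dvd_of_pow_eq_one h1
  have h3 : 2 ^ (m - 1) ∣ k := by
    have e : 2 ^ m = 2 ^ (m - 1) * 2 := by
      rw [← pow_succ]
      congr 1
      omega
    rw [e] at h2
    exact Nat.dvd_of_mul_dvd_mul_right (by norm_num) h2
  obtain ⟨j, hj⟩ := h3
  have hJ2 : (σ ^ (2 ^ (m - 1))) ^ 2 = 1 := by
    rw [← pow_mul, ← pow_succ, show m - 1 + 1 = m by omega, ← hσ, pow_orderOf_eq_one]
  rw [← hk', hj, pow_mul]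
  rcases Nat.even_or_odd j with ⟨i, hi⟩ | ⟨i, hi⟩
  · exfalso
    have hx1 : x = 1 := by
      rw [← hk', hj, pow_mul, hi, ← two_mul, pow_mul, hJ2, one_pow]
    rw [hx1, orderOf_one] at hx2
    omega
  · rw [hi, pow_succ, pow_mul, hJ2, one_pow, one_mul]

/-- The elements of `⟨σ, τ⟩`, `τ` an involution inverting `σ`. -/
theorem elts_aux {G : Type*} [Group G] {σ τ : G} (hτ2 : τ * τ = 1) (hrel : τ * σ * τ⁻¹ = σ⁻¹)
    (p : G) (hp : p ∈ Subgroup.closure ({σ, τ} : Set G)) :
    p ∈ Subgroup.zpowers σ ∨ p * τ ∈ Subgroup.zpowers σ := by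
  have hτinv : τ⁻¹ = τ := inv_eq_of_mul_eq_one_left hτ2
  have hτ2' : ∀ x : G, τ * (τ * x) = x := by
    intro x
    rw [← mul_assoc, hτ2, one_mul]
  have hinvQ : ∀ q ∈ Subgroup.zpowers σ, τ * q * τ = q⁻¹ := by
    intro q hq
    obtain ⟨k, rfl⟩ := Subgroup.mem_zpowers_iff.mp hq
    have e : τ * σ ^ k * τ⁻¹ = (σ ^ k)⁻¹ := by rw [← conj_zpow, hrel, inv_zpow]
    rwa [hτinv] at e
  induction hp using Subgroup.closure_induction with
  | mem x hx =>
    rcases hx with rfl | rfl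
    · left
      exact Subgroup.mem_zpowers _
    · right
      rw [hτ2]
      exact Subgroup.one_mem _
  | one =>
    left
    exact Subgroup.one_mem _
  | mul a b _ _ iha ihb =>
    rcases iha with ha | ha <;> rcases ihb with hb | hb
    · left
      exact Subgroup.mul_mem _ ha hb
    · right
      rw [mul_assoc]
      exact Subgroup.mul_mem _ ha hb
    · right
      have e : a * b * τ = (a * τ) * (τ * b * τ) := by
        simp only [mul_assoc, hτ2']
      rw [e, hinvQ b hb]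
      exact Subgroup.mul_mem _ ha (Subgroup.inv_mem _ hb)
    · left
      have e : a * b = (a * τ) * (τ * (b * τ) * τ) := by
        simp only [mul_assoc, hτ2', hτ2, mul_one]
      rw [e, hinvQ (b * τ) hb]
      exact Subgroup.mul_mem _ ha (Subgroup.inv_mem _ hb)
  | inv a _ iha =>
    rcases iha with ha | ha
    · left
      exact Subgroup.inv_mem _ ha
    · right
      have e : a⁻¹ * τ = τ * (a * τ)⁻¹ * τ := by
        rw [mul_inv_rev, hτinv]
        simp only [hτ2']
      rw [e, hinvQ _ (Subgroup.inv_mem _ ha), inv_inv]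
      exact ha

/-- Abstract form: a finite group `H` with dihedral Sylow `2`-subgroup `P = ⟨σ⟩ ∪ ⟨σ⟩τ` of order
`2 ^ n` whose central involution is central in `H` has a normal `2`-complement. -/
theorem core_abstract {H : Type*} [Group H] [Finite H] {n : ℕ} (P : Sylow 2 H) (σ τ : H)
    (hn : 3 ≤ n) (hσ : σ ∈ (P : Subgroup H)) (hτ : τ ∈ (P : Subgroup H))
    (hσo : orderOf σ = 2 ^ (n - 1)) (hτo : orderOf τ = 2) (hrel : τ * σ * τ⁻¹ = σ⁻¹)
    (helts : ∀ p ∈ (P : Subgroup H), p ∈ Subgroup.zpowers σ ∨ p * τ ∈ Subgroup.zpowers σ)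
    (hJ : ∀ g : H, g * σ ^ (2 ^ (n - 2)) = σ ^ (2 ^ (n - 2)) * g) :
    ∃ X : Subgroup H, X.Normal ∧ Odd (Nat.card X) ∧ Nat.card H = Nat.card X * 2 ^ n := by
  haveI : Fact (Nat.Prime 2) := ⟨Nat.prime_two⟩
  have hτ2 : τ * τ = 1 := by rw [← pow_two, ← hτo, pow_orderOf_eq_one]
  have hτinv : τ⁻¹ = τ := inv_eq_of_mul_eq_one_left hτ2
  have hτσ : ∀ s ∈ Subgroup.zpowers σ, τ * s = s⁻¹ * τ := by
    intro s hs
    obtain ⟨k, rfl⟩ := Subgroup.mem_zpowers_iff.mp hs
    have e : τ * σ ^ k * τ⁻¹ = (σ ^ k)⁻¹ := by rw [← conj_zpow, hrel, inv_zpow]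
    rw [← e]
    group
  have hτQ : τ ∉ Subgroup.zpowers σ := by
    intro hmem
    obtain ⟨k, hk⟩ := Subgroup.mem_zpowers_iff.mp hmem
    have hcomm : τ * σ = σ * τ := by
      rw [← hk]
      exact (Commute.zpow_self σ k).eq
    have h1 : σ⁻¹ = σ := by rw [← hrel, hcomm, mul_inv_cancel_right]
    have h2 : σ ^ 2 = 1 := by
      rw [pow_two]
      nth_rewrite 1 [← h1]
      exact inv_mul_cancel σ
    have h3 : 2 ^ (n - 1) ∣ 2 := by rw [← hσo]; exact orderOf_dvd_of_pow_eq_one h2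
    have h4 : 2 ^ (n - 1) ≤ 2 := Nat.le_of_dvd (by norm_num) h3
    have h5 : 2 ^ 2 ≤ 2 ^ (n - 1) := Nat.pow_le_pow_right (by norm_num) (by omega)
    omega
  have hστQ : σ * τ ∉ Subgroup.zpowers σ := by
    intro hmem
    apply hτQ
    have h1 := Subgroup.mul_mem _ (Subgroup.inv_mem _ (Subgroup.mem_zpowers σ)) hmem
    rwa [inv_mul_cancel_left] at h1
  have hQP : Subgroup.zpowers σ ≤ (P : Subgroup H) := Subgroup.zpowers_le.mpr hσ
  have hQi : (Subgroup.zpowers σ).relIndex (P : Subgroup H) = 2 := by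
    rw [Subgroup.relIndex_eq_two_iff_exists_notMem_and]
    refine ⟨τ, hτ, hτQ, fun b hb => ?_⟩
    rcases helts b hb with hi | hi
    · right; exact hi
    · left; exact hi
  have hPcard : Nat.card (P : Subgroup H) = 2 ^ n := by
    have h1 := Subgroup.card_mul_index ((Subgroup.zpowers σ).subgroupOf (P : Subgroup H))
    have h2 : Nat.card ((Subgroup.zpowers σ).subgroupOf (P : Subgroup H)) = 2 ^ (n - 1) := by
      rw [Nat.card_congr (Subgroup.subgroupOfEquivOfLe hQP).toEquiv, Nat.card_zpowers, hσo]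
    have h3 : ((Subgroup.zpowers σ).subgroupOf (P : Subgroup H)).index = 2 := hQi
    rw [h2, h3] at h1
    rw [← h1, ← pow_succ]
    congr 1
    omega
  have hστ2 : (σ * τ) * (σ * τ) = 1 := by
    have h1 : τ * σ = σ⁻¹ * τ := hτσ σ (Subgroup.mem_zpowers σ)
    calc σ * τ * (σ * τ) = σ * (τ * σ) * τ := by group
      _ = σ * (σ⁻¹ * τ) * τ := by rw [h1]
      _ = τ * τ := by group
      _ = 1 := hτ2
  have hστo : orderOf (σ * τ) = 2 := by
    apply orderOf_eq_prime
    · rw [pow_two]; exact hστ2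
    · intro h1
      apply hστQ
      rw [h1]
      exact Subgroup.one_mem _
  have hnoconj : ∀ u : H, orderOf u = 2 → u ∉ Subgroup.zpowers σ →
      ∀ g : H, g * u * g⁻¹ ∉ Subgroup.zpowers σ := by
    intro u hu huQ g hmem
    have ho : orderOf (g * u * g⁻¹) = orderOf u :=
      orderOf_injective (MulAut.conj g).toMonoidHom (MulAut.conj g).injective u
    have hJeq := invol_of_mem_zpowers (m := n - 1) (by omega) hσo hmem (ho.trans hu)
    rw [show n - 1 - 1 = n - 2 by omega] at hJeq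
    have h1 : g * u = g * σ ^ (2 ^ (n - 2)) := by
      rw [hJ g, ← hJeq]
      group
    have h2 : u = σ ^ (2 ^ (n - 2)) := mul_left_cancel h1
    apply huQ
    rw [h2]
    exact Subgroup.pow_mem _ (Subgroup.mem_zpowers σ) _
  obtain ⟨M₁, hM₁n, hM₁i, hτM₁⟩ :=
    thompson_transfer P (Subgroup.zpowers σ) hQP hQi τ hτo (hnoconj τ hτo hτQ)
  obtain ⟨M₂, hM₂n, hM₂i, hστM₂⟩ :=
    thompson_transfer P (Subgroup.zpowers σ) hQP hQi (σ * τ) hστo (hnoconj (σ * τ) hστo hστQ)
  have hPK : (P : Subgroup H) ⊓ (M₁ ⊓ M₂) ≤ Subgroup.zpowers σ := by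
    rintro p ⟨hpP, hpM₁, hpM₂⟩
    rcases helts p hpP with hi | hi
    · exact hi
    · exfalso
      rw [← mem_powers_iff_mem_zpowers] at hi
      obtain ⟨i, hi⟩ := hi
      have hi' : σ ^ i = p * τ := hi
      have hp : p = σ ^ i * τ := by rw [hi', mul_assoc, hτ2, mul_one]
      rcases Nat.even_or_odd i with ⟨j, hj⟩ | ⟨j, hj⟩
      · apply hτM₁
        have hs : τ * σ ^ j = (σ ^ j)⁻¹ * τ :=
          hτσ _ (Subgroup.pow_mem _ (Subgroup.mem_zpowers σ) j)
        have e : τ = (σ ^ j)⁻¹ * p * ((σ ^ j)⁻¹)⁻¹ := by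
          rw [hp, hj, pow_add, inv_inv]
          symm
          calc (σ ^ j)⁻¹ * (σ ^ j * σ ^ j * τ) * σ ^ j = σ ^ j * (τ * σ ^ j) := by group
            _ = σ ^ j * ((σ ^ j)⁻¹ * τ) := by rw [hs]
            _ = τ := by group
        rw [e]
        exact hM₁n.conj_mem p hpM₁ _
      · apply hστM₂
        have hs : τ * σ ^ j = (σ ^ j)⁻¹ * τ :=
          hτσ _ (Subgroup.pow_mem _ (Subgroup.mem_zpowers σ) j)
        have hsσ : σ ^ j * σ = σ * σ ^ j := (Commute.pow_self σ j).eq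
        have e : σ * τ = (σ ^ j)⁻¹ * p * ((σ ^ j)⁻¹)⁻¹ := by
          rw [hp, hj, pow_succ, two_mul, pow_add, inv_inv]
          symm
          calc (σ ^ j)⁻¹ * (σ ^ j * σ ^ j * σ * τ) * σ ^ j = σ ^ j * σ * (τ * σ ^ j) := by group
            _ = σ ^ j * σ * ((σ ^ j)⁻¹ * τ) := by rw [hs]
            _ = (σ ^ j * σ) * (σ ^ j)⁻¹ * τ := by group
            _ = σ * σ ^ j * (σ ^ j)⁻¹ * τ := by rw [hsσ]
            _ = σ * τ := by group
        rw [e]
        exact hM₂n.conj_mem p hpM₂ _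
  obtain ⟨K, hK⟩ : ∃ K : Subgroup H, K = M₁ ⊓ M₂ := ⟨_, rfl⟩
  haveI hKn : K.Normal := by rw [hK]; infer_instance
  obtain ⟨R⟩ : Nonempty (Sylow 2 K) := inferInstance
  have hRc : IsCyclic (R : Subgroup K) :=
    isCyclic_sylow_of_normal K P (Subgroup.zpowers σ) inferInstance (by rw [hK]; exact hPK) R
  obtain ⟨X₀, hX₀n, hX₀c⟩ := exists_normal_complement_of_cyclic_sylow_two R hRc
  haveI := hX₀n
  have hX₀card : Nat.card X₀ = (R : Subgroup K).index := hX₀c.index_eq_card.symm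
  have hX₀idx : X₀.index = Nat.card (R : Subgroup K) := hX₀c.symm.index_eq_card
  obtain ⟨j, hj⟩ := IsPGroup.iff_card.mp R.isPGroup'
  have hodd : (Nat.card X₀).Coprime 2 := by
    rw [hX₀card, Nat.coprime_comm, Nat.Prime.coprime_iff_not_dvd Nat.prime_two]
    exact R.not_dvd_index
  have hcop : (Nat.card X₀).Coprime X₀.index := by
    rw [hX₀idx, hj]
    exact Nat.Coprime.pow_right _ hodd
  have hXn : (X₀.map K.subtype).Normal := normal_map_of_normal_hall K X₀ hcop
  have hXcard : Nat.card (X₀.map K.subtype) = Nat.card X₀ :=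
    Subgroup.card_map_of_injective (Subgroup.subtype_injective _)
  refine ⟨X₀.map K.subtype, hXn, ?_, ?_⟩
  · rw [hXcard]
    exact Nat.coprime_two_right.mp hodd
  · rw [hXcard]
    have h1 : Nat.card K * K.index = Nat.card H := Subgroup.card_mul_index K
    have h2 : Nat.card X₀ * Nat.card (R : Subgroup K) = Nat.card K := hX₀c.card_mul_card
    have h3 : Nat.card (P : Subgroup H) * (P : Subgroup H).index = Nat.card H :=
      Subgroup.card_mul_index _
    have hPodd : ¬ 2 ∣ (P : Subgroup H).index := P.not_dvd_index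
    have hKi : K.index ∣ 2 ^ 2 := by
      have e1 : (M₁ ⊓ M₂).relIndex M₁ * M₁.index = (M₁ ⊓ M₂).index :=
        Subgroup.relIndex_mul_index inf_le_left
      rw [Subgroup.inf_relIndex_left, hM₁i] at e1
      have e2 : M₂.relIndex M₁ ∣ M₂.index := Subgroup.relIndex_dvd_index_of_normal M₂ M₁
      rw [hM₂i] at e2
      rw [hK, ← e1, pow_two]
      exact Nat.mul_dvd_mul e2 (dvd_refl 2)
    obtain ⟨e, -, he⟩ := (Nat.dvd_prime_pow Nat.prime_two).mp hKi
    have h4 : Nat.card H = Nat.card X₀ * 2 ^ (j + e) := by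
      rw [← h1, ← h2, hj, he, pow_add, mul_assoc]
    have h5 : Nat.card H = 2 ^ n * (P : Subgroup H).index := by rw [← h3, hPcard]
    have h6 : j + e = n := by
      apply le_antisymm
      · have hd : 2 ^ (j + e) ∣ 2 ^ n * (P : Subgroup H).index := by
          rw [← h5, h4]
          exact dvd_mul_left _ _
        have hc : Nat.Coprime (2 ^ (j + e)) (P : Subgroup H).index :=
          Nat.Coprime.pow_left _ ((Nat.Prime.coprime_iff_not_dvd Nat.prime_two).mpr hPodd)
        exact (Nat.pow_dvd_pow_iff_le_right (by norm_num)).mp (hc.dvd_of_dvd_mul_right hd)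
      · have hd : 2 ^ n ∣ Nat.card X₀ * 2 ^ (j + e) := by
          rw [← h4, h5]
          exact dvd_mul_right _ _
        have hc : Nat.Coprime (2 ^ n) (Nat.card X₀) := Nat.Coprime.pow_left _ hodd.symm
        exact (Nat.pow_dvd_pow_iff_le_right (by norm_num)).mp (hc.dvd_of_dvd_mul_left hd)
    rw [h4, h6]

/-- piece CORE1 of S4482. -/
theorem exists_core₁ {G : Type u} [Group G] [Finite G] {n : ℕ} {P : Sylow 2 G} {σ τ : G}
    (h : Hyp n P σ τ) :
    ∃ X : Subgroup G, X ≤ Subgroup.centralizer ({σ ^ (2 ^ (n - 2))} : Set G) ∧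
      (∀ g ∈ Subgroup.centralizer ({σ ^ (2 ^ (n - 2))} : Set G), ∀ x ∈ X, g * x * g⁻¹ ∈ X) ∧
      Odd (Nat.card X) ∧
      Nat.card (Subgroup.centralizer ({σ ^ (2 ^ (n - 2))} : Set G)) = Nat.card X * 2 ^ n := by
  haveI : Fact (Nat.Prime 2) := ⟨Nat.prime_two⟩
  have hn := h.hn
  obtain ⟨J, hJdef⟩ : ∃ J : G, J = σ ^ (2 ^ (n - 2)) := ⟨_, rfl⟩
  rw [← hJdef]
  have hτ2 : τ * τ = 1 := by rw [← pow_two, ← h.hτo, pow_orderOf_eq_one]
  have hJ2 : J * J = 1 := by
    rw [hJdef, ← pow_add, ← two_mul, ← pow_succ', show n - 2 + 1 = n - 1 by omega, ← h.hσo,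
      pow_orderOf_eq_one]
  have hJinv : J⁻¹ = J := inv_eq_of_mul_eq_one_left hJ2
  have hσH : σ ∈ Subgroup.centralizer ({J} : Set G) := by
    rw [Subgroup.mem_centralizer_singleton_iff, hJdef]
    exact (Commute.self_pow σ _).eq
  have hτH : τ ∈ Subgroup.centralizer ({J} : Set G) := by
    rw [Subgroup.mem_centralizer_singleton_iff]
    have e : τ * J * τ⁻¹ = J := by
      rw [hJdef, ← conj_pow, h.hrel, inv_pow, ← hJdef, hJinv]
    calc τ * J = (τ * J * τ⁻¹) * τ := by group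
      _ = J * τ := by rw [e]
  have hPH : (P : Subgroup G) ≤ Subgroup.centralizer ({J} : Set G) := by
    rw [← h.hgen, Subgroup.closure_le]
    rintro x (rfl | rfl)
    · exact hσH
    · exact hτH
  have hord : orderOf (⟨σ, hσH⟩ : Subgroup.centralizer ({J} : Set G)) = 2 ^ (n - 1) := by
    rw [Subgroup.orderOf_mk, h.hσo]
  have hordτ : orderOf (⟨τ, hτH⟩ : Subgroup.centralizer ({J} : Set G)) = 2 := by
    rw [Subgroup.orderOf_mk, h.hτo]
  have hzp : ∀ q : Subgroup.centralizer ({J} : Set G), (q : G) ∈ Subgroup.zpowers σ →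
      q ∈ Subgroup.zpowers (⟨σ, hσH⟩ : Subgroup.centralizer ({J} : Set G)) := by
    intro q hq
    obtain ⟨k, hk⟩ := Subgroup.mem_zpowers_iff.mp hq
    rw [Subgroup.mem_zpowers_iff]
    refine ⟨k, Subtype.ext ?_⟩
    rw [Subgroup.coe_zpow]
    exact hk
  obtain ⟨X', hX'n, hX'odd, hX'card⟩ := core_abstract (n := n) (P.subtype hPH)
    (⟨σ, hσH⟩ : Subgroup.centralizer ({J} : Set G)) ⟨τ, hτH⟩ hn
    (by rw [Sylow.coe_subtype, Subgroup.mem_subgroupOf]; exact h.hσ)
    (by rw [Sylow.coe_subtype, Subgroup.mem_subgroupOf]; exact h.hτ)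
    hord hordτ (Subtype.ext h.hrel)
    (by
      intro p hp
      rw [Sylow.coe_subtype, Subgroup.mem_subgroupOf] at hp
      rw [← h.hgen] at hp
      rcases elts_aux hτ2 h.hrel (p : G) hp with h1 | h1
      · left; exact hzp p h1
      · right; exact hzp (p * ⟨τ, hτH⟩) h1)
    (by
      intro g
      apply Subtype.ext
      have hg := Subgroup.mem_centralizer_singleton_iff.mp g.2
      rw [Subgroup.coe_mul, Subgroup.coe_mul, Subgroup.coe_pow]
      show (g : G) * σ ^ (2 ^ (n - 2)) = σ ^ (2 ^ (n - 2)) * (g : G)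
      rw [← hJdef]
      exact hg)
  refine ⟨X'.map (Subgroup.centralizer ({J} : Set G)).subtype, Subgroup.map_subtype_le _, ?_, ?_,
    ?_⟩
  · rintro g hg _ ⟨x, hx, rfl⟩
    have h1 := hX'n.conj_mem x hx ⟨g, hg⟩
    exact ⟨_, h1, rfl⟩
  · rw [Subgroup.card_map_of_injective (Subgroup.subtype_injective _)]
    exact hX'odd
  · rw [Subgroup.card_map_of_injective (Subgroup.subtype_injective _)]
    exact hX'card

end Cfsg.Agent.H60.Dih
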