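import Mathlib
import Cfsg.Agent.H39.FcDefs
import Cfsg.Agent.H59.FcCycAut

/-!
# helper60: piece QUAT of S4291 -- the subgroup of squares of a normal generalized quaternion
subgroup

`T ⊴ G`, `T ≃* QuaternionGroup (2 ^ n)`, `n ≥ 1`: the subgroup `N` generated by the square of a
generator of the cyclic maximal subgroup is normal in `G`, cyclic, of index 4 in `T`, contains all
squares of `T`, and an element of odd order acting trivially on `T / N` centralizes `T`.
-/

set_option autoImplicit false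

namespace Cfsg.Agent.H60.Fc

universe u

open QuaternionGroup

theorem a_two_pow {m : ℕ} (k : ℕ) :
    (a 2 : QuaternionGroup m) ^ k = a (2 * (k : ZMod (2 * m))) := by
  induction k with
  | zero => rw [pow_zero, Nat.cast_zero, mul_zero, a_zero]
  | succ k ih =>
    rw [pow_succ, ih, a_mul_a]
    congr 1
    push_cast
    ring

theorem sq_mem_zpowers_a_two {m n : ℕ} (hm : m = 2 ^ n) (hn : 1 ≤ n) (q : QuaternionGroup m) :
    q * q ∈ Subgroup.zpowers (a 2 : QuaternionGroup m) := by
  have hm0 : m ≠ 0 := by rw [hm]; positivity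
  haveI : NeZero (2 * m) := ⟨by omega⟩
  cases q with
  | a i =>
    rw [a_mul_a]
    have h1 : (a (i + i) : QuaternionGroup m) = (a 2) ^ i.val := by
      rw [a_two_pow, ZMod.natCast_zmod_val]
      congr 1
      ring
    rw [h1]
    exact Subgroup.pow_mem _ (Subgroup.mem_zpowers _) _
  | xa i =>
    rw [xa_mul_xa]
    have hm2 : m = 2 * 2 ^ (n - 1) := by
      rw [hm, ← pow_succ']
      congr 1
      omega
    have h2 : ((m : ℕ) : ZMod (2 * m)) = ((2 * 2 ^ (n - 1) : ℕ) : ZMod (2 * m)) :=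
      congrArg (fun k : ℕ => (k : ZMod (2 * m))) hm2
    have h1 : (a ((m : ZMod (2 * m)) + i - i) : QuaternionGroup m) = (a 2) ^ (2 ^ (n - 1)) := by
      rw [a_two_pow, add_sub_cancel_right, h2]
      congr 1
      push_cast
      ring
    rw [h1]
    exact Subgroup.pow_mem _ (Subgroup.mem_zpowers _) _

theorem orderOf_a_two {m : ℕ} : orderOf (a 2 : QuaternionGroup m) = m := by
  have h1 : (a 2 : QuaternionGroup m) = (a 1) ^ 2 := by
    rw [a_one_pow]
    rfl
  rw [h1, orderOf_pow_of_dvd (by norm_num) (by rw [orderOf_a_one]; exact dvd_mul_right 2 m),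
    orderOf_a_one]
  exact Nat.mul_div_cancel_left m (by norm_num)

theorem stQuat : Cfsg.Agent.H39.Fc.StQuat.{u} := by
  intro G _ _ T hTn n hn ⟨e0⟩
  obtain ⟨m, hm⟩ : ∃ m, m = 2 ^ n := ⟨_, rfl⟩
  obtain ⟨e⟩ : Nonempty (T ≃* QuaternionGroup m) := by rw [hm]; exact ⟨e0⟩
  have hm0 : m ≠ 0 := by rw [hm]; positivity
  haveI : NeZero m := ⟨hm0⟩
  haveI : NeZero (2 * m) := ⟨by omega⟩
  obtain ⟨u, hu⟩ : ∃ u : T, u = e.symm (a 1) := ⟨_, rfl⟩
  obtain ⟨v, hv⟩ : ∃ v : T, v = e.symm (xa 0) := ⟨_, rfl⟩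
  have heu : e u = a 1 := by rw [hu, e.apply_symm_apply]
  have heuu : e (u * u) = a 2 := by
    rw [map_mul, heu, a_mul_a, one_add_one_eq_two]
  have hsq : ∀ t ∈ T, t * t ∈ Subgroup.zpowers ((u : G) * u) := by
    intro t ht
    have h1 := sq_mem_zpowers_a_two hm hn (e ⟨t, ht⟩)
    obtain ⟨k, hk⟩ := Subgroup.mem_zpowers_iff.mp h1
    rw [← heuu, ← map_zpow, ← map_mul] at hk
    have h3 : (u * u) ^ k = (⟨t, ht⟩ : T) * ⟨t, ht⟩ := e.injective hk
    have h4 : ((u : G) * u) ^ k = t * t := by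
      have := congrArg Subtype.val h3
      simpa using this
    rw [← h4]
    exact Subgroup.zpow_mem _ (Subgroup.mem_zpowers _) _
  have hNn : (Subgroup.zpowers ((u : G) * u)).Normal := by
    refine ⟨fun x hx g => ?_⟩
    obtain ⟨k, rfl⟩ := Subgroup.mem_zpowers_iff.mp hx
    have h1 : g * ((u : G) * u) ^ k * g⁻¹ = (g * ((u : G) * u) * g⁻¹) ^ k := by rw [conj_zpow]
    rw [h1]
    apply Subgroup.zpow_mem
    have h2 : g * ((u : G) * u) * g⁻¹ = (g * u * g⁻¹) * (g * u * g⁻¹) := by group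
    rw [h2]
    exact hsq _ (hTn.conj_mem _ u.2 g)
  have hordN : orderOf ((u : G) * u) = m := by
    have h1 : ((u : G) * u) = ((u * u : T) : G) := rfl
    rw [h1, Subgroup.orderOf_coe, ← orderOf_injective e.toMonoidHom e.injective]
    show orderOf (e (u * u)) = m
    rw [heuu, orderOf_a_two]
  have hord_u : orderOf (u : G) = 2 ^ (n + 1) := by
    rw [Subgroup.orderOf_coe, ← orderOf_injective e.toMonoidHom e.injective]
    show orderOf (e u) = 2 ^ (n + 1)
    rw [heu, orderOf_a_one, hm, pow_succ']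
  refine ⟨Subgroup.zpowers ((u : G) * u), hNn, Subgroup.zpowers_le.mpr (T.mul_mem u.2 u.2),
    inferInstance, ?_, hsq, ?_⟩
  · rw [Nat.card_zpowers, hordN, Nat.card_congr e.toEquiv, Nat.card_eq_fintype_card,
      QuaternionGroup.card]
  intro g hg hcomm
  have hA2 : IsPGroup 2 (Subgroup.zpowers (u : G)) := by
    apply IsPGroup.of_card (n := n + 1)
    rw [Nat.card_zpowers, hord_u]
  have hNA : Subgroup.zpowers ((u : G) * u) ≤ Subgroup.zpowers (u : G) :=
    Subgroup.zpowers_le.mpr (Subgroup.mul_mem _ (Subgroup.mem_zpowers _) (Subgroup.mem_zpowers _))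
  have hgu : g * u * g⁻¹ ∈ Subgroup.zpowers (u : G) := by
    have h1 := hNA (hcomm u u.2)
    have h2 := Subgroup.mul_mem _ h1 (Subgroup.mem_zpowers (u : G))
    simpa using h2
  have hnormA : ∀ t ∈ Subgroup.zpowers (u : G), g * t * g⁻¹ ∈ Subgroup.zpowers (u : G) := by
    intro t ht
    obtain ⟨k, rfl⟩ := Subgroup.mem_zpowers_iff.mp ht
    have h1 : g * (u : G) ^ k * g⁻¹ = (g * u * g⁻¹) ^ k := by rw [conj_zpow]
    rw [h1]
    exact Subgroup.zpow_mem _ hgu k
  have hcentA := Cfsg.Agent.H59.Fc.stCycAut G (Subgroup.zpowers (u : G)) hA2 inferInstance g hg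
    hnormA
  have hgu' : g * u = u * g := hcentA u (Subgroup.mem_zpowers _)
  obtain ⟨c, hc⟩ : ∃ c : G, c = g * v * g⁻¹ * (v : G)⁻¹ := ⟨_, rfl⟩
  have hcN : c ∈ Subgroup.zpowers ((u : G) * u) := by rw [hc]; exact hcomm v v.2
  have hgc : g * c = c * g := hcentA c (hNA hcN)
  have hgv : g * v = c * v * g := by rw [hc]; group
  have hpow : ∀ j : ℕ, g ^ j * v = c ^ j * v * g ^ j := by
    intro j
    induction j with
    | zero => simp
    | succ j ih =>
      have hgjc : g ^ j * c = c * g ^ j := ((show Commute g c from hgc).pow_left j).eq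
      calc g ^ (j + 1) * v = g ^ j * (g * v) := by rw [pow_succ, mul_assoc]
        _ = g ^ j * (c * v * g) := by rw [hgv]
        _ = (g ^ j * c) * v * g := by simp only [mul_assoc]
        _ = c * (g ^ j * v) * g := by rw [hgjc]; simp only [mul_assoc]
        _ = c * (c ^ j * v * g ^ j) * g := by rw [ih]
        _ = c ^ (j + 1) * v * g ^ (j + 1) := by rw [pow_succ', pow_succ]; simp only [mul_assoc]
  have hcj : c ^ orderOf g = 1 := by
    have h1 := hpow (orderOf g)
    rw [pow_orderOf_eq_one, one_mul, mul_one] at h1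
    have h2 : c ^ orderOf g * (v : G) = 1 * v := by rw [one_mul]; exact h1.symm
    exact mul_right_cancel h2
  have hc2 : c ^ (2 ^ n) = 1 := by
    obtain ⟨k, rfl⟩ := Subgroup.mem_zpowers_iff.mp hcN
    rw [← zpow_natCast, ← zpow_mul, mul_comm, zpow_mul, zpow_natCast, ← hm, ← hordN,
      pow_orderOf_eq_one, one_zpow]
  have hc1 : c = 1 := by
    have h1 : orderOf c ∣ orderOf g := orderOf_dvd_of_pow_eq_one hcj
    have h2 : orderOf c ∣ 2 ^ n := orderOf_dvd_of_pow_eq_one hc2
    have h3 : Nat.Coprime (orderOf g) (2 ^ n) :=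
      Nat.Coprime.pow_right n (Nat.coprime_two_right.mpr hg)
    have h4 : orderOf c ∣ 1 := by
      rw [← h3.gcd_eq_one]
      exact Nat.dvd_gcd h1 h2
    exact orderOf_eq_one_iff.mp (Nat.dvd_one.mp h4)
  have hgv' : g * v = v * g := by rw [hgv, hc1, one_mul]
  intro t ht
  have hq : ∀ q : QuaternionGroup m,
      g * ((e.symm q : T) : G) = ((e.symm q : T) : G) * g := by
    intro q
    cases q with
    | a i =>
      have h1 : (a i : QuaternionGroup m) = (a 1) ^ i.val := by
        rw [a_one_pow, ZMod.natCast_zmod_val]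
      have h2 : e.symm (a i) = u ^ i.val := by rw [h1, map_pow, ← hu]
      rw [h2, Subgroup.coe_pow]
      exact ((show Commute g (u : G) from hgu').pow_right _).eq
    | xa i =>
      have h1 : (xa i : QuaternionGroup m) = xa 0 * (a 1) ^ i.val := by
        rw [a_one_pow, ZMod.natCast_zmod_val, xa_mul_a, zero_add]
      have h2 : e.symm (xa i) = v * u ^ i.val := by rw [h1, map_mul, map_pow, ← hu, ← hv]
      rw [h2, Subgroup.coe_mul, Subgroup.coe_pow]
      exact ((show Commute g (v : G) from hgv').mul_right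
        ((show Commute g (u : G) from hgu').pow_right _)).eq
  have h := hq (e ⟨t, ht⟩)
  rwa [e.symm_apply_apply] at h

end Cfsg.Agent.H60.Fc
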