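import Mathlib
import Cfsg.Agent.H98.GuDefs

set_option autoImplicit false

/-!
# S5976-ARITHB (helper60, for helper98): the small unitary groups have order prime to `r`
-/

namespace Cfsg.Agent.H60.Gu

open Cfsg.Agent.H98.Gu

/-- `r ∣ q ^ j - 1` means `q ^ j = 1` modulo `r`. -/
theorem pow_eq_one_of_dvd_sub {q r j : ℕ} (hq : 2 ≤ q) (h : r ∣ q ^ j - 1) :
    (q : ZMod r) ^ j = 1 := by
  have h1 : 1 ≤ q ^ j := Nat.one_le_pow _ _ (by omega)
  have h2 : ((q ^ j - 1 : ℕ) : ZMod r) = 0 := (ZMod.natCast_eq_zero_iff _ _).2 h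
  rw [Nat.cast_sub h1, Nat.cast_pow, Nat.cast_one, sub_eq_zero] at h2
  exact h2

/-- `r ∣ q ^ j + 1` means `q ^ j = -1` modulo `r`. -/
theorem pow_eq_neg_one_of_dvd_add {q r j : ℕ} (h : r ∣ q ^ j + 1) :
    (q : ZMod r) ^ j = -1 := by
  have h2 : ((q ^ j + 1 : ℕ) : ZMod r) = 0 := (ZMod.natCast_eq_zero_iff _ _).2 h
  rw [Nat.cast_add, Nat.cast_pow, Nat.cast_one] at h2
  exact eq_neg_of_add_eq_zero_left h2

/-- For an odd prime `r`, `1 ≠ -1` modulo `r`. -/
theorem one_ne_neg_one_zmod {r : ℕ} (hr : r.Prime) (hr2 : r ≠ 2) : (1 : ZMod r) ≠ -1 := by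
  intro h
  have h2 : ((2 : ℕ) : ZMod r) = 0 := by
    have : (1 : ZMod r) + 1 = 0 := by
      nth_rewrite 1 [h]
      exact neg_add_cancel 1
    rw [← this]
    norm_num
  have h3 : r ∣ 2 := (ZMod.natCast_eq_zero_iff _ _).1 h2
  exact hr2 ((Nat.prime_dvd_prime_iff_eq hr Nat.prime_two).1 h3)

/-- If `q ^ j = -1` modulo an odd prime `r` then the order of `q` divides `2 j` but not `j`. -/
theorem order_of_pow_eq_neg_one {q r j : ℕ} (hr : r.Prime) (hr2 : r ≠ 2)
    (h : (q : ZMod r) ^ j = -1) :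
    orderOf (q : ZMod r) ∣ 2 * j ∧ ¬ orderOf (q : ZMod r) ∣ j := by
  constructor
  · rw [orderOf_dvd_iff_pow_eq_one, mul_comm, pow_mul, h]
    norm_num
  · intro hd
    rw [orderOf_dvd_iff_pow_eq_one, h] at hd
    exact one_ne_neg_one_zmod hr hr2 hd.symm

theorem arithB : StArithB := by
  intro q r n hr hr2 hrq hq hcase hdvd
  unfold guCard at hdvd
  rcases (Nat.Prime.dvd_mul hr).1 hdvd with h | h
  · exact hrq (hr.dvd_of_dvd_pow h)
  · obtain ⟨i, hi, hri⟩ := (Prime.dvd_finsetProd_iff hr.prime _).1 h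
    rw [Finset.mem_range] at hi
    by_cases hev : Even i
    · rw [if_pos hev] at hri
      obtain ⟨h1, h2⟩ := order_of_pow_eq_neg_one hr hr2 (pow_eq_neg_one_of_dvd_add hri)
      rcases hcase with ⟨hodd, -⟩ | ⟨h4, -⟩
      · exact h2 (Nat.Coprime.dvd_of_dvd_mul_left (Nat.coprime_two_right.2 hodd) h1)
      · have h5 : 4 ∣ 2 * (i + 1) := h4.trans h1
        obtain ⟨k, hk⟩ := hev
        omega
    · rw [if_neg hev] at hri
      have h1 : orderOf (q : ZMod r) ∣ i + 1 :=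
        orderOf_dvd_iff_pow_eq_one.2 (pow_eq_one_of_dvd_sub hq hri)
      have h2 : orderOf (q : ZMod r) ≤ i + 1 := Nat.le_of_dvd (by omega) h1
      rcases hcase with ⟨hodd, hn⟩ | ⟨h4, hn⟩
      · have h3 : orderOf (q : ZMod r) = i + 1 := by omega
        rw [h3] at hodd
        have hodd' : Odd i := Nat.not_even_iff_odd.1 hev
        obtain ⟨a, ha⟩ := hodd
        obtain ⟨b, hb⟩ := hodd'
        omega
      · omega

end Cfsg.Agent.H60.Gu
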