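import Mathlib
import Cfsg.Agent.H98.GuDefs
import Cfsg.Agent.H60.GuArithB

set_option autoImplicit false

/-!
# S5976-ARITHA (helper60, for helper98): the primes dividing the index
-/

namespace Cfsg.Agent.H60.Gu

open Cfsg.Agent.H98.Gu

/-- If `e ∣ 2 j`, `e ∤ j` and `j` is even then `4 ∣ e`. -/
theorem four_dvd_of_order {e j : ℕ} (h1 : e ∣ 2 * j) (h2 : ¬ e ∣ j) (hj : Even j) : 4 ∣ e := by
  have he : Even e := by
    by_contra hodd
    rw [Nat.not_even_iff_odd] at hodd
    exact h2 (Nat.Coprime.dvd_of_dvd_mul_left (Nat.coprime_two_right.2 hodd) h1)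
  obtain ⟨e', rfl⟩ := he
  have h3 : e' ∣ j := by
    have h4 : 2 * e' ∣ 2 * j := by rwa [two_mul]
    exact (Nat.mul_dvd_mul_iff_left (by norm_num)).1 h4
  have he' : Even e' := by
    by_contra hodd
    rw [Nat.not_even_iff_odd] at hodd
    apply h2
    have hc : Nat.Coprime 2 e' := Nat.coprime_two_left.2 hodd
    have h5 : 2 * e' ∣ j := Nat.Coprime.mul_dvd_of_dvd_of_dvd hc hj.two_dvd h3
    rwa [two_mul] at h5
  obtain ⟨k, rfl⟩ := he'
  exact ⟨k, by ring⟩

theorem arithA : StArithA := by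
  intro q r d idx m hr hr2 hrq hq hridx heq
  have hterm : ∀ i, q ^ (2 * (i + 1)) - 1 =
      (if Even i then q ^ (i + 1) + 1 else q ^ (i + 1) - 1) *
        (if Even i then q ^ (i + 1) - 1 else q ^ (i + 1) + 1) := by
    intro i
    have h1 : 1 ≤ q ^ (i + 1) := Nat.one_le_pow _ _ (by omega)
    have h2 : q ^ (2 * (i + 1)) = q ^ (i + 1) * q ^ (i + 1) := by rw [two_mul, pow_add]
    have h3 : q ^ (2 * (i + 1)) - 1 = (q ^ (i + 1) + 1) * (q ^ (i + 1) - 1) := by
      rw [h2]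
      obtain ⟨x, hx⟩ : ∃ x, q ^ (i + 1) = x + 1 := ⟨q ^ (i + 1) - 1, by omega⟩
      rw [hx, Nat.add_sub_cancel]
      have h4 : (x + 1) * (x + 1) = (x + 1 + 1) * x + 1 := by ring
      rw [h4, Nat.add_sub_cancel]
    by_cases hev : Even i
    · rw [if_pos hev, if_pos hev]
      exact h3
    · rw [if_neg hev, if_neg hev, h3, mul_comm]
  have hprod : ∏ i ∈ Finset.range d, (q ^ (2 * (i + 1)) - 1) =
      (∏ i ∈ Finset.range d, (if Even i then q ^ (i + 1) + 1 else q ^ (i + 1) - 1)) *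
        ∏ i ∈ Finset.range d, (if Even i then q ^ (i + 1) - 1 else q ^ (i + 1) + 1) := by
    rw [← Finset.prod_mul_distrib]
    exact Finset.prod_congr rfl (fun i _ => hterm i)
  have ha : d * (d - 1) / 2 ≤ d ^ 2 := by
    calc d * (d - 1) / 2 ≤ d * (d - 1) := Nat.div_le_self _ _
      _ ≤ d * d := Nat.mul_le_mul_left d (Nat.sub_le d 1)
      _ = d ^ 2 := (sq d).symm
  have hpow : q ^ (d ^ 2) = q ^ (d * (d - 1) / 2) * q ^ (d ^ 2 - d * (d - 1) / 2) := by
    rw [← pow_add, Nat.add_sub_cancel' ha]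
  have hG : 0 < guCard q d := by
    unfold guCard
    apply Nat.mul_pos (pow_pos (by omega) _)
    apply Finset.prod_pos
    intro i _
    have h1 : 2 ≤ q ^ (i + 1) := by
      calc 2 ≤ q := hq
        _ = q ^ 1 := (pow_one q).symm
        _ ≤ q ^ (i + 1) := Nat.pow_le_pow_right (by omega) (by omega)
    split_ifs <;> omega
  have hkey : idx * m = q ^ (d ^ 2 - d * (d - 1) / 2) *
      ∏ i ∈ Finset.range d, (if Even i then q ^ (i + 1) - 1 else q ^ (i + 1) + 1) := by
    apply Nat.eq_of_mul_eq_mul_right hG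
    rw [heq, hpow, hprod]
    unfold guCard
    ring
  have hr1 : r ∣ q ^ (d ^ 2 - d * (d - 1) / 2) *
      ∏ i ∈ Finset.range d, (if Even i then q ^ (i + 1) - 1 else q ^ (i + 1) + 1) := by
    rw [← hkey]
    exact Dvd.dvd.mul_right hridx m
  rcases (Nat.Prime.dvd_mul hr).1 hr1 with h | h
  · exact absurd (hr.dvd_of_dvd_pow h) hrq
  · obtain ⟨i, hi, hri⟩ := (Prime.dvd_finsetProd_iff hr.prime _).1 h
    rw [Finset.mem_range] at hi
    by_cases hev : Even i
    · left
      rw [if_pos hev] at hri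
      have h1 : orderOf (q : ZMod r) ∣ i + 1 :=
        orderOf_dvd_iff_pow_eq_one.2 (pow_eq_one_of_dvd_sub hq hri)
      exact ⟨Odd.of_dvd_nat (Even.add_one hev) h1, (Nat.le_of_dvd (by omega) h1).trans (by omega)⟩
    · right
      rw [if_neg hev] at hri
      obtain ⟨h1, h2⟩ := order_of_pow_eq_neg_one hr hr2 (pow_eq_neg_one_of_dvd_add hri)
      have hj : Even (i + 1) := Odd.add_one (Nat.not_even_iff_odd.1 hev)
      exact ⟨four_dvd_of_order h1 h2 hj, (Nat.le_of_dvd (by omega) h1).trans (by omega)⟩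

end Cfsg.Agent.H60.Gu
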