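import Mathlib
import Cfsg.Agent.H98.GuDefs

set_option autoImplicit false

/-!
# S5976-QEXT (helper60, for helper98): a quadratic extension with a square root of `δ`
-/

namespace Cfsg.Agent.H60.Gu

open Polynomial

universe u

theorem qExt : Cfsg.Agent.H98.Gu.StQExt.{u} := by
  intro F _ _ δ hδ
  classical
  have hirr : Irreducible (X ^ 2 - C δ : F[X]) :=
    (X_pow_sub_C_irreducible_iff_of_prime Nat.prime_two).2 (fun b hb => hδ ⟨b, by rw [← hb, sq]⟩)
  haveI : Fact (Irreducible (X ^ 2 - C δ : F[X])) := ⟨hirr⟩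
  have hne : (X ^ 2 - C δ : F[X]) ≠ 0 := hirr.ne_zero
  have hdeg : (X ^ 2 - C δ : F[X]).natDegree = 2 := natDegree_X_pow_sub_C
  haveI : Module.Finite F (AdjoinRoot (X ^ 2 - C δ : F[X])) :=
    (AdjoinRoot.powerBasis hne).finite
  haveI : Finite (AdjoinRoot (X ^ 2 - C δ : F[X])) := Module.finite_of_finite F
  letI : Fintype (AdjoinRoot (X ^ 2 - C δ : F[X])) := Fintype.ofFinite _
  refine ⟨AdjoinRoot (X ^ 2 - C δ : F[X]), inferInstance, inferInstance,
    AdjoinRoot.of (X ^ 2 - C δ : F[X]), AdjoinRoot.root (X ^ 2 - C δ : F[X]), ?_, ?_⟩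
  · rw [Module.card_eq_pow_finrank (K := F), (AdjoinRoot.powerBasis hne).finrank]
    show Fintype.card F ^ (X ^ 2 - C δ : F[X]).natDegree = Fintype.card F ^ 2
    rw [hdeg]
  · have h := AdjoinRoot.eval₂_root (X ^ 2 - C δ : F[X])
    rw [eval₂_sub, eval₂_X_pow, eval₂_C, sub_eq_zero] at h
    exact h

end Cfsg.Agent.H60.Gu
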