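import Mathlib
import Cfsg.Agent.H66.HHFDefs

set_option autoImplicit false

/-!
# S3786-CYC (helper60, for helper66)
-/

namespace Cfsg.Agent.H60.HHF

open Cfsg Cfsg.Agent.H66.HHF

universe u

theorem cyc_holds : CycStatement.{u} := by
  intro H _ p _ m y hy j hj
  have hp : p.Prime := Fact.out
  have hgd : Nat.gcd j (p ^ (m + 1)) ∣ p ^ (m + 1) := Nat.gcd_dvd_right _ _
  obtain ⟨i, hi, hgi⟩ := (Nat.dvd_prime_pow hp).1 hgd
  have him : i ≤ m := by
    by_contra hcon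
    have h1 : i = m + 1 := by omega
    apply hj
    have h2 : Nat.gcd j (p ^ (m + 1)) ∣ j := Nat.gcd_dvd_left _ _
    rw [hgi, h1] at h2
    exact h2
  have hlt : Nat.gcd j (p ^ (m + 1)) < p ^ (m + 1) := by
    rw [hgi]
    exact Nat.pow_lt_pow_right hp.one_lt (by omega)
  obtain ⟨t₀, -, ht₀⟩ := Nat.exists_mul_mod_eq_gcd hlt
  refine ⟨t₀ * p ^ (m - i), ?_⟩
  obtain ⟨s, h1⟩ : ∃ s, j * t₀ = p ^ (m + 1) * s + p ^ i := by
    refine ⟨j * t₀ / p ^ (m + 1), ?_⟩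
    have h2 := Nat.div_add_mod (j * t₀) (p ^ (m + 1))
    rw [ht₀, hgi] at h2
    exact h2.symm
  have h3 : j * (t₀ * p ^ (m - i)) = p ^ (m + 1) * (s * p ^ (m - i)) + p ^ m := by
    have h4 : p ^ i * p ^ (m - i) = p ^ m := by
      rw [← pow_add]
      congr 1
      omega
    rw [← mul_assoc, h1, add_mul, h4]
    ring
  rw [h3, pow_add, pow_mul, hy, one_pow, one_mul]

end Cfsg.Agent.H60.HHF
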