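import Mathlib
import Cfsg.Agent.H66.HHFDefs

set_option autoImplicit false

/-!
# S3786-FROB (helper60, for helper66)
-/

namespace Cfsg.Agent.H60.HHF

open Cfsg Cfsg.Agent.H66.HHF

universe u

theorem frob_holds : FrobStatement.{u} := by
  intro p _ V _ _ T k
  have hp : p.Prime := Fact.out
  have h1 : ((Polynomial.X : Polynomial (ZMod p)) - 1) ^ p ^ k = Polynomial.X ^ p ^ k - 1 := by
    rw [sub_pow_char_pow, one_pow]
  have h2 : ((Polynomial.X : Polynomial (ZMod p)) - 1) *
      ∑ i ∈ Finset.range (p ^ k), Polynomial.X ^ i = Polynomial.X ^ p ^ k - 1 :=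
    mul_geom_sum _ _
  have hpk : p ^ k - 1 + 1 = p ^ k := by
    have := pow_pos hp.pos k
    omega
  have h3 : (∑ i ∈ Finset.range (p ^ k), (Polynomial.X : Polynomial (ZMod p)) ^ i) =
      (Polynomial.X - 1) ^ (p ^ k - 1) := by
    have hne : (Polynomial.X : Polynomial (ZMod p)) - 1 ≠ 0 := by
      have := Polynomial.X_sub_C_ne_zero (1 : ZMod p)
      simpa using this
    apply mul_left_cancel₀ hne
    rw [h2, ← h1, ← pow_succ', hpk]
  constructor
  · have h4 := congrArg (Polynomial.aeval T) h3
    simpa [map_sum] using h4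
  · have h4 := congrArg (Polynomial.aeval T) h1
    simpa using h4.symm

end Cfsg.Agent.H60.HHF
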