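import Mathlib
import Cfsg.Agent.H66.HHFDefs

set_option autoImplicit false

/-!
# S3786-ORTH (helper60, for helper66)
-/

namespace Cfsg.Agent.H60.HHF

open Cfsg Cfsg.Agent.H66.HHF

universe u

/-- A map `g : X → K` (`Z ≤ K ≤ X`) that is injective on cosets of `Z` forces `K = X`. -/
theorem le_of_coset_inj {H : Type u} [Group H] [Finite H] (Z K X : Subgroup H) (hZK : Z ≤ K)
    (hKX : K ≤ X) (g : H → H) (hg : ∀ u ∈ X, g u ∈ K)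
    (hinj : ∀ u ∈ X, ∀ v ∈ X, (g u)⁻¹ * g v ∈ Z → u⁻¹ * v ∈ Z) : X ≤ K := by
  have hZX : Z ≤ X := hZK.trans hKX
  have hF : Function.Injective (fun q : ↥X ⧸ Z.subgroupOf X =>
      (QuotientGroup.mk (⟨g (q.out : H), hg _ q.out.2⟩ : ↥K) : ↥K ⧸ Z.subgroupOf K)) := by
    intro q q' hqq
    have h1 : (⟨g (q.out : H), hg _ q.out.2⟩ : ↥K)⁻¹ * ⟨g (q'.out : H), hg _ q'.out.2⟩ ∈
        Z.subgroupOf K := QuotientGroup.eq.1 hqq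
    have h2 : (g (q.out : H))⁻¹ * g (q'.out : H) ∈ Z := h1
    have h3 := hinj _ q.out.2 _ q'.out.2 h2
    have h4 : (QuotientGroup.mk q.out : ↥X ⧸ Z.subgroupOf X) = QuotientGroup.mk q'.out :=
      QuotientGroup.eq.2 h3
    rw [QuotientGroup.out_eq', QuotientGroup.out_eq'] at h4
    exact h4
  have hcard := Nat.card_le_card_of_injective _ hF
  have e1 := Subgroup.card_eq_card_quotient_mul_card_subgroup (Z.subgroupOf X)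
  have e2 := Subgroup.card_eq_card_quotient_mul_card_subgroup (Z.subgroupOf K)
  have e3 : Nat.card (Z.subgroupOf X) = Nat.card Z :=
    Nat.card_congr (Subgroup.subgroupOfEquivOfLe hZX).toEquiv
  have e4 : Nat.card (Z.subgroupOf K) = Nat.card Z :=
    Nat.card_congr (Subgroup.subgroupOfEquivOfLe hZK).toEquiv
  have hle : Nat.card X ≤ Nat.card K := by
    rw [e1, e2, e3, e4]
    exact Nat.mul_le_mul_right _ hcard
  exact (Subgroup.eq_of_le_of_card_ge hKX hle).ge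

theorem orth_holds : OrthStatement.{u} := by
  intro H _ _ C Z X₁ X₂ hZX₁ hX₁C hZX₂ hX₂C hZc hcomm β hβZ hβX₂ htriv hfpf x hx
  have hxC : x ∈ C := hX₁C hx
  have key : X₂ ≤ X₂ ⊓ Subgroup.centralizer ({x} : Set H) := by
    apply le_of_coset_inj Z (X₂ ⊓ Subgroup.centralizer ({x} : Set H)) X₂ ?_ inf_le_left
      (fun u => u⁻¹ * (β * u * β⁻¹)) ?_ ?_
    · intro ζ hζ
      refine ⟨hZX₂ hζ, ?_⟩
      show ζ ∈ Subgroup.centralizer ({x} : Set H)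
      rw [Subgroup.mem_centralizer_iff]
      intro h hh
      rw [Set.mem_singleton_iff.1 hh]
      exact hZc x hxC ζ hζ
    · intro u hu
      show u⁻¹ * (β * u * β⁻¹) ∈ X₂ ⊓ Subgroup.centralizer ({x} : Set H)
      have huC := hX₂C hu
      have hu' : β * u * β⁻¹ ∈ X₂ := hβX₂ u hu
      refine ⟨X₂.mul_mem (X₂.inv_mem hu) hu', ?_⟩
      show u⁻¹ * (β * u * β⁻¹) ∈ Subgroup.centralizer ({x} : Set H)
      rw [Subgroup.mem_centralizer_iff]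
      intro h hh
      rw [Set.mem_singleton_iff.1 hh]
      have hc : x * u * x⁻¹ * u⁻¹ ∈ Z := hcomm x hxC u huC
      have hζ : β * x * β⁻¹ * x⁻¹ ∈ Z := htriv x hx
      have hu'C := hX₂C hu'
      have h1 : β * (x * u * x⁻¹ * u⁻¹) * β⁻¹ = x * u * x⁻¹ * u⁻¹ := by
        rw [hβZ _ hc]
        group
      have h2 : (x * (β * u * β⁻¹) * x⁻¹) * (β * x * β⁻¹ * x⁻¹) =
          (β * x * β⁻¹ * x⁻¹) * (x * (β * u * β⁻¹) * x⁻¹) :=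
        hZc _ (C.mul_mem (C.mul_mem hxC hu'C) (C.inv_mem hxC)) _ hζ
      have h3 : x * u * x⁻¹ * u⁻¹ = x * (β * u * β⁻¹) * x⁻¹ * (β * u * β⁻¹)⁻¹ := by
        calc x * u * x⁻¹ * u⁻¹ = β * (x * u * x⁻¹ * u⁻¹) * β⁻¹ := h1.symm
          _ = (β * x * β⁻¹ * x⁻¹) * (x * (β * u * β⁻¹) * x⁻¹) * (β * x * β⁻¹ * x⁻¹)⁻¹ *
              (β * u * β⁻¹)⁻¹ := by group
          _ = (x * (β * u * β⁻¹) * x⁻¹) * (β * x * β⁻¹ * x⁻¹) * (β * x * β⁻¹ * x⁻¹)⁻¹ *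
              (β * u * β⁻¹)⁻¹ := by rw [h2]
          _ = x * (β * u * β⁻¹) * x⁻¹ * (β * u * β⁻¹)⁻¹ := by group
      calc x * (u⁻¹ * (β * u * β⁻¹))
          = u⁻¹ * (x * u * x⁻¹ * u⁻¹)⁻¹ * (x * (β * u * β⁻¹) * x⁻¹ * (β * u * β⁻¹)⁻¹) *
              (β * u * β⁻¹) * x := by group
        _ = u⁻¹ * (x * u * x⁻¹ * u⁻¹)⁻¹ * (x * u * x⁻¹ * u⁻¹) * (β * u * β⁻¹) * x := by
            rw [← h3]
        _ = u⁻¹ * (β * u * β⁻¹) * x := by group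
    · intro u hu v hv hA
      have hA' : (u⁻¹ * (β * u * β⁻¹))⁻¹ * (v⁻¹ * (β * v * β⁻¹)) ∈ Z := hA
      have huC := hX₂C hu
      have hvC := hX₂C hv
      have hψu := hX₂C (hβX₂ u hu)
      have hz1 : v⁻¹ * (u * v⁻¹) * v⁻¹⁻¹ * (u * v⁻¹)⁻¹ ∈ Z :=
        hcomm _ (C.inv_mem hvC) _ (C.mul_mem huC (C.inv_mem hvC))
      have hz2 : (u * v⁻¹) * (β * u * β⁻¹)⁻¹ * (u * v⁻¹)⁻¹ * (β * u * β⁻¹)⁻¹⁻¹ ∈ Z :=
        hcomm _ (C.mul_mem huC (C.inv_mem hvC)) _ (C.inv_mem hψu)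
      have hB : (u⁻¹ * v)⁻¹ * (β * (u⁻¹ * v) * β⁻¹) ∈ Z := by
        have e : (u⁻¹ * v)⁻¹ * (β * (u⁻¹ * v) * β⁻¹) =
            (v⁻¹ * (u * v⁻¹) * v⁻¹⁻¹ * (u * v⁻¹)⁻¹) *
              ((u * v⁻¹) * (β * u * β⁻¹)⁻¹ * (u * v⁻¹)⁻¹ * (β * u * β⁻¹)⁻¹⁻¹) *
              ((u⁻¹ * (β * u * β⁻¹))⁻¹ * (v⁻¹ * (β * v * β⁻¹))) := by group
        rw [e]
        exact Z.mul_mem (Z.mul_mem hz1 hz2) hA'
      have hw : u⁻¹ * v ∈ X₂ := X₂.mul_mem (X₂.inv_mem hu) hv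
      apply hfpf _ hw
      have e2 : β * (u⁻¹ * v) * β⁻¹ * (u⁻¹ * v)⁻¹ =
          (u⁻¹ * v) * ((u⁻¹ * v)⁻¹ * (β * (u⁻¹ * v) * β⁻¹)) * (u⁻¹ * v)⁻¹ := by group
      rw [e2, hZc _ (hX₂C hw) _ hB, mul_inv_cancel_right]
      exact hB
  intro x' hx'
  exact Subgroup.mem_centralizer_iff.1 (key hx').2 x rfl

end Cfsg.Agent.H60.HHF
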