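import Mathlib
import Cfsg.Agent.H20.HtDefs

set_option autoImplicit false

/-!
# S3371-CNT (helper60, for helper20): the count `c + 1 = k`
-/

namespace Cfsg.Agent.H60.Ht

open Cfsg.Agent.H20.Ht

universe u v

/-- Removing one point from a finite type. -/
theorem card_ne_add_one (α : Type*) [Finite α] (a : α) :
    Nat.card {b : α // b ≠ a} + 1 = Nat.card α := by
  classical
  rw [← Finite.card_option, Nat.card_congr (Equiv.optionSubtypeNe a)]

theorem count : StmtCount.{u, v} := by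
  intro q _ V _ _ _ _ G _ _ ρ A k hU hF hk
  classical
  -- choose the unique involution of each nonzero vector
  have hex : ∀ x : {v : V // v ≠ 0}, ∃ t : {t : G // t ∉ A ∧ t ^ 2 = 1}, ρ t.1 x.1 = x.1 := by
    intro x
    obtain ⟨t, ⟨h1, h2, h3⟩, -⟩ := hU x.1 x.2
    exact ⟨⟨t, h1, h2⟩, h3⟩
  choose f hf using hex
  have huniq : ∀ (x : {v : V // v ≠ 0}) (t : {t : G // t ∉ A ∧ t ^ 2 = 1}),
      ρ t.1 x.1 = x.1 → f x = t := by
    intro x t ht
    obtain ⟨t0, -, h0⟩ := hU x.1 x.2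
    have e1 := h0 (f x).1 ⟨(f x).2.1, (f x).2.2, hf x⟩
    have e2 := h0 t.1 ⟨t.2.1, t.2.2, ht⟩
    exact Subtype.ext (e1.trans e2.symm)
  obtain ⟨v0, hv0⟩ := exists_ne (0 : V)
  obtain ⟨c, hc, -⟩ := hF (f ⟨v0, hv0⟩).1 (f ⟨v0, hv0⟩).2.1 (f ⟨v0, hv0⟩).2.2
  refine ⟨c, hc, ?_⟩
  -- every involution outside `A` fixes `c` vectors
  have hfix : ∀ t : {t : G // t ∉ A ∧ t ^ 2 = 1}, Nat.card {v : V // ρ t.1 v = v} = c := by
    intro t
    obtain ⟨c', hc', hc0'⟩ := hF t.1 t.2.1 t.2.2
    rw [hc0']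
    have h2 : c' ^ 2 = c ^ 2 := by rw [← hc', hc]
    exact Nat.pow_left_injective (by norm_num) h2
  -- the fibres of `f`
  have hfib : ∀ t : {t : G // t ∉ A ∧ t ^ 2 = 1},
      Nat.card {x : {v : V // v ≠ 0} // f x = t} + 1 = c := by
    intro t
    have e : {x : {v : V // v ≠ 0} // f x = t} ≃
        {w : {v : V // ρ t.1 v = v} // w ≠ ⟨0, map_zero _⟩} :=
      { toFun := fun x => ⟨⟨x.1.1, by
            have h := hf x.1
            rw [x.2] at h
            exact h⟩, by
            intro h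
            exact x.1.2 (congrArg Subtype.val h)⟩
        invFun := fun w => ⟨⟨w.1.1, by
            intro h
            exact w.2 (Subtype.ext h)⟩, huniq _ _ w.1.2⟩
        left_inv := fun x => rfl
        right_inv := fun w => rfl }
    rw [Nat.card_congr e, card_ne_add_one, hfix t]
  have hfib' : ∀ t : {t : G // t ∉ A ∧ t ^ 2 = 1},
      Nat.card {x : {v : V // v ≠ 0} // f x = t} = c - 1 := by
    intro t
    have := hfib t
    omega
  -- total count
  haveI : Fintype {t : G // t ∉ A ∧ t ^ 2 = 1} := Fintype.ofFinite _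
  have htot : Nat.card {v : V // v ≠ 0} = k * (c - 1) := by
    rw [← Nat.card_congr (Equiv.sigmaFiberEquiv f), Nat.card_sigma]
    simp only [hfib', Finset.sum_const, Finset.card_univ, smul_eq_mul]
    rw [← Nat.card_eq_fintype_card, hk]
  have hV : Nat.card {v : V // v ≠ 0} + 1 = Nat.card V := card_ne_add_one V 0
  have hV2 : 1 < Nat.card V := Finite.one_lt_card
  rw [htot, hc] at hV
  rw [hc] at hV2
  have hc2 : 2 ≤ c := by
    by_contra hlt
    push Not at hlt
    have : c ^ 2 ≤ 1 := by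
      have : c ≤ 1 := by omega
      calc c ^ 2 ≤ 1 ^ 2 := Nat.pow_le_pow_left this 2
        _ = 1 := by norm_num
    omega
  obtain ⟨d, rfl⟩ : ∃ d, c = d + 2 := ⟨c - 2, by omega⟩
  have h3 : k * (d + 1) = (d + 3) * (d + 1) := by
    have : d + 2 - 1 = d + 1 := by omega
    rw [this] at hV
    nlinarith
  have := Nat.eq_of_mul_eq_mul_right (by omega : 0 < d + 1) h3
  omega

end Cfsg.Agent.H60.Ht
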