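import Mathlib
import Cfsg.Agent.H20.HtDefs

set_option autoImplicit false

/-!
# S3371-SW3 (helper60, for helper20): `|Wp| = |Wm| = 2 ^ u + 1` in a swap structure
-/

namespace Cfsg.Agent.H60.Ht

open Cfsg.Agent.H20.Ht

universe u v

theorem swap3 : StmtSwap3.{u, v} := by
  intro q _ V _ _ _ G _ _ ρ hG Wp Wm hS hA
  classical
  obtain ⟨hcompl, hp0, hm0, hdich, -⟩ := hS
  have hdisj : ∀ v : V, v ∈ Wp → v ∈ Wm → v = 0 := by
    intro v h1 h2
    have h3 : v ∈ Wp ⊓ Wm := ⟨h1, h2⟩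
    rw [hcompl.inf_eq_bot] at h3
    simpa using h3
  obtain ⟨vp, hvp, hvp0⟩ := (Submodule.ne_bot_iff Wp).mp hp0
  obtain ⟨vm, hvm, hvm0⟩ := (Submodule.ne_bot_iff Wm).mp hm0
  have hne : ∀ (g : G) (x : V), x ≠ 0 → ρ g x ≠ 0 := by
    intro g x hx h
    exact hx ((ρ g).map_eq_zero_iff.mp h)
  have hswap : ∀ g : G, ∀ x ∈ Wp, x ≠ 0 → ρ g x ∈ Wm →
      (∀ w ∈ Wp, ρ g w ∈ Wm) ∧ (∀ w ∈ Wm, ρ g w ∈ Wp) := by
    intro g x hx hx0 hgx
    rcases hdich g with h | h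
    · exfalso
      exact hne g x hx0 (hdisj _ (h.1 x hx) hgx)
    · exact h
  obtain ⟨g0, hg0p, hg0m⟩ := hA vp hvp hvp0 vm hvm hvm0
  have hsw0 := hswap g0 vp hvp hvp0 (hg0p ▸ hvm)
  have hcard : Nat.card Wp = Nat.card Wm := by
    apply le_antisymm
    · refine Nat.card_le_card_of_injective
        (fun w : Wp => (⟨ρ g0 w.1, hsw0.1 w.1 w.2⟩ : Wm)) ?_
      intro a b hab
      have h1 := congrArg Subtype.val hab
      exact Subtype.ext ((ρ g0).injective h1)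
    · refine Nat.card_le_card_of_injective
        (fun w : Wm => (⟨ρ g0 w.1, hsw0.2 w.1 w.2⟩ : Wp)) ?_
      intro a b hab
      have h1 := congrArg Subtype.val hab
      exact Subtype.ext ((ρ g0).injective h1)
  refine ⟨hcard, ?_⟩
  letI : MulAction G V := MulAction.compHom V ρ
  have hsmul : ∀ (g : G) (v : V), g • v = ρ g v := fun g v => rfl
  have horb : MulAction.orbit G vp = ((Wp : Set V) \ {0}) ∪ ((Wm : Set V) \ {0}) := by
    ext v
    constructor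
    · rintro ⟨g, rfl⟩
      simp only [hsmul]
      rcases hdich g with h | h
      · left
        exact ⟨h.1 vp hvp, hne g vp hvp0⟩
      · right
        exact ⟨h.1 vp hvp, hne g vp hvp0⟩
    · rintro (⟨hv, hv0⟩ | ⟨hv, hv0⟩)
      · obtain ⟨g2, hg2p, hg2m⟩ := hA v hv hv0 vm hvm hvm0
        refine ⟨g2 * g0, ?_⟩
        show ρ (g2 * g0) vp = v
        rw [map_mul, LinearEquiv.mul_apply, hg0p, hg2m]
      · obtain ⟨g2, hg2p, hg2m⟩ := hA vp hvp hvp0 v hv hv0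
        exact ⟨g2, hg2p⟩
  have hdvd : (MulAction.orbit G vp).ncard ∣ Nat.card G := by
    rw [← MulAction.index_stabilizer]
    exact Subgroup.index_dvd_card _
  have hcp : ((Wp : Set V) \ {0}).ncard = Nat.card Wp - 1 := by
    rw [Set.ncard_sdiff_singleton_of_mem Wp.zero_mem]
    congr 1
  have hcm : ((Wm : Set V) \ {0}).ncard = Nat.card Wm - 1 := by
    rw [Set.ncard_sdiff_singleton_of_mem Wm.zero_mem]
    congr 1
  have hn : (MulAction.orbit G vp).ncard = (Nat.card Wp - 1) + (Nat.card Wm - 1) := by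
    rw [horb, Set.ncard_union_eq ?_ (Set.toFinite _) (Set.toFinite _), hcp, hcm]
    rw [Set.disjoint_left]
    rintro x ⟨hx, hx0⟩ ⟨hx', -⟩
    exact hx0 (hdisj x hx hx')
  obtain ⟨n, hn'⟩ := IsPGroup.iff_card.mp hG
  rw [hn, hn', ← hcard] at hdvd
  obtain ⟨j, -, hj'⟩ := (Nat.dvd_prime_pow Nat.prime_two).mp hdvd
  have h2 : 2 ≤ Nat.card Wp := by
    haveI : Nontrivial Wp :=
      ⟨⟨⟨vp, hvp⟩, 0, fun h => hvp0 (congrArg Subtype.val h)⟩⟩
    exact Finite.one_lt_card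
  cases j with
  | zero =>
    rw [pow_zero] at hj'
    omega
  | succ i =>
    refine ⟨i, ?_⟩
    rw [pow_succ] at hj'
    omega

end Cfsg.Agent.H60.Ht
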