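import Mathlib
import Cfsg.Agent.H45.MDefs
import Cfsg.Agent.H45.MSeed

/-!
# helper60: piece M-UNIP of S2415 -- a subgroup containing a Levi element and a seed unipotent
element contains the whole upper unipotent radical

`unipC K` = the `γ`-parameters of the upper unipotent elements of `K` (an additive subgroup, stable
under the Levi elements of `K`); `unipZ K` = the `S`-parameters of the central unipotent elements
of `K`; commutators give all alternating `S`.
-/

set_option autoImplicit false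
set_option linter.unusedSectionVars false
set_option linter.unusedVariables false

namespace Cfsg.Agent.H60.M

open Matrix Cfsg.Agent.H49 Cfsg.Agent.H45.M

variable {F : Type*} [Field F] {k : ℕ}

theorem tri_congr {x x' y y' : Fin k → F} {z z' : Fin 2 → F} (hx : x = x') (hy : y = y')
    (hz : z = z') : tri x y z = tri x' y' z' := by
  subst hx hy hz
  rfl

theorem isU_congr {a b : F} {g : OM k F a b} {γ γ' : Matrix (Fin 2) (Fin k) F}
    {S S' : Matrix (Fin k) (Fin k) F} (h : IsU g γ S) (e1 : γ = γ') (e2 : S = S') :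
    IsU g γ' S' := by
  subst e1 e2
  exact h

theorem isU_one (a b : F) : IsU (1 : OM k F a b) 0 0 := by
  intro x y z
  rw [act_one]
  exact tri_congr (by simp) rfl (by simp)

/-- Product formula for upper unipotent elements. -/
theorem isU_mul {a b : F} {h h' : OM k F a b} {γ γ' : Matrix (Fin 2) (Fin k) F}
    {S S' : Matrix (Fin k) (Fin k) F} (hh : IsU h γ S) (hh' : IsU h' γ' S') :
    IsU (h * h') (γ + γ') (S + S' - γᵀ * gam a b * γ') := by
  intro x y z
  rw [act_mul, hh', hh]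
  refine tri_congr ?_ rfl ?_
  · simp only [Matrix.mulVec_add, Matrix.mulVec_mulVec, Matrix.sub_mulVec, Matrix.add_mulVec,
      Matrix.transpose_add, Matrix.add_mul]
    abel
  · simp only [Matrix.add_mulVec]
    abel

/-- Two upper unipotent elements with the same `γ` differ by a central one. -/
theorem isU_inv_mul {a b : F} {h₁ h₂ : OM k F a b} {δ : Matrix (Fin 2) (Fin k) F}
    {T₁ T₂ : Matrix (Fin k) (Fin k) F} (h1 : IsU h₁ δ T₁) (h2 : IsU h₂ δ T₂) :
    IsU (h₂⁻¹ * h₁) 0 (T₁ - T₂) := by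
  intro x y z
  rw [act_mul, h1]
  apply act_inv_eq
  rw [h2]
  refine tri_congr ?_ rfl ?_
  · simp only [Matrix.transpose_zero, Matrix.zero_mul, Matrix.zero_mulVec, sub_zero, add_zero,
      Matrix.sub_mulVec]
    abel
  · simp only [Matrix.zero_mulVec, add_zero]

/-- The `γ`-parameters of the upper unipotent elements of `K`. -/
def unipC {a b : F} (K : Subgroup (OM k F a b)) : AddSubgroup (Matrix (Fin 2) (Fin k) F) where
  carrier := {γ | ∃ h ∈ K, ∃ S, IsU h γ S}
  zero_mem' := ⟨1, K.one_mem, 0, isU_one a b⟩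
  add_mem' := by
    rintro γ γ' ⟨h, hK, S, hS⟩ ⟨h', hK', S', hS'⟩
    exact ⟨h * h', K.mul_mem hK hK', _, isU_mul hS hS'⟩
  neg_mem' := by
    rintro γ ⟨h, hK, S, hS⟩
    obtain ⟨S', hS'⟩ := isU_of_isP (isP_congr
      (isP_inv (isP_of_isU hS) (mul_one 1) (mul_one 1) (mul_one 1)) rfl rfl rfl
      (show -(1 * γ * 1) = -γ by rw [Matrix.one_mul, Matrix.mul_one]))
    exact ⟨h⁻¹, K.inv_mem hK, S', hS'⟩

theorem unipC_stable {a b : F} (K : Subgroup (OM k F a b)) (g : OM k F a b)
    (A A' : Matrix (Fin k) (Fin k) F) (ρ : Matrix (Fin 2) (Fin 2) F) (hg : IsLevi g A A' ρ)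
    (hgK : g ∈ K) : ∀ γ ∈ unipC K, ρ * γ * Aᵀ ∈ unipC K := by
  rintro γ ⟨h, hK, S, hS⟩
  have a1 : Aᵀ * A' = 1 := levi_transpose_mul hg
  obtain ⟨a2, a3⟩ := transpose_inv_of a1
  obtain ⟨ρ', hρ'⟩ := levi_exists_inv hg
  have ps := isP_mul (isP_mul (isP_of_isLevi hg) (isP_of_isU hS)) (isP_levi_inv hg hρ')
  obtain ⟨S', hS'⟩ := isU_of_isP (isP_congr ps (by rw [Matrix.mul_one, a3])
    (by rw [Matrix.mul_one, a2]) (by rw [Matrix.mul_one, hρ'])
    (show (0 * 1 + ρ * γ) * Aᵀ + ρ * 1 * 0 = ρ * γ * Aᵀ by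
      rw [Matrix.zero_mul, zero_add, Matrix.mul_zero, add_zero]))
  exact ⟨g * h * g⁻¹, K.mul_mem (K.mul_mem hgK hK) (K.inv_mem hgK), S', hS'⟩

/-- The `S`-parameters of the central unipotent elements of `K`. -/
def unipZ {a b : F} (K : Subgroup (OM k F a b)) : AddSubmonoid (Matrix (Fin k) (Fin k) F) where
  carrier := {S | ∃ h ∈ K, IsU h 0 S}
  zero_mem' := ⟨1, K.one_mem, isU_one a b⟩
  add_mem' := by
    rintro S S' ⟨h, hK, hS⟩ ⟨h', hK', hS'⟩
    exact ⟨h * h', K.mul_mem hK hK', isU_congr (isU_mul hS hS') (add_zero 0)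
      (by rw [Matrix.mul_zero, sub_zero])⟩

theorem comm_mem_unipZ {a b : F} (K : Subgroup (OM k F a b)) (hC : unipC K = ⊤)
    (γ γ' : Matrix (Fin 2) (Fin k) F) :
    γ'ᵀ * gam a b * γ - γᵀ * gam a b * γ' ∈ unipZ K := by
  obtain ⟨h, hK, S, hS⟩ : γ ∈ unipC K := by rw [hC]; trivial
  obtain ⟨h', hK', S', hS'⟩ : γ' ∈ unipC K := by rw [hC]; trivial
  have h1 := isU_mul hS hS'
  have h2 := isU_congr (isU_mul hS' hS) (add_comm γ' γ) rfl
  have h3 := isU_inv_mul h1 h2
  exact ⟨_, K.mul_mem (K.inv_mem (K.mul_mem hK' hK)) (K.mul_mem hK hK'),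
    isU_congr h3 rfl (by abel)⟩

theorem vmv_gam (G : Matrix (Fin 2) (Fin 2) F) (d d' : Fin 2 → F) (w w' : Fin k → F) :
    (vecMulVec d' w')ᵀ * G * vecMulVec d w = (d' ⬝ᵥ G *ᵥ d) • vecMulVec w' w := by
  ext i j
  simp only [Matrix.mul_apply, Matrix.transpose_apply, Matrix.vecMulVec_apply, Fin.sum_univ_two,
    Matrix.smul_apply, dotProduct, Matrix.mulVec, smul_eq_mul]
  ring

theorem elem_mem_unipZ {a b : F} (K : Subgroup (OM k F a b)) (hC : unipC K = ⊤)
    (d d' : Fin 2 → F) (β : F) (hβ : β ≠ 0) (h1 : d' ⬝ᵥ gam a b *ᵥ d = β)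
    (h2 : d ⬝ᵥ gam a b *ᵥ d' = β) (w w' : Fin k → F) :
    vecMulVec w' w - vecMulVec w w' ∈ unipZ K := by
  have h := comm_mem_unipZ K hC (vecMulVec d w) (vecMulVec d' (β⁻¹ • w'))
  rw [vmv_gam, vmv_gam, h1, h2] at h
  have e : β • vecMulVec (β⁻¹ • w') w - β • vecMulVec w (β⁻¹ • w')
      = vecMulVec w' w - vecMulVec w w' := by
    ext i j
    simp only [Matrix.sub_apply, Matrix.smul_apply, Matrix.vecMulVec_apply, Pi.smul_apply,
      smul_eq_mul]
    field_simp
  rw [e] at h
  exact h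

theorem alt_mem_unipZ {a b : F} (K : Subgroup (OM k F a b))
    (helem : ∀ w w' : Fin k → F, vecMulVec w' w - vecMulVec w w' ∈ unipZ K)
    (S : Matrix (Fin k) (Fin k) F) (hS : ∀ y : Fin k → F, y ⬝ᵥ S *ᵥ y = 0) : S ∈ unipZ K := by
  have hdiag : ∀ p, S p p = 0 := by
    intro p
    have h := hS (Pi.single p 1)
    rw [Matrix.mulVec_single_one, single_one_dotProduct, Matrix.col_apply] at h
    exact h
  have hanti : ∀ p q, S p q + S q p = 0 := by
    intro p q
    have h := hS (Pi.single p 1 + Pi.single q 1)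
    rw [Matrix.mulVec_add, Matrix.mulVec_single_one, Matrix.mulVec_single_one, add_dotProduct,
      dotProduct_add, dotProduct_add, single_one_dotProduct, single_one_dotProduct,
      single_one_dotProduct, single_one_dotProduct, Matrix.col_apply, Matrix.col_apply,
      Matrix.col_apply, Matrix.col_apply, hdiag, hdiag] at h
    linear_combination h
  have hsum : S = ∑ i : Fin k, (vecMulVec (Pi.single i 1) (fun j => if i < j then S i j else 0)
      - vecMulVec (fun j => if i < j then S i j else 0) (Pi.single i 1)) := by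
    ext p q
    rw [Matrix.sum_apply]
    simp only [Matrix.sub_apply, Matrix.vecMulVec_apply, Finset.sum_sub_distrib]
    have s1 : ∑ i : Fin k, ((Pi.single i (1 : F) : Fin k → F) p) * (if i < q then S i q else 0)
        = if p < q then S p q else 0 := by
      rw [Finset.sum_eq_single p]
      · rw [Pi.single_eq_same, one_mul]
      · intro i _ hi
        rw [Pi.single_eq_of_ne (Ne.symm hi), zero_mul]
      · intro h
        exact absurd (Finset.mem_univ p) h
    have s2 : ∑ i : Fin k, (if i < p then S i p else 0) * ((Pi.single i (1 : F) : Fin k → F) q)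
        = if q < p then S q p else 0 := by
      rw [Finset.sum_eq_single q]
      · rw [Pi.single_eq_same, mul_one]
      · intro i _ hi
        rw [Pi.single_eq_of_ne (Ne.symm hi), mul_zero]
      · intro h
        exact absurd (Finset.mem_univ q) h
    rw [s1, s2]
    rcases lt_trichotomy p q with h | h | h
    · rw [if_pos h, if_neg (not_lt_of_gt h), sub_zero]
    · subst h
      rw [if_neg (lt_irrefl p), sub_zero, hdiag]
    · rw [if_neg (not_lt_of_gt h), if_pos h, zero_sub]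
      linear_combination hanti p q
  rw [hsum]
  exact sum_mem (fun i _ => helem _ _)

/-- piece M-UNIP of S2415. -/
theorem qin_of_seed (a b : F) (hd : a ^ 2 - 4 * b ≠ 0) (K : Subgroup (OM k F a b))
    (g s : OM k F a b) (A A' : Matrix (Fin k) (Fin k) F) (ρ : Matrix (Fin 2) (Fin 2) F)
    (hg : IsLevi g A A' ρ) (hgK : g ∈ K)
    (γ₁ : Matrix (Fin 2) (Fin k) F) (S₁ : Matrix (Fin k) (Fin k) F) (hs : IsU s γ₁ S₁)
    (hsK : s ∈ K)
    (hcyc : ∀ C : AddSubgroup (Matrix (Fin 2) (Fin k) F),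
      (∀ γ ∈ C, ρ * γ * Aᵀ ∈ C) → γ₁ ∈ C → C = ⊤) :
    Qin K := by
  have hC : unipC K = ⊤ :=
    hcyc (unipC K) (unipC_stable K g A A' ρ hg hgK) ⟨s, hsK, S₁, hs⟩
  have helem : ∀ w w' : Fin k → F, vecMulVec w' w - vecMulVec w w' ∈ unipZ K := by
    by_cases h2 : (2 : F) = 0
    · have ha : a ≠ 0 := by
        intro ha
        apply hd
        have h4 : (4 : F) = 0 := by
          have h22 : (4 : F) = 2 * 2 := by norm_num
          rw [h22, h2, zero_mul]
        rw [ha, h4]
        ring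
      exact elem_mem_unipZ K hC ![1, 0] ![0, 1] a ha
        (by simp [gam, dotProduct, Matrix.mulVec, Fin.sum_univ_two])
        (by simp [gam, dotProduct, Matrix.mulVec, Fin.sum_univ_two])
    · exact elem_mem_unipZ K hC ![1, 0] ![1, 0] 2 h2
        (by simp [gam, dotProduct, Matrix.mulVec, Fin.sum_univ_two])
        (by simp [gam, dotProduct, Matrix.mulVec, Fin.sum_univ_two])
  intro h γ S hU
  obtain ⟨h₀, hK₀, S₀, hS₀⟩ : γ ∈ unipC K := by rw [hC]; trivial
  have hdU : IsU (h₀⁻¹ * h) 0 (S - S₀) := isU_inv_mul hU hS₀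
  have halt : ∀ y : Fin k → F, y ⬝ᵥ (S - S₀) *ᵥ y = 0 := by
    intro y
    have hq := Q_act (QMin k F a b) (h₀⁻¹ * h) (tri 0 y 0)
    rw [hdU, QMin_tri, QMin_tri] at hq
    have e : (0 : Fin k → F) + (S - S₀) *ᵥ y
        - ((0 : Matrix (Fin 2) (Fin k) F)ᵀ * gam a b) *ᵥ (0 : Fin 2 → F) = (S - S₀) *ᵥ y := by
      simp
    have e' : (0 : Fin 2 → F) + (0 : Matrix (Fin 2) (Fin k) F) *ᵥ y = 0 := by simp
    rw [e, e'] at hq
    simp only [map_zero, add_zero, zero_dotProduct] at hq
    rw [dotProduct_comm]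
    exact hq
  obtain ⟨h'', hK'', hS''⟩ := alt_mem_unipZ K helem (S - S₀) halt
  have heq : h₀⁻¹ * h = h'' := isometry_ext (fun v => by
    obtain ⟨x, y, z, rfl⟩ := tri_eta v
    exact (hdU x y z).trans (hS'' x y z).symm)
  have hh : h = h₀ * h'' := by rw [← heq]; group
  rw [hh]
  exact K.mul_mem hK₀ hK''

end Cfsg.Agent.H60.M
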