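import Mathlib

/-!
# S0460-C (team piece for helper94): transfer of a faithful transitive permutation representation
to a subgroup of `Perm (Fin n)`
-/

set_option autoImplicit false

namespace Cfsg.Agent.H60.ONan

theorem transfer {G : Type*} [Group G] [Finite G] {n : ℕ} (ρ : G →* Equiv.Perm (Fin n))
    (hinj : Function.Injective ρ) (x0 : Fin n) (htr : ∀ ω : Fin n, ∃ g : G, ρ g x0 = ω)
    (cG cS : ℕ) (hsG : IsSimpleGroup G) (hcG : Nat.card G = cG) (hmul : cS * n = cG) :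
    ∃ H : Subgroup (Equiv.Perm (Fin n)), (IsSimpleGroup H ∧ Nat.card H = cG) ∧
      MulAction.IsPretransitive H (Fin n) ∧ Nat.card (MulAction.stabilizer H x0) = cS ∧
      ∀ (K : Subgroup G) (c : ℕ), IsSimpleGroup K → Nat.card K = c →
        ∃ K' : Subgroup H, IsSimpleGroup K' ∧ Nat.card K' = c := by
  classical
  let e : G ≃* ρ.range := MonoidHom.ofInjective hinj
  have hsimple : IsSimpleGroup ρ.range := e.isSimpleGroup_congr.mp hsG
  have hcard : Nat.card ρ.range = cG := by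
    rw [← hcG]; exact Nat.card_congr e.toEquiv.symm
  have htrans : MulAction.IsPretransitive ρ.range (Fin n) := by
    refine ⟨fun x y => ?_⟩
    obtain ⟨g₁, hg₁⟩ := htr x
    obtain ⟨g₂, hg₂⟩ := htr y
    refine ⟨⟨ρ g₂ * (ρ g₁)⁻¹, ρ.range.mul_mem ⟨g₂, rfl⟩ (ρ.range.inv_mem ⟨g₁, rfl⟩)⟩, ?_⟩
    show (ρ g₂ * (ρ g₁)⁻¹) x = y
    rw [Equiv.Perm.mul_apply, ← hg₁]
    have h1 : (ρ g₁)⁻¹ ((ρ g₁) x0) = x0 := by simp
    rw [h1, hg₂]
  refine ⟨ρ.range, ⟨hsimple, hcard⟩, htrans, ?_, ?_⟩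
  · have hidx : (MulAction.stabilizer ρ.range x0).index = n := by
      rw [MulAction.index_stabilizer_of_transitive, Nat.card_eq_fintype_card, Fintype.card_fin]
    have h1 := Subgroup.card_mul_index (MulAction.stabilizer ρ.range x0)
    rw [hidx, hcard, ← hmul] at h1
    exact Nat.eq_of_mul_eq_mul_right x0.pos h1
  · intro K c hK hc
    let f : K ≃* K.map (e : G →* ρ.range) := e.subgroupMap K
    refine ⟨K.map (e : G →* ρ.range), f.isSimpleGroup_congr.mp hK, ?_⟩
    rw [← hc]; exact Nat.card_congr f.toEquiv.symm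

end Cfsg.Agent.H60.ONan
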