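import Mathlib
import Cfsg.Agent.H56.OrdDefs
import Cfsg.Agent.S0243

set_option autoImplicit false

/-!
# S2363-PSL (helper60, for helper56): the order bounds for `PSLₙ(F)`, `n ≥ 3`
-/

namespace Cfsg.Agent.H60.Ord

open Cfsg Cfsg.Agent.H56.Ord

/-- `∏_{i<k+1} (q^(k+1) - q^i) = q^(∑ i) * ((∏_{j<k} (q^(j+2) - 1)) * (q - 1))`. -/
theorem prod_pow_sub_pow (q k : ℕ) :
    ∏ i : Fin (k + 1), (q ^ (k + 1) - q ^ (i : ℕ)) =
      q ^ (∑ i ∈ Finset.range (k + 1), i) *
        ((∏ j ∈ Finset.range k, (q ^ (j + 2) - 1)) * (q - 1)) := by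
  rw [Fin.prod_univ_eq_prod_range (fun i => q ^ (k + 1) - q ^ i) (k + 1)]
  have h1 : ∀ i ∈ Finset.range (k + 1),
      q ^ (k + 1) - q ^ i = q ^ i * (q ^ (k + 1 - i) - 1) := by
    intro i hi
    rw [Finset.mem_range] at hi
    rw [Nat.mul_sub, mul_one, ← pow_add]
    congr 2
    omega
  rw [Finset.prod_congr rfl h1, Finset.prod_mul_distrib, Finset.prod_pow_eq_pow_sum]
  congr 1
  have h2 : ∏ i ∈ Finset.range (k + 1), (q ^ (k + 1 - i) - 1) =
      ∏ j ∈ Finset.range (k + 1), (q ^ (j + 1) - 1) := by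
    rw [← Finset.prod_range_reflect (fun j => q ^ (j + 1) - 1) (k + 1)]
    apply Finset.prod_congr rfl
    intro i hi
    rw [Finset.mem_range] at hi
    have : k + 1 - 1 - i + 1 = k + 1 - i := by omega
    simp only [this]
  rw [h2, Finset.prod_range_succ']
  simp only [zero_add, pow_one]

/-- `∏_{j<k+1} (q^(j+2) - 1) < q^(∑_{j<k+1} (j+2))`. -/
theorem prod_lt_pow (q : ℕ) (hq : 2 ≤ q) (k : ℕ) :
    ∏ j ∈ Finset.range (k + 1), (q ^ (j + 2) - 1) <
      q ^ (∑ j ∈ Finset.range (k + 1), (j + 2)) := by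
  induction k with
  | zero =>
    rw [Finset.prod_range_one, Finset.sum_range_one]
    have : 0 < q ^ (0 + 2) := by positivity
    omega
  | succ k ih =>
    rw [Finset.prod_range_succ, Finset.sum_range_succ,
      pow_add q (∑ j ∈ Finset.range (k + 1), (j + 2)) (k + 1 + 2)]
    apply Nat.mul_lt_mul_of_lt_of_le ih (Nat.sub_le _ _)
    positivity

/-- The exponent inequalities. -/
theorem sum_le_sum (k : ℕ) :
    ∑ j ∈ Finset.range (k + 2), (j + 2) ≤ 2 * ∑ i ∈ Finset.range (k + 3), i ∧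
      3 * ∑ j ∈ Finset.range (k + 2), (j + 2) ≤ 5 * ∑ i ∈ Finset.range (k + 3), i := by
  induction k with
  | zero => simp [Finset.sum_range_succ]
  | succ k ih =>
    have e1 : ∑ j ∈ Finset.range (k + 1 + 2), (j + 2) =
        ∑ j ∈ Finset.range (k + 2), (j + 2) + (k + 2 + 2) := Finset.sum_range_succ _ (k + 2)
    have e2 : ∑ i ∈ Finset.range (k + 1 + 3), i =
        ∑ i ∈ Finset.range (k + 3), i + (k + 3) := Finset.sum_range_succ _ (k + 3)
    rw [e1, e2]
    omega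

theorem psl : Cfsg.Agent.H56.Ord.PSLStmt := by
  unfold Cfsg.Agent.H56.Ord.PSLStmt
  intro p hp F _ _ _ n hn
  obtain ⟨f, hf, hq⟩ := card_eq_pow p F
  obtain ⟨k, rfl⟩ : ∃ k, n = k + 3 := ⟨n - 3, by omega⟩
  have h := Cfsg.Agent.S0243.result (F := F) (q := Fintype.card F) rfl (k + 3) (by omega)
  have h0 : ∏ i : Fin (k + 3), (Fintype.card F ^ (k + 3) - Fintype.card F ^ (i : ℕ)) = _ :=
    prod_pow_sub_pow (Fintype.card F) (k + 2)
  rw [h0] at h
  generalize Fintype.card F = q at h hq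
  have hq2 : 2 ≤ q := by
    rw [hq]
    calc 2 ≤ p := hp.two_le
      _ = p ^ 1 := (pow_one p).symm
      _ ≤ p ^ f := Nat.pow_le_pow_right hp.pos (Nat.one_le_iff_ne_zero.2 hf)
  have hq1 : 0 < q - 1 := by omega
  have h' : Nat.gcd (k + 3) (q - 1) *
        Nat.card (Matrix.ProjectiveSpecialLinearGroup (Fin (k + 3)) F) =
      q ^ (∑ i ∈ Finset.range (k + 3), i) * ∏ j ∈ Finset.range (k + 2), (q ^ (j + 2) - 1) := by
    apply Nat.eq_of_mul_eq_mul_right hq1
    calc Nat.gcd (k + 3) (q - 1) *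
          Nat.card (Matrix.ProjectiveSpecialLinearGroup (Fin (k + 3)) F) * (q - 1)
        = Nat.gcd (k + 3) (q - 1) *
          ((q - 1) * Nat.card (Matrix.ProjectiveSpecialLinearGroup (Fin (k + 3)) F)) := by ring
      _ = q ^ (∑ i ∈ Finset.range (k + 2 + 1), i) *
          ((∏ j ∈ Finset.range (k + 2), (q ^ (j + 2) - 1)) * (q - 1)) := h
      _ = q ^ (∑ i ∈ Finset.range (k + 3), i) * (∏ j ∈ Finset.range (k + 2), (q ^ (j + 2) - 1)) *
          (q - 1) := by ring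
  have hcop : Nat.Coprime q (q - 1) := by
    have := coprime_pow_sub_one (q := q) (by omega) (d := 1) one_ne_zero
    simpa using this
  have hlt := prod_lt_pow q hq2 (k + 1)
  obtain ⟨hs2, hs5⟩ := sum_le_sum k
  refine good_of_eq_q (X := Matrix.ProjectiveSpecialLinearGroup (Fin (k + 3)) F) hp hq hf h'
    (Nat.Coprime.coprime_dvd_right (Nat.gcd_dvd_right _ _) hcop) ?_ ?_ ?_
  · apply Nat.Coprime.prod_right
    intro j _
    exact coprime_pow_sub_one (by omega) (by omega)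
  · exact lt_of_lt_of_le hlt (Nat.pow_le_pow_right (by omega) hs2)
  · calc (∏ j ∈ Finset.range (k + 2), (q ^ (j + 2) - 1)) ^ 3
        < (q ^ (∑ j ∈ Finset.range (k + 2), (j + 2))) ^ 3 :=
          Nat.pow_lt_pow_left hlt (by norm_num)
      _ = q ^ (3 * ∑ j ∈ Finset.range (k + 2), (j + 2)) := by rw [← pow_mul, mul_comm]
      _ ≤ q ^ (5 * ∑ i ∈ Finset.range (k + 3), i) := Nat.pow_le_pow_right (by omega) hs5

end Cfsg.Agent.H60.Ord
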