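import Mathlib
import Cfsg.Agent.H56.OrdDefs
import Cfsg.Agent.S0243

set_option autoImplicit false

/-!
# S2363-PSL2 (helper60, for helper56): the order bound for `PSL₂(F)`
-/

namespace Cfsg.Agent.H60.Ord

open Cfsg Cfsg.Agent.H56.Ord

theorem psl2 : Cfsg.Agent.H56.Ord.PSL2Stmt := by
  unfold Cfsg.Agent.H56.Ord.PSL2Stmt
  intro p hp F _ _ _ h4
  obtain ⟨f, hf, hq⟩ := card_eq_pow p F
  have h := Cfsg.Agent.S0243.result (F := F) (q := Fintype.card F) rfl 2 le_rfl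
  rw [Fin.prod_univ_two] at h
  simp only [Fin.val_zero, Fin.val_one, pow_zero, pow_one] at h
  generalize Nat.card (Matrix.ProjectiveSpecialLinearGroup (Fin 2) F) = N at h ⊢
  generalize Fintype.card F = q at h hq h4 ⊢
  have hq1 : 0 < q - 1 := by omega
  have h' : Nat.gcd 2 (q - 1) * N = p ^ f * (q ^ 2 - 1) := by
    apply Nat.eq_of_mul_eq_mul_right hq1
    have e : q ^ 2 - q = q * (q - 1) := by
      rw [Nat.mul_sub, mul_one, sq]
    rw [← hq]
    calc Nat.gcd 2 (q - 1) * N * (q - 1) = Nat.gcd 2 (q - 1) * ((q - 1) * N) := by ring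
      _ = (q ^ 2 - 1) * (q ^ 2 - q) := h
      _ = q * (q ^ 2 - 1) * (q - 1) := by rw [e]; ring
  have hcop : Nat.Coprime q (q - 1) := by
    have := coprime_pow_sub_one (q := q) (by omega) (d := 1) one_ne_zero
    simpa using this
  have hpq : p ∣ q := hq ▸ dvd_pow_self p hf
  have hnd : ∀ {x : ℕ}, Nat.Coprime q x → ¬ p ∣ x := fun hx hpx =>
    hp.one_lt.ne' (Nat.eq_one_of_dvd_coprimes hx hpq hpx)
  have hc : ¬ p ∣ Nat.gcd 2 (q - 1) := fun hd => hnd hcop (hd.trans (Nat.gcd_dvd_right _ _))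
  have hM : ¬ p ∣ q ^ 2 - 1 := hnd (coprime_pow_sub_one (by omega) two_ne_zero)
  have hv := factorization_of_eq hp h' hc hM
  rw [hv]
  refine ⟨?_, hq⟩
  have hc0 : 0 < Nat.gcd 2 (q - 1) := Nat.gcd_pos_of_pos_left _ two_pos
  calc N ≤ Nat.gcd 2 (q - 1) * N := Nat.le_mul_of_pos_left _ hc0
    _ = p ^ f * (q ^ 2 - 1) := h'
    _ < p ^ f * q ^ 2 := by
        apply Nat.mul_lt_mul_of_pos_left _ (pow_pos hp.pos f)
        have : 0 < q ^ 2 := by positivity
        omega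
    _ = p ^ (3 * f) := by rw [hq, ← pow_mul, ← pow_add]; congr 1; ring

end Cfsg.Agent.H60.Ord
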