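import Mathlib
import Cfsg.Agent.H99.OrtDefs

set_option autoImplicit false

/-!
# S5981-ARITH (helper60, for helper99): `r * |GU_k(q^(c/2))|` does not divide `|GL_n(q)|`
-/

namespace Cfsg.Agent.H60.Ort

/-- `∏_{i<n} (q^n - q^i) = q^(∑ i) * ∏_{j<n} (q^(j+1) - 1)`. -/
theorem prod_pow_sub_pow (q n : ℕ) :
    ∏ i : Fin n, (q ^ n - q ^ (i : ℕ)) =
      q ^ (∑ i ∈ Finset.range n, i) * ∏ j ∈ Finset.range n, (q ^ (j + 1) - 1) := by
  rw [Fin.prod_univ_eq_prod_range (fun i => q ^ n - q ^ i) n]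
  have h1 : ∀ i ∈ Finset.range n, q ^ n - q ^ i = q ^ i * (q ^ (n - i) - 1) := by
    intro i hi
    rw [Finset.mem_range] at hi
    rw [Nat.mul_sub, mul_one, ← pow_add]
    congr 2
    omega
  rw [Finset.prod_congr rfl h1, Finset.prod_mul_distrib, Finset.prod_pow_eq_pow_sum]
  congr 1
  rw [← Finset.prod_range_reflect (fun j => q ^ (j + 1) - 1) n]
  apply Finset.prod_congr rfl
  intro i hi
  rw [Finset.mem_range] at hi
  have : n - 1 - i + 1 = n - i := by omega
  simp only [this]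

theorem dvdHalf : Cfsg.Agent.H99.Ort.StDvdHalf := by
  intro q r c hr hr2 hrq hc hce hc2
  haveI : Fact r.Prime := ⟨hr⟩
  obtain ⟨h, hh⟩ : ∃ h, c = 2 * h := by
    obtain ⟨h, hh⟩ := hce
    exact ⟨h, by omega⟩
  have hc2' : c / 2 = h := by omega
  rw [hc2']
  have hpow : ((q : ZMod r)) ^ c = 1 := by
    rw [hc]
    exact pow_orderOf_eq_one _
  have hsq : ((q : ZMod r) ^ h - 1) * ((q : ZMod r) ^ h + 1) = 0 := by
    have : ((q : ZMod r) ^ h) ^ 2 = 1 := by
      rw [← pow_mul, mul_comm, ← hh]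
      exact hpow
    linear_combination this
  rcases mul_eq_zero.1 hsq with h1 | h1
  · exfalso
    have h2 : (q : ZMod r) ^ h = 1 := sub_eq_zero.1 h1
    have h3 : orderOf (q : ZMod r) ∣ h := orderOf_dvd_of_pow_eq_one h2
    rw [← hc] at h3
    have h4 := Nat.le_of_dvd (by omega) h3
    omega
  · rw [← ZMod.natCast_eq_zero_iff]
    push_cast
    exact h1

theorem arith : Cfsg.Agent.H99.Ort.StArith := by
  intro q r c k m n hq hr hr2 hrq hc hce hc2 hk hm hn hdvd
  haveI : Fact r.Prime := ⟨hr⟩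
  obtain ⟨h, hh⟩ : ∃ h, c = 2 * h := by
    obtain ⟨h, hh⟩ := hce
    exact ⟨h, by omega⟩
  have hh1 : 1 ≤ h := by omega
  have hc2' : c / 2 = h := by omega
  have hhalf : r ∣ q ^ h + 1 := by
    have := dvdHalf q r c hr hr2 hrq hc hce hc2
    rwa [hc2'] at this
  rw [hc2'] at hdvd
  have hQ2 : 2 ≤ q ^ h := le_trans hq (Nat.le_self_pow (by omega) q)
  have hQcast : ((q ^ h : ℕ) : ZMod r) = -1 := by
    have h1 := (ZMod.natCast_eq_zero_iff (q ^ h + 1) r).2 hhalf
    rw [Nat.cast_add, Nat.cast_one] at h1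
    exact eq_neg_of_add_eq_zero_left h1
  generalize hQ₁ : q ^ h = Q₁ at hdvd hQ2 hQcast
  rw [prod_pow_sub_pow q n] at hdvd
  have hsplit := Finset.prod_filter_mul_prod_filter_not (Finset.range n) (fun j => c ∣ j + 1)
    (fun j => q ^ (j + 1) - 1)
  have hfirst : ∏ j ∈ (Finset.range n).filter (fun j => c ∣ j + 1), (q ^ (j + 1) - 1) =
      ∏ t ∈ Finset.range k, (Q₁ ^ (2 * (t + 1)) - 1) := by
    symm
    apply Finset.prod_bij (fun t _ => c * (t + 1) - 1)
    · intro t ht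
      rw [Finset.mem_range] at ht
      rw [Finset.mem_filter, Finset.mem_range]
      have h1 : c * (t + 1) ≤ c * k := Nat.mul_le_mul_left c ht
      have h2 : 1 ≤ c * (t + 1) := Nat.mul_pos (by omega) (by omega)
      refine ⟨?_, ?_⟩
      · have : c * k = k * c := mul_comm _ _
        omega
      · rw [Nat.sub_add_cancel h2]
        exact dvd_mul_right c _
    · intro a ha b hb hab
      have h1 : 1 ≤ c * (a + 1) := Nat.mul_pos (by omega) (by omega)
      have h2 : 1 ≤ c * (b + 1) := Nat.mul_pos (by omega) (by omega)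
      have h3 : c * (a + 1) = c * (b + 1) := by omega
      have := Nat.eq_of_mul_eq_mul_left (by omega : 0 < c) h3
      omega
    · intro j hj
      rw [Finset.mem_filter, Finset.mem_range] at hj
      obtain ⟨hjn, s, hs⟩ := hj
      have hs1 : 1 ≤ s := by
        rcases Nat.eq_zero_or_pos s with h0 | h0
        · rw [h0, mul_zero] at hs
          omega
        · exact h0
      have hsk : s ≤ k := by
        by_contra hcon
        push Not at hcon
        have h1 : c * (k + 1) ≤ c * s := Nat.mul_le_mul_left c hcon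
        have e : c * (k + 1) = k * c + c := by ring
        omega
      refine ⟨s - 1, Finset.mem_range.2 (by omega), ?_⟩
      have e : s - 1 + 1 = s := by omega
      rw [e, ← hs, Nat.add_sub_cancel]
    · intro t ht
      have h2 : 1 ≤ c * (t + 1) := Nat.mul_pos (by omega) (by omega)
      rw [Nat.sub_add_cancel h2, ← hQ₁, ← pow_mul, hh]
      congr 2
      ring
  have hW : ¬ r ∣ ∏ j ∈ (Finset.range n).filter (fun j => ¬ c ∣ j + 1), (q ^ (j + 1) - 1) := by
    rw [Prime.dvd_finsetProd_iff (Nat.prime_iff.1 hr)]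
    rintro ⟨j, hj, hdj⟩
    rw [Finset.mem_filter] at hj
    apply hj.2
    have h1 : 1 ≤ q ^ (j + 1) := Nat.one_le_pow _ _ (by omega)
    have h2 := (ZMod.natCast_eq_zero_iff (q ^ (j + 1) - 1) r).2 hdj
    rw [Nat.cast_sub h1, Nat.cast_pow, Nat.cast_one, sub_eq_zero] at h2
    rw [hc]
    exact orderOf_dvd_of_pow_eq_one h2
  have hfac : ∀ t, Q₁ ^ (2 * (t + 1)) - 1 =
      (if Even t then Q₁ ^ (t + 1) + 1 else Q₁ ^ (t + 1) - 1) *
        (if Even t then Q₁ ^ (t + 1) - 1 else Q₁ ^ (t + 1) + 1) := by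
    intro t
    obtain ⟨b, hb⟩ : ∃ b, Q₁ ^ (t + 1) = b + 1 :=
      ⟨Q₁ ^ (t + 1) - 1, by have := Nat.one_le_pow (t + 1) Q₁ (by omega); omega⟩
    have e : Q₁ ^ (2 * (t + 1)) = (b + 1 + 1) * b + 1 := by
      rw [mul_comm 2, pow_mul, hb]
      ring
    rw [e, hb, Nat.add_sub_cancel, Nat.add_sub_cancel]
    split_ifs <;> ring
  have hprod : ∏ t ∈ Finset.range k, (Q₁ ^ (2 * (t + 1)) - 1) =
      (∏ t ∈ Finset.range k, (if Even t then Q₁ ^ (t + 1) + 1 else Q₁ ^ (t + 1) - 1)) *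
        (∏ t ∈ Finset.range k, (if Even t then Q₁ ^ (t + 1) - 1 else Q₁ ^ (t + 1) + 1)) := by
    rw [← Finset.prod_mul_distrib]
    exact Finset.prod_congr rfl (fun t _ => hfac t)
  have hG' : ¬ r ∣ ∏ t ∈ Finset.range k,
      (if Even t then Q₁ ^ (t + 1) - 1 else Q₁ ^ (t + 1) + 1) := by
    rw [Prime.dvd_finsetProd_iff (Nat.prime_iff.1 hr)]
    rintro ⟨t, -, hdt⟩
    have h2 := (ZMod.natCast_eq_zero_iff _ r).2 hdt
    have h1 : 1 ≤ Q₁ ^ (t + 1) := Nat.one_le_pow _ _ (by omega)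
    have h2r : ((2 : ℕ) : ZMod r) = 0 := by
      by_cases hev : Even t
      · rw [if_pos hev, Nat.cast_sub h1, Nat.cast_pow, hQcast,
          Odd.neg_one_pow (Even.add_one hev), Nat.cast_one] at h2
        have h3 : (2 : ZMod r) = 0 := by linear_combination -h2
        exact_mod_cast h3
      · rw [if_neg hev, Nat.cast_add, Nat.cast_pow, hQcast,
          Even.neg_one_pow (Odd.add_one (Nat.not_even_iff_odd.1 hev)), Nat.cast_one] at h2
        have h3 : (2 : ZMod r) = 0 := by linear_combination h2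
        exact_mod_cast h3
    have h2d : r ∣ 2 := (ZMod.natCast_eq_zero_iff 2 r).1 h2r
    have h5 := Nat.le_of_dvd (by norm_num) h2d
    have h6 := hr.two_le
    omega
  have hGpos : 0 < ∏ t ∈ Finset.range k,
      (if Even t then Q₁ ^ (t + 1) + 1 else Q₁ ^ (t + 1) - 1) := by
    apply Finset.prod_pos
    intro t _
    have h1 : 2 ≤ Q₁ ^ (t + 1) := le_trans hQ2 (Nat.le_self_pow (by omega) Q₁)
    split_ifs <;> omega
  unfold Cfsg.Agent.H99.Ort.guOrder at hdvd
  rw [← hsplit, hfirst, hprod] at hdvd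
  generalize (∏ t ∈ Finset.range k, (if Even t then Q₁ ^ (t + 1) + 1 else Q₁ ^ (t + 1) - 1)) = Pg
    at hdvd hGpos
  generalize (∏ t ∈ Finset.range k, (if Even t then Q₁ ^ (t + 1) - 1 else Q₁ ^ (t + 1) + 1)) = Pg'
    at hdvd hG'
  generalize (∏ j ∈ (Finset.range n).filter (fun j => ¬ c ∣ j + 1), (q ^ (j + 1) - 1)) = W
    at hdvd hW
  have h3 : Pg * (r * Q₁ ^ (k * (k - 1) / 2)) ∣
      Pg * (q ^ (∑ i ∈ Finset.range n, i) * (Pg' * W)) := by
    convert hdvd using 1 <;> ring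
  have h4 := Nat.dvd_of_mul_dvd_mul_left hGpos h3
  have h5 : r ∣ q ^ (∑ i ∈ Finset.range n, i) * (Pg' * W) := dvd_of_mul_right_dvd h4
  rcases (Nat.Prime.dvd_mul hr).1 h5 with h6 | h6
  · exact hrq (hr.dvd_of_dvd_pow h6)
  · rcases (Nat.Prime.dvd_mul hr).1 h6 with h7 | h7
    · exact hG' h7
    · exact hW h7

end Cfsg.Agent.H60.Ort
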