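import Mathlib
import Cfsg.Agent.H14.OtDefs
import Cfsg.Agent.H60.OtCommon

/-!
# S5972 team project (helper14): piece OT-BUILD (helper60)

Invariant totally isotropic subspaces of dimension `i s + j` for an orthogonal isometry of odd
prime order.
-/

set_option autoImplicit false

namespace Cfsg.Agent.H60.Ot

open Cfsg.Agent.H45 Cfsg.Agent.H42.Spd Cfsg.Agent.H42.Ti Cfsg.Agent.H14.Ot Module Polynomial

universe u v

/-- OT-BUILD. -/
theorem oBuild (hT : StOTrick.{u, v}) (hS : StOSplit.{u, v}) (hW : StOWitt.{u, v})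
    (hB : Cfsg.Agent.H42.Ti.StTiBuild.{u, v}) : StOBuild.{u, v} := by
  intro F _ _ V _ _ _ r B T hO s j hj hodd heven
  obtain ⟨V', _, _, _, A, T', ι, hctx, hιinj, hιT, hrange, hker', hUK, hTI⟩ := hT F V r B T hO
  obtain ⟨hKU, hKUtop, -⟩ := hS F V r T hO.cast_ne hO.pow
  have hUK' : ∀ u ∈ LinearMap.range (T - 1), ∀ k ∈ LinearMap.ker (T - 1), B u k = 0 := by
    intro u hu k hk
    rw [← hrange] at hu
    obtain ⟨x, rfl⟩ := hu
    exact hUK x k hk
  have hKnd := ker_nondeg B T hO.symm hO.nondeg hKUtop hUK'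
  have hkk : kk T ⊤ = Module.finrank F ↥(LinearMap.ker (T - 1)) := by
    unfold kk
    rw [top_inf_eq]
  have hkk' : kk T' ⊤ = 0 := by
    unfold kk
    rw [top_inf_eq, hker', finrank_bot]
  have hdim : Module.finrank F V = kk T ⊤ + Module.finrank F V' := by
    have h3 : Module.finrank F ↥(LinearMap.range (T - 1)) = Module.finrank F V' := by
      rw [← hrange]
      exact LinearMap.finrank_range_of_inj hιinj
    have h4 := LinearMap.finrank_range_add_finrank_ker (T - 1)
    rw [hkk, ← h3, ← h4]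
    exact Nat.add_comm _ _
  obtain ⟨J, hJK, hJTI, hJdim⟩ := hW F V B hO.two_ne hO.symm (LinearMap.ker (T - 1)) j hKnd
    (by rw [← hkk]; exact hj)
  obtain ⟨U'', hU''inv, hU''TI, hU''dim⟩ := hB F V' r A T' hctx s 0 (by rw [hkk'])
    (fun ho => by
      have h1 := hodd ho
      rw [hdim] at h1
      rw [hkk', zero_add]
      exact Nat.le_of_add_le_add_left h1)
    (fun he => by
      rcases heven he with h | h
      · left
        exact h
      · right
        rw [hdim] at h
        rw [hkk', zero_add]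
        exact Nat.le_of_add_le_add_left h)
  have hTIB : TI B (U''.map ι) := (hTI U'' hU''inv).mp hU''TI
  have hmapr : U''.map ι ≤ LinearMap.range (T - 1) := by
    rw [← hrange]
    exact LinearMap.map_le_range
  have hfix : ∀ x ∈ J, T x = x := by
    intro x hx
    have h1 := hJK hx
    rw [LinearMap.mem_ker, LinearMap.sub_apply, Module.End.one_apply] at h1
    exact sub_eq_zero.mp h1
  refine ⟨J ⊔ U''.map ι, ?_, ?_, ?_⟩
  · rw [Module.End.mem_invtSubmodule]
    intro x hx
    obtain ⟨a, ha, b, hb, rfl⟩ := Submodule.mem_sup.mp hx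
    show T (a + b) ∈ J ⊔ U''.map ι
    rw [map_add]
    refine Submodule.add_mem _ (Submodule.mem_sup_left ?_) (Submodule.mem_sup_right ?_)
    · rw [hfix a ha]
      exact ha
    · obtain ⟨y, hy, rfl⟩ := hb
      rw [← hιT]
      exact Submodule.mem_map_of_mem (hU''inv hy)
  · intro a ha b hb
    obtain ⟨a1, ha1, a2, ha2, rfl⟩ := Submodule.mem_sup.mp ha
    obtain ⟨b1, hb1, b2, hb2, rfl⟩ := Submodule.mem_sup.mp hb
    have h11 : B a1 b1 = 0 := hJTI a1 ha1 b1 hb1
    have h22 : B a2 b2 = 0 := hTIB a2 ha2 b2 hb2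
    have h21 : B a2 b1 = 0 := hUK' a2 (hmapr ha2) b1 (hJK hb1)
    have h12 : B a1 b2 = 0 := by
      rw [hO.symm]
      exact hUK' b2 (hmapr hb2) a1 (hJK ha1)
    simp only [map_add, LinearMap.add_apply, h11, h12, h21, h22, add_zero]
  · have hdisj : J ⊓ U''.map ι = ⊥ := by
      rw [eq_bot_iff, ← hKU]
      exact inf_le_inf hJK hmapr
    have h1 := Submodule.finrank_sup_add_finrank_inf_eq J (U''.map ι)
    rw [hdisj, finrank_bot, add_zero] at h1
    have h2 : Module.finrank F ↥(U''.map ι) = Module.finrank F ↥U'' :=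
      (LinearEquiv.finrank_eq (Submodule.equivMapOfInjective ι hιinj U'')).symm
    rw [h1, hJdim, h2, hU''dim]
    omega

example : Cfsg.Agent.H14.Ot.StOTrick.{u, v} → Cfsg.Agent.H14.Ot.StOSplit.{u, v} →
    Cfsg.Agent.H14.Ot.StOWitt.{u, v} → Cfsg.Agent.H42.Ti.StTiBuild.{u, v} →
    Cfsg.Agent.H14.Ot.StOBuild.{u, v} := oBuild

end Cfsg.Agent.H60.Ot
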