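import Mathlib
import Cfsg.Agent.H14.OtDefs
import Cfsg.Agent.H60.OtCommon

/-!
# S5972 team project (helper14): piece OT-UPPER (helper60)

The dimension of an invariant totally isotropic subspace of an orthogonal isometry of odd prime
order.
-/

set_option autoImplicit false

namespace Cfsg.Agent.H60.Ot

open Cfsg.Agent.H45 Cfsg.Agent.H42.Spd Cfsg.Agent.H42.Ti Cfsg.Agent.H14.Ot Module Polynomial

universe u v

/-- OT-UPPER. -/
theorem oUpper (hT : StOTrick.{u, v}) (hS : StOSplit.{u, v}) (hH : StOHalf.{u, v})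
    (hU : Cfsg.Agent.H42.Ti.StTiUpper.{u, v}) (hUE : Cfsg.Agent.H42.Ti.StTiUpperEven.{u, v}) :
    StOUpper.{u, v} := by
  intro F _ _ V _ _ _ r B T hO W hWinv hWTI
  obtain ⟨V', _, _, _, A, T', ι, hctx, hιinj, hιT, hrange, hker', hUK, hTI⟩ := hT F V r B T hO
  obtain ⟨hKU, hKUtop, hsplit⟩ := hS F V r T hO.cast_ne hO.pow
  have hUK' : ∀ u ∈ LinearMap.range (T - 1), ∀ k ∈ LinearMap.ker (T - 1), B u k = 0 := by
    intro u hu k hk
    rw [← hrange] at hu
    obtain ⟨x, rfl⟩ := hu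
    exact hUK x k hk
  have hKnd := ker_nondeg B T hO.symm hO.nondeg hKUtop hUK'
  have hkk : kk T ⊤ = Module.finrank F ↥(LinearMap.ker (T - 1)) := by
    unfold kk
    rw [top_inf_eq]
  have hkk' : kk T' ⊤ = 0 := by
    unfold kk
    rw [top_inf_eq, hker', finrank_bot]
  obtain ⟨W', hW'def⟩ : ∃ W' : Submodule F V', W' = (W ⊓ LinearMap.range (T - 1)).comap ι :=
    ⟨_, rfl⟩
  have hW'mem : ∀ x, x ∈ W' ↔ ι x ∈ W ⊓ LinearMap.range (T - 1) := by
    intro x
    rw [hW'def]
    rfl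
  have hW'map : W'.map ι = W ⊓ LinearMap.range (T - 1) := by
    rw [hW'def, Submodule.map_comap_eq, hrange]
    exact inf_eq_right.mpr inf_le_right
  have hW'inv : W' ∈ T'.invtSubmodule := by
    rw [Module.End.mem_invtSubmodule]
    intro x hx
    have hx' : ι x ∈ W ⊓ LinearMap.range (T - 1) := (hW'mem x).mp hx
    show T' x ∈ W'
    rw [hW'mem]
    refine ⟨?_, ?_⟩
    · rw [hιT]
      exact hWinv hx'.1
    · rw [← hrange]
      exact LinearMap.mem_range_self ι (T' x)
  have hW'TI : TI A W' := by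
    rw [hTI W' hW'inv, hW'map]
    intro a ha b hb
    exact hWTI a ha.1 b hb.1
  have hW'dim : Module.finrank F W' = Module.finrank F ↥(W ⊓ LinearMap.range (T - 1)) := by
    rw [← hW'map]
    exact LinearEquiv.finrank_eq (Submodule.equivMapOfInjective ι hιinj W')
  have hWdim : Module.finrank F W = Module.finrank F ↥(W ⊓ LinearMap.ker (T - 1)) +
      Module.finrank F ↥(W ⊓ LinearMap.range (T - 1)) := by
    have hdisj : (W ⊓ LinearMap.ker (T - 1)) ⊓ (W ⊓ LinearMap.range (T - 1)) = ⊥ := by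
      rw [eq_bot_iff, ← hKU]
      exact inf_le_inf inf_le_right inf_le_right
    have h1 := Submodule.finrank_sup_add_finrank_inf_eq (W ⊓ LinearMap.ker (T - 1))
      (W ⊓ LinearMap.range (T - 1))
    rw [hdisj, finrank_bot, add_zero, hsplit W hWinv] at h1
    exact h1
  have hhalf : 2 * Module.finrank F ↥(W ⊓ LinearMap.ker (T - 1)) ≤ kk T ⊤ := by
    rw [hkk]
    exact hH F V B hO.symm (LinearMap.ker (T - 1)) (W ⊓ LinearMap.ker (T - 1)) hKnd inf_le_right
      (fun a ha b hb => hWTI a ha.1 b hb.1)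
  obtain ⟨s, w', hs, hw'⟩ := hU F V' r A T' hctx W' hW'inv hW'TI
  have hw'0 : w' = 0 := by
    rw [hkk'] at hw'
    omega
  subst hw'0
  refine ⟨s, Module.finrank F ↥(W ⊓ LinearMap.ker (T - 1)), ?_, hhalf, ?_⟩
  · rw [hWdim, ← hW'dim, hs]
    omega
  · intro heven Φs hΦs
    obtain ⟨s2, w2, hs2, hw2, hle⟩ := hUE F V' r A T' hctx heven Φs hΦs W' hW'inv hW'TI
    have hw20 : w2 = 0 := by
      rw [hkk'] at hw2
      omega
    subst hw20
    have hipos : 0 < ii F r := ot_ii_pos r hO.prime hO.cast_ne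
    have hss : s2 = s := by
      rw [hs2, add_zero, add_zero] at hs
      exact Nat.eq_of_mul_eq_mul_left hipos hs
    rw [← hss]
    refine hle.trans (Finset.sum_le_sum ?_)
    intro φ _
    apply Nat.div_le_div_right
    have hmap : (LinearMap.ker (aeval T' φ)).map ι ≤ LinearMap.ker (aeval T φ) := by
      rintro _ ⟨x, hx, rfl⟩
      rw [LinearMap.mem_ker, ← aeval_intertwine T T' ι hιT φ x, LinearMap.mem_ker.mp hx, map_zero]
    calc Module.finrank F ↥(LinearMap.ker (aeval T' φ))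
        = Module.finrank F ↥((LinearMap.ker (aeval T' φ)).map ι) :=
          LinearEquiv.finrank_eq (Submodule.equivMapOfInjective ι hιinj _)
      _ ≤ _ := Submodule.finrank_mono hmap

example : Cfsg.Agent.H14.Ot.StOTrick.{u, v} → Cfsg.Agent.H14.Ot.StOSplit.{u, v} →
    Cfsg.Agent.H14.Ot.StOHalf.{u, v} → Cfsg.Agent.H42.Ti.StTiUpper.{u, v} →
    Cfsg.Agent.H42.Ti.StTiUpperEven.{u, v} → Cfsg.Agent.H14.Ot.StOUpper.{u, v} := oUpper

end Cfsg.Agent.H60.Ot
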