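import Mathlib
import Cfsg.Agent.H26.P2Defs
import Cfsg.Agent.H7.SL2

/-!
# P2-PQ (helper60, for helper26's S4705)

The norm equation `MomC` together with `G / Z(G) ≃ SL₂(F)`, `char F = 2`, gives `p = |F| + 1`.
-/

set_option autoImplicit false

universe u

namespace Cfsg.Agent.H60.P2

open Cfsg Cfsg.Agent.H26.P2

/-- The number of involutions is an isomorphism invariant. -/
theorem card_involutions_congr {A : Type*} {B : Type*} [Group A] [Group B] (e : A ≃* B) :
    Nat.card {t : A // orderOf t = 2} = Nat.card {t : B // orderOf t = 2} := by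
  apply Nat.card_congr
  exact e.toEquiv.subtypeEquiv (fun a => by
    show orderOf a = 2 ↔ orderOf (e a) = 2
    rw [MulEquiv.orderOf_eq])

/-- **P2-PQ**. -/
theorem pq (hI : StSLInv) : StPQ.{u} := by
  intro G _ _ p _ hp5 hmom F _ _ hch e
  unfold MomC at hmom
  rw [card_involutions_congr e, hI F hch] at hmom
  have hG : Nat.card G = Nat.card (Subgroup.center G) * Nat.card (G ⧸ Subgroup.center G) := by
    rw [mul_comm]; exact Subgroup.card_eq_card_quotient_mul_card_subgroup _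
  have hQ : Nat.card (G ⧸ Subgroup.center G) = Fintype.card F * (Fintype.card F ^ 2 - 1) := by
    rw [Nat.card_congr e.toEquiv]; exact Cfsg.Agent.H7.card_SL2
  rw [hG, hQ] at hmom
  have hz0 : 0 < Nat.card (Subgroup.center G) := Nat.card_pos
  have hq1 : 1 < Fintype.card F := Fintype.one_lt_card
  generalize Fintype.card F = q at hmom hq1 ⊢
  generalize Nat.card (Subgroup.center G) = z at hmom hz0
  have h1 : 2 * (q * (q ^ 2 - 1)) = p * ((p - 2) ^ 2 + (q ^ 2 - 1)) := by
    apply Nat.eq_of_mul_eq_mul_left hz0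
    rw [show z * (2 * (q * (q ^ 2 - 1))) = 2 * (z * (q * (q ^ 2 - 1))) by ring, hmom]
    ring
  have h2le : 2 ≤ p := by omega
  have h1le : 1 ≤ q ^ 2 := Nat.one_le_pow _ _ (by omega)
  zify [h2le, h1le] at h1
  have h3 : ((p : ℤ) - q - 1) * ((p : ℤ) ^ 2 + ((q : ℤ) - 3) * p + 2 * q * (q - 1)) = 0 := by
    linear_combination (-1 : ℤ) * h1
  have hp6 : (6 : ℤ) ≤ p := by exact_mod_cast hp5
  have hq2 : (2 : ℤ) ≤ q := by exact_mod_cast hq1
  have h4 : (0 : ℤ) < (p : ℤ) ^ 2 + ((q : ℤ) - 3) * p + 2 * q * (q - 1) := by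
    have e1 : (0 : ℤ) < (p : ℤ) * ((p : ℤ) - 3) := mul_pos (by linarith) (by linarith)
    have e2 : (0 : ℤ) < (q : ℤ) * p := mul_pos (by linarith) (by linarith)
    have e3 : (0 : ℤ) < (q : ℤ) * ((q : ℤ) - 1) := mul_pos (by linarith) (by linarith)
    nlinarith [e1, e2, e3]
  rcases mul_eq_zero.mp h3 with h | h
  · omega
  · omega

end Cfsg.Agent.H60.P2

example (hI : Cfsg.Agent.H26.P2.StSLInv) : Cfsg.Agent.H26.P2.StPQ.{u} :=
  Cfsg.Agent.H60.P2.pq hI

#print axioms Cfsg.Agent.H60.P2.pq
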