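import Mathlib
import Cfsg.Agent.H26.P2Defs

/-!
# P2-QEXP (helper60, for helper26's S4705)

Centralisers of involutions of `G / Z(G)` have exponent 2 (stated in `G`).
-/

set_option autoImplicit false

universe u

namespace Cfsg.Agent.H60.P2

open Cfsg Cfsg.Agent.H26.P2

/-- `2`-part / odd part decomposition with integer exponents. -/
theorem two_odd_decomp_int {G : Type u} [Group G] [Finite G] (g : G) :
    ∃ (a b : ℤ) (i : ℕ), g = g ^ a * g ^ b ∧ (g ^ a) ^ (2 ^ i) = 1 ∧ Odd (orderOf (g ^ b)) := by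
  have hn : orderOf g ≠ 0 := (orderOf_pos g).ne'
  obtain ⟨i, m, hm, hnm⟩ := Nat.exists_eq_two_pow_mul_odd hn
  have hcop : Nat.Coprime (2 ^ i) m := Nat.Coprime.pow_left _ (Nat.coprime_two_left.mpr hm)
  have hb := Nat.gcd_eq_gcd_ab (2 ^ i) m
  rw [hcop] at hb
  refine ⟨m * Nat.gcdB (2 ^ i) m, ((2 ^ i : ℕ) : ℤ) * Nat.gcdA (2 ^ i) m, i, ?_, ?_, ?_⟩
  · rw [← zpow_add]
    have : (m : ℤ) * Nat.gcdB (2 ^ i) m + ((2 ^ i : ℕ) : ℤ) * Nat.gcdA (2 ^ i) m = 1 := by
      rw [add_comm]; exact_mod_cast hb.symm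
    rw [this, zpow_one]
  · rw [← zpow_natCast, ← zpow_mul]
    have : (m : ℤ) * Nat.gcdB (2 ^ i) m * ((2 ^ i : ℕ) : ℤ)
        = ((orderOf g : ℕ) : ℤ) * Nat.gcdB (2 ^ i) m := by
      rw [hnm]; push_cast; ring
    rw [this, zpow_mul, zpow_natCast, pow_orderOf_eq_one, one_zpow]
  · have hdvd : orderOf (g ^ (((2 ^ i : ℕ) : ℤ) * Nat.gcdA (2 ^ i) m)) ∣ m := by
      apply orderOf_dvd_of_pow_eq_one
      rw [← zpow_natCast, ← zpow_mul]
      have : ((2 ^ i : ℕ) : ℤ) * Nat.gcdA (2 ^ i) m * (m : ℤ)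
          = ((orderOf g : ℕ) : ℤ) * Nat.gcdA (2 ^ i) m := by
        rw [hnm]; push_cast; ring
      rw [this, zpow_mul, zpow_natCast, pow_orderOf_eq_one, one_zpow]
    exact Odd.of_dvd_nat hm hdvd

/-- `2`-part / odd part decomposition with natural exponents. -/
theorem two_odd_decomp {G : Type u} [Group G] [Finite G] (g : G) :
    ∃ (a b : ℕ) (i : ℕ), g = g ^ a * g ^ b ∧ (g ^ a) ^ (2 ^ i) = 1 ∧ Odd (orderOf (g ^ b)) := by
  obtain ⟨a, b, i, h1, h2, h3⟩ := two_odd_decomp_int g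
  have hpos : (0 : ℤ) < (orderOf g : ℤ) := by exact_mod_cast orderOf_pos g
  have key : ∀ n : ℤ, g ^ (n % (orderOf g : ℤ)).toNat = g ^ n := by
    intro n
    rw [← zpow_natCast, Int.toNat_of_nonneg (Int.emod_nonneg _ hpos.ne'), zpow_mod_orderOf]
  refine ⟨(a % (orderOf g : ℤ)).toNat, (b % (orderOf g : ℤ)).toNat, i, ?_, ?_, ?_⟩
  · rw [key, key]; exact h1
  · rw [key]; exact h2
  · rw [key]; exact h3

/-- If `g t g⁻¹ = c t` with `c` central then `g tⁿ g⁻¹ = cⁿ tⁿ`. -/
theorem rel_pow_right {G : Type u} [Group G] {g t c : G} (hc : c ∈ Subgroup.center G)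
    (h : g * t = c * t * g) (n : ℕ) : g * t ^ n = c ^ n * t ^ n * g := by
  induction n with
  | zero => simp
  | succ n ih =>
    have hcn : ∀ x : G, x * c = c * x := fun x => Subgroup.mem_center_iff.mp hc x
    calc g * t ^ (n + 1) = (g * t ^ n) * t := by rw [pow_succ, mul_assoc]
      _ = c ^ n * t ^ n * (g * t) := by rw [ih]; simp only [mul_assoc]
      _ = c ^ n * t ^ n * (c * t * g) := by rw [h]
      _ = c ^ n * (t ^ n * c) * t * g := by simp only [mul_assoc]
      _ = c ^ n * (c * t ^ n) * t * g := by rw [hcn]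
      _ = c ^ (n + 1) * t ^ (n + 1) * g := by rw [pow_succ, pow_succ]; simp only [mul_assoc]

/-- If `g t g⁻¹ = c t` with `c` central then `gⁿ t g⁻ⁿ = cⁿ t`. -/
theorem rel_pow_left {G : Type u} [Group G] {g t c : G} (hc : c ∈ Subgroup.center G)
    (h : g * t = c * t * g) (n : ℕ) : g ^ n * t = c ^ n * t * g ^ n := by
  induction n with
  | zero => simp
  | succ n ih =>
    have hcn : ∀ x : G, x * c = c * x := fun x => Subgroup.mem_center_iff.mp hc x
    calc g ^ (n + 1) * t = g ^ n * (g * t) := by rw [pow_succ, mul_assoc]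
      _ = g ^ n * (c * t * g) := by rw [h]
      _ = (g ^ n * c) * t * g := by simp only [mul_assoc]
      _ = c * (g ^ n * t) * g := by rw [hcn]; simp only [mul_assoc]
      _ = c * (c ^ n * t * g ^ n) * g := by rw [ih]
      _ = c ^ (n + 1) * t * g ^ (n + 1) := by
        rw [pow_succ, pow_succ, (Commute.pow_self c n).eq]; simp only [mul_assoc]

/-- An element commuting with an element of order `p` is central, if it is a `2`-element
(under the hypotheses `cardP`, `cen`, `5 < p`). -/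
theorem central_of_comm_order_p {G : Type u} [Group G] [Finite G] (p : ℕ) [Fact p.Prime]
    (P : Sylow p G) (hp5 : 5 < p) (cardP : Nat.card (P : Subgroup G) = p)
    (cen : ∀ c ∈ Subgroup.centralizer ((P : Subgroup G) : Set G), ¬ p ∣ orderOf c →
      c ∈ Subgroup.center G)
    (x t : G) (i : ℕ) (hx : orderOf x = p) (ht : t ^ (2 ^ i) = 1) (hxt : x * t = t * x) :
    t ∈ Subgroup.center G := by
  have hp : p.Prime := Fact.out
  have hpg : IsPGroup p (Subgroup.zpowers x) := by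
    apply IsPGroup.of_card (n := 1)
    rw [Nat.card_zpowers, hx, pow_one]
  obtain ⟨Q, hQ⟩ := hpg.exists_le_sylow
  obtain ⟨h, hh⟩ := MulAction.exists_smul_eq G Q P
  have hyP : h * x * h⁻¹ ∈ (P : Subgroup G) := by
    rw [← hh, Sylow.coe_subgroup_smul, Subgroup.mem_pointwise_smul_iff_inv_smul_mem]
    have : (MulAut.conj h)⁻¹ • (h * x * h⁻¹) = x := by
      simp [MulAut.smul_def, mul_assoc]
    rw [this]
    exact hQ (Subgroup.mem_zpowers x)
  have hyo : orderOf (h * x * h⁻¹) = p := by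
    rw [← hx]; exact (MulAut.conj h).orderOf_eq x
  have hPeq : Subgroup.zpowers (h * x * h⁻¹) = (P : Subgroup G) := by
    apply Subgroup.eq_of_le_of_card_ge
    · rw [Subgroup.zpowers_le]; exact hyP
    · rw [Nat.card_zpowers, hyo, cardP]
  have hcomm : Commute (h * x * h⁻¹) (h * t * h⁻¹) := by
    show h * x * h⁻¹ * (h * t * h⁻¹) = h * t * h⁻¹ * (h * x * h⁻¹)
    have e1 : h * x * h⁻¹ * (h * t * h⁻¹) = h * (x * t) * h⁻¹ := by simp [mul_assoc]
    have e2 : h * t * h⁻¹ * (h * x * h⁻¹) = h * (t * x) * h⁻¹ := by simp [mul_assoc]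
    rw [e1, e2, hxt]
  have hcz : h * t * h⁻¹ ∈ Subgroup.centralizer ((P : Subgroup G) : Set G) := by
    rw [Subgroup.mem_centralizer_iff]
    intro z hz
    have hz' : z ∈ Subgroup.zpowers (h * x * h⁻¹) := by rw [hPeq]; exact hz
    obtain ⟨k, rfl⟩ := Subgroup.mem_zpowers_iff.mp hz'
    exact (hcomm.zpow_left k).eq
  have hnp : ¬ p ∣ orderOf (h * t * h⁻¹) := by
    intro hdv
    have h1 : (h * t * h⁻¹) ^ (2 ^ i) = 1 := by
      rw [conj_pow, ht]; simp
    have h2 : p ∣ 2 ^ i := hdv.trans (orderOf_dvd_of_pow_eq_one h1)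
    have h3 : p ∣ 2 := hp.dvd_of_dvd_pow h2
    have h4 : p ≤ 2 := Nat.le_of_dvd (by norm_num) h3
    omega
  have hcen := cen _ hcz hnp
  have hfin := (inferInstance : (Subgroup.center G).Normal).conj_mem _ hcen h⁻¹
  have e : h⁻¹ * (h * t * h⁻¹) * h⁻¹⁻¹ = t := by simp [mul_assoc]
  rw [e] at hfin
  exact hfin

/-- **P2-QEXP**. -/
theorem qExp : StQExp.{u} := by
  intro G _ _ p _ P χ μ s hH hTwoB hMix t g ht hts hc
  have hp : p.Prime := Fact.out
  -- the relation `g t = c t g`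
  have hrel : g * t = (g * t * g⁻¹ * t⁻¹) * t * g := by simp [mul_assoc]
  -- the `2`-part of `t`
  obtain ⟨a, b, i, htab, hta, htb⟩ := two_odd_decomp t
  have htbZ : t ^ b ∈ Subgroup.center G := by
    obtain ⟨k, hk⟩ := htb
    have h2 : (t ^ b) ^ 2 ∈ Subgroup.center G := by
      have : (t ^ b) ^ 2 = (t * t) ^ b := by
        rw [← pow_mul, ← pow_two, ← pow_mul, mul_comm]
      rw [this]; exact Subgroup.pow_mem _ hts b
    have : t ^ b = ((t ^ b) ^ 2) ^ (k + 1) := by
      rw [← pow_mul, show 2 * (k + 1) = orderOf (t ^ b) + 1 by omega, pow_succ,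
        pow_orderOf_eq_one, one_mul]
    rw [this]; exact Subgroup.pow_mem _ h2 _
  have htaZ : t ^ a ∉ Subgroup.center G := by
    intro h; apply ht; rw [htab]; exact Subgroup.mul_mem _ h htbZ
  have hrel2 := rel_pow_right hc hrel a
  have hca : (g * t * g⁻¹ * t⁻¹) ^ a ∈ Subgroup.center G := Subgroup.pow_mem _ hc a
  -- the decomposition of `g`
  obtain ⟨a', b', j, hgab, hga, hgb⟩ := two_odd_decomp g
  have hrel3 := rel_pow_left hca hrel2 b'
  have hcb : ((g * t * g⁻¹ * t⁻¹) ^ a) ^ b' ∈ Subgroup.center G := Subgroup.pow_mem _ hca b'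
  generalize ((g * t * g⁻¹ * t⁻¹) ^ a) ^ b' = c' at hrel3 hcb
  generalize hT : t ^ a = T at hta htaZ hrel3
  generalize hg' : g ^ b' = g' at hgb hrel3 hgab
  generalize hg2 : g ^ a' = g2 at hga hgab
  have hcn : ∀ x : G, x * c' = c' * x := fun x => Subgroup.mem_center_iff.mp hcb x
  have hTT : T * T ∈ Subgroup.center G := hTwoB T i hta
  -- `c'^2 = 1`
  have hc2 : c' ^ 2 = 1 := by
    have h1 : g' * (T * T) = c' ^ 2 * (T * T) * g' := by
      calc g' * (T * T) = (g' * T) * T := by rw [mul_assoc]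
        _ = (c' * T * g') * T := by rw [hrel3]
        _ = c' * T * (g' * T) := by simp only [mul_assoc]
        _ = c' * T * (c' * T * g') := by rw [hrel3]
        _ = c' * (T * c') * T * g' := by simp only [mul_assoc]
        _ = c' ^ 2 * (T * T) * g' := by rw [hcn, pow_two]; simp only [mul_assoc]
    have h2 : g' * (T * T) = (T * T) * g' := Subgroup.mem_center_iff.mp hTT g'
    rw [h2] at h1
    have h3 : c' ^ 2 * (T * T * g') = 1 * (T * T * g') := by
      rw [one_mul, ← mul_assoc]; exact h1.symm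
    exact mul_right_cancel h3
  -- `c'^m = 1`
  have hcm : c' ^ orderOf g' = 1 := by
    have h1 := rel_pow_left hcb hrel3 (orderOf g')
    rw [pow_orderOf_eq_one, one_mul, mul_one] at h1
    have h3 : c' ^ orderOf g' * T = 1 * T := by rw [one_mul]; exact h1.symm
    exact mul_right_cancel h3
  have hc1 : c' = 1 := by
    have h1 : orderOf c' ∣ 2 := orderOf_dvd_of_pow_eq_one hc2
    have h2 : orderOf c' ∣ orderOf g' := orderOf_dvd_of_pow_eq_one hcm
    have h3 : orderOf c' ∣ Nat.gcd 2 (orderOf g') := Nat.dvd_gcd h1 h2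
    rw [Nat.coprime_two_left.mpr hgb] at h3
    exact orderOf_eq_one_iff.mp (Nat.dvd_one.mp h3)
  rw [hc1, one_mul] at hrel3
  -- `g'` is `p`-regular
  have hreg : ¬ p ∣ orderOf g' := by
    intro hdv
    have hx : orderOf (g' ^ (orderOf g' / p)) = p :=
      orderOf_pow_orderOf_div (orderOf_pos g').ne' hdv
    have hxt : g' ^ (orderOf g' / p) * T = T * g' ^ (orderOf g' / p) :=
      ((show Commute g' T from hrel3).pow_left _).eq
    exact htaZ (central_of_comm_order_p p P hH.hp5 hH.cardP hH.cen _ T i hx hta hxt)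
  have hg'Z : g' ∈ Subgroup.center G := hMix T g' i hta htaZ hgb hreg hrel3.symm
  have hg2Z : g2 * g2 ∈ Subgroup.center G := hTwoB g2 j hga
  have hfin : g * g = (g2 * g2) * (g' * g') := by
    rw [hgab]
    have := Subgroup.mem_center_iff.mp hg'Z g2
    calc g2 * g' * (g2 * g') = g2 * (g' * g2) * g' := by simp only [mul_assoc]
      _ = g2 * (g2 * g') * g' := by rw [← this]
      _ = g2 * g2 * (g' * g') := by simp only [mul_assoc]
  rw [hfin]
  exact Subgroup.mul_mem _ hg2Z (Subgroup.mul_mem _ hg'Z hg'Z)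

end Cfsg.Agent.H60.P2

example : Cfsg.Agent.H26.P2.StQExp.{u} := Cfsg.Agent.H60.P2.qExp

#print axioms Cfsg.Agent.H60.P2.qExp
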