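import Mathlib
import Cfsg.Agent.H26.P2Defs

/-!
# P2-QNC (helper60, for helper26's S4705)

The Sylow `2`-subgroups of `G / Z(G)` are not cyclic.
-/

set_option autoImplicit false

universe u

namespace Cfsg.Agent.H60.P2

open Cfsg Cfsg.Agent.H26.P2

/-- A cyclic group of exponent dividing `2` has at most `2` elements. -/
theorem card_le_two_of_cyclic {C : Type*} [Group C] [Finite C] [IsCyclic C]
    (h : ∀ c : C, c ^ 2 = 1) : Nat.card C ≤ 2 := by
  classical
  haveI := Fintype.ofFinite C
  have h1 := IsCyclic.card_pow_eq_one_le (α := C) (n := 2) (by norm_num)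
  have h2 : (Finset.univ.filter (fun a : C => a ^ 2 = 1)) = Finset.univ := by
    ext a; simp [h a]
  rw [h2, Finset.card_univ] at h1
  rw [Nat.card_eq_fintype_card]; exact h1

/-- The class of an involution `t` consists of involutions and has `|Q| / |C(t)|` elements. -/
theorem card_le_centralizer_mul_involutions {Q : Type*} [Group Q] [Finite Q] (t : Q)
    (ht : orderOf t = 2) :
    Nat.card Q ≤ Nat.card (Subgroup.centralizer ({t} : Set Q)) *
      Nat.card {y : Q // orderOf y = 2} := by
  have h1 := Subgroup.card_mul_index (MulAction.stabilizer (ConjAct Q) t)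
  rw [MulAction.index_stabilizer, ← Subgroup.nat_card_centralizer_nat_card_stabilizer] at h1
  have h2 : Nat.card (ConjAct Q) = Nat.card Q := rfl
  have h3 : (MulAction.orbit (ConjAct Q) t).ncard ≤ Nat.card {y : Q // orderOf y = 2} := by
    have : Nat.card {y : Q // orderOf y = 2} = ({y : Q | orderOf y = 2} : Set Q).ncard :=
      Nat.card_coe_set_eq _
    rw [this]
    apply Set.ncard_le_ncard _ (Set.toFinite _)
    rintro y ⟨g, rfl⟩
    show orderOf (g • t) = 2
    rw [ConjAct.smul_def, ← ht]
    exact (MulAut.conj (ConjAct.ofConjAct g)).orderOf_eq t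
  rw [← h2, ← h1]
  exact Nat.mul_le_mul_left _ h3

/-- **P2-QNC**. -/
theorem qNC : StQNC.{u} := by
  intro G _ _ p _ P χ μ s hH hTwoB hQExp hmom hcyc
  have hp : p.Prime := Fact.out
  have hp5 := hH.hp5
  unfold MomC at hmom
  have hG : Nat.card G = Nat.card (Subgroup.center G) * Nat.card (G ⧸ Subgroup.center G) := by
    rw [mul_comm]; exact Subgroup.card_eq_card_quotient_mul_card_subgroup _
  rw [hG] at hmom
  have hz0 : 0 < Nat.card (Subgroup.center G) := Nat.card_pos
  have hN0 : 0 < Nat.card (G ⧸ Subgroup.center G) := Nat.card_pos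
  have h1 : 2 * Nat.card (G ⧸ Subgroup.center G) =
      p * ((p - 2) ^ 2 + Nat.card {t : G ⧸ Subgroup.center G // orderOf t = 2}) := by
    apply Nat.eq_of_mul_eq_mul_left hz0
    rw [show ∀ a b : ℕ, a * (2 * b) = 2 * (a * b) from fun a b => by ring, hmom]; ring
  -- there is an involution
  have hI : Nat.card {t : G ⧸ Subgroup.center G // orderOf t = 2} ≠ 0 := by
    intro h0
    rw [h0, add_zero] at h1
    have hodd : Odd p := hp.odd_of_ne_two (by omega)
    have hodd2 : Odd (p - 2) := by
      obtain ⟨k, hk⟩ := hodd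
      exact ⟨k - 1, by omega⟩
    have hodd3 : Odd (p * (p - 2) ^ 2) := hodd.mul hodd2.pow
    rw [← h1] at hodd3
    exact (Nat.not_odd_iff_even.mpr (even_two_mul _)) hodd3
  obtain ⟨⟨tb, htb⟩⟩ : Nonempty {t : G ⧸ Subgroup.center G // orderOf t = 2} := by
    by_contra hne
    rw [not_nonempty_iff] at hne
    exact hI Nat.card_of_isEmpty
  -- the centraliser of `tb` has exponent 2
  have hexp : ∀ c ∈ Subgroup.centralizer ({tb} : Set (G ⧸ Subgroup.center G)), c * c = 1 := by
    intro c hc
    obtain ⟨g, rfl⟩ := QuotientGroup.mk_surjective c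
    obtain ⟨t, rfl⟩ := QuotientGroup.mk_surjective tb
    have ht : t ∉ Subgroup.center G := by
      intro h
      have : ((t : G) : G ⧸ Subgroup.center G) = 1 := (QuotientGroup.eq_one_iff t).mpr h
      rw [this, orderOf_one] at htb; omega
    have hts : t * t ∈ Subgroup.center G := by
      rw [← QuotientGroup.eq_one_iff, QuotientGroup.mk_mul, ← pow_two, ← htb, pow_orderOf_eq_one]
    have hcomm : g * t * g⁻¹ * t⁻¹ ∈ Subgroup.center G := by
      rw [← QuotientGroup.eq_one_iff]
      have h := Subgroup.mem_centralizer_iff.mp hc _ (Set.mem_singleton _)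
      simp only [QuotientGroup.mk_mul, QuotientGroup.mk_inv]
      rw [← h]; simp
    have h := hQExp t g ht hts hcomm
    rw [← QuotientGroup.mk_mul]; exact (QuotientGroup.eq_one_iff _).mpr h
  -- `|C(tb)| ≤ 2`
  have hC2 : Nat.card (Subgroup.centralizer ({tb} : Set (G ⧸ Subgroup.center G))) ≤ 2 := by
    have hpg : IsPGroup 2 (Subgroup.centralizer ({tb} : Set (G ⧸ Subgroup.center G))) := by
      intro c
      refine ⟨1, ?_⟩
      rw [pow_one, pow_two]
      exact Subtype.ext (hexp c.1 c.2)
    obtain ⟨T, hT⟩ := hpg.exists_le_sylow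
    haveI := hcyc T
    haveI := Subgroup.isCyclic_of_le hT
    apply card_le_two_of_cyclic
    intro c
    rw [pow_two]; exact Subtype.ext (hexp c.1 c.2)
  have h2 := card_le_centralizer_mul_involutions tb htb
  have h3 : Nat.card (G ⧸ Subgroup.center G) ≤
      2 * Nat.card {t : G ⧸ Subgroup.center G // orderOf t = 2} :=
    h2.trans (Nat.mul_le_mul_right _ hC2)
  generalize Nat.card {t : G ⧸ Subgroup.center G // orderOf t = 2} = I at h1 h3 hI
  generalize Nat.card (G ⧸ Subgroup.center G) = N at h1 h3 hN0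
  have h4 : p * I ≤ 2 * N := by rw [h1]; exact Nat.mul_le_mul_left _ (Nat.le_add_left _ _)
  have h5 : 6 * N ≤ p * N := Nat.mul_le_mul_right _ (by omega)
  have h6 : p * N ≤ p * (2 * I) := Nat.mul_le_mul_left _ h3
  have h7 : p * (2 * I) = 2 * (p * I) := by ring
  omega

end Cfsg.Agent.H60.P2

example : Cfsg.Agent.H26.P2.StQNC.{u} := Cfsg.Agent.H60.P2.qNC

#print axioms Cfsg.Agent.H60.P2.qNC
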