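import Mathlib
import Cfsg.Agent.H74.W2PDefs
import Cfsg.Agent.H25.W2PT1ODD

set_option autoImplicit false

/-!
# S4707-W1 (team piece for helper74): a generator of the Sylow `p`-subgroup satisfying `Hyp`
-/

namespace Cfsg.Agent.H60.PD

open Equiv MulAction Cfsg.Agent.H74.W2P

open scoped Pointwise

variable {Ω : Type*} [Fintype Ω] [DecidableEq Ω]

/-- `Hyp` is invariant under conjugation by elements of `G`. -/
theorem hyp_conj {G : Subgroup (Perm Ω)} {p : ℕ} {x : Perm Ω} (h : Hyp G p x) (g : Perm Ω)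
    (hg : g ∈ G) : Hyp G p (g * x * g⁻¹) where
  hp := h.hp
  hp2 := h.hp2
  hcard := h.hcard
  hprim := h.hprim
  hxG := G.mul_mem (G.mul_mem hg h.hxG) (G.inv_mem hg)
  hxord := by
    have e : g * x * g⁻¹ = MulAut.conj g x := by simp [MulAut.conj_apply]
    rw [e]
    have := orderOf_injective (MulAut.conj g).toMonoidHom (MulAut.conj g).injective x
    rw [← h.hxord]
    exact this
  hxfix := by
    intro ω hω
    apply h.hxfix (g⁻¹ ω)
    have h1 : g (x (g⁻¹ ω)) = ω := by simpa [Perm.mul_apply] using hω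
    have h2 : g⁻¹ (g (x (g⁻¹ ω))) = g⁻¹ ω := by rw [h1]
    simpa using h2
  hsyl := h.hsyl
  hnot2 := h.hnot2

theorem exists_hyp {G : Subgroup (Perm Ω)} {p : ℕ} [Fact p.Prime] (hp2 : p ≠ 2)
    (hcard : Fintype.card Ω = 2 * p) (hprim : IsPreprimitive G Ω)
    (hnot2 : ¬ IsMultiplyPretransitive G Ω 2) (P : Sylow p G) (hP : Nat.card P = p) :
    ∃ (x : Perm Ω) (hx : x ∈ G), Hyp G p x ∧
      (P : Subgroup G) = Subgroup.zpowers (⟨x, hx⟩ : G) := by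
  have hp : p.Prime := Fact.out
  obtain ⟨x₀, h0⟩ := Cfsg.Agent.H25.W2P.reduce_odd hp hp2 hcard hprim hnot2
  have hy₀ord : orderOf (⟨x₀, h0.hxG⟩ : G) = p := by
    rw [← Subgroup.orderOf_coe]; exact h0.hxord
  have hpg : IsPGroup p (Subgroup.zpowers (⟨x₀, h0.hxG⟩ : G)) := by
    apply IsPGroup.of_card (n := 1)
    rw [Nat.card_zpowers, hy₀ord, pow_one]
  obtain ⟨Q, hQ⟩ := hpg.exists_le_sylow
  obtain ⟨g, hg⟩ := MulAction.exists_smul_eq G Q P
  have h1 : (⟨x₀, h0.hxG⟩ : G) ∈ (Q : Subgroup G) := hQ (Subgroup.mem_zpowers _)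
  have h2 : MulAut.conj g • (⟨x₀, h0.hxG⟩ : G) ∈ MulAut.conj g • (Q : Subgroup G) :=
    Subgroup.smul_mem_pointwise_smul _ _ _ h1
  have h3 : ((g • Q : Sylow p G) : Subgroup G) = (P : Subgroup G) := by rw [hg]
  rw [Sylow.smul_def, Sylow.pointwise_smul_def] at h3
  rw [h3] at h2
  have hxG : (g : Perm Ω) * x₀ * (g : Perm Ω)⁻¹ ∈ G :=
    G.mul_mem (G.mul_mem g.2 h0.hxG) (G.inv_mem g.2)
  have e : MulAut.conj g • (⟨x₀, h0.hxG⟩ : G)
      = (⟨(g : Perm Ω) * x₀ * (g : Perm Ω)⁻¹, hxG⟩ : G) := by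
    apply Subtype.ext
    simp [MulAut.smul_def, MulAut.conj_apply]
  rw [e] at h2
  have hH : Hyp G p ((g : Perm Ω) * x₀ * (g : Perm Ω)⁻¹) := hyp_conj h0 g g.2
  refine ⟨(g : Perm Ω) * x₀ * (g : Perm Ω)⁻¹, hxG, hH, ?_⟩
  have hle : Subgroup.zpowers (⟨(g : Perm Ω) * x₀ * (g : Perm Ω)⁻¹, hxG⟩ : G)
      ≤ (P : Subgroup G) := by
    rw [Subgroup.zpowers_le]; exact h2
  have hord : orderOf (⟨(g : Perm Ω) * x₀ * (g : Perm Ω)⁻¹, hxG⟩ : G) = p := by
    rw [← Subgroup.orderOf_coe]; exact hH.hxord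
  exact (Subgroup.eq_of_le_of_card_ge hle (by rw [Nat.card_zpowers, hord, hP])).symm

end Cfsg.Agent.H60.PD
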