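import Mathlib
import Cfsg.Agent.H74.W2PDefs

set_option autoImplicit false

/-!
# S4707-W10 (team piece for helper74): `p = 5`

A transitive group of degree `2p` and order `p (p - 1) (p - 2)` with Wielandt's rank 3
conclusion has `p = 5`.
-/

namespace Cfsg.Agent.H60.PD

open Equiv MulAction Cfsg.Agent.H74.W2P

variable {Ω : Type*} [Fintype Ω] [DecidableEq Ω]

/-- arithmetic core: `(2c+3) ∣ (c+1)(c+2)(2c²+6c+3)` forces `c = 0`. -/
theorem arith_c (c : ℕ) (h : (2 * c + 3) ∣ (c + 1) * ((c + 2) * (2 * c ^ 2 + 6 * c + 3))) :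
    c = 0 := by
  have hcop1 : Nat.Coprime (2 * c + 3) (c + 1) := by
    have h1 : Nat.gcd (2 * c + 3) (c + 1) ∣ 2 * c + 3 := Nat.gcd_dvd_left _ _
    have h2 : Nat.gcd (2 * c + 3) (c + 1) ∣ c + 1 := Nat.gcd_dvd_right _ _
    have h3 : Nat.gcd (2 * c + 3) (c + 1) ∣ 1 := by
      have h4 := Nat.dvd_sub h1 (Dvd.dvd.mul_left h2 2)
      have e : 2 * c + 3 - 2 * (c + 1) = 1 := by omega
      rwa [e] at h4
    exact Nat.dvd_one.mp h3
  have hcop2 : Nat.Coprime (2 * c + 3) (c + 2) := by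
    have h1 : Nat.gcd (2 * c + 3) (c + 2) ∣ 2 * c + 3 := Nat.gcd_dvd_left _ _
    have h2 : Nat.gcd (2 * c + 3) (c + 2) ∣ c + 2 := Nat.gcd_dvd_right _ _
    have h3 : Nat.gcd (2 * c + 3) (c + 2) ∣ 1 := by
      have h4 := Nat.dvd_sub (Dvd.dvd.mul_left h2 2) h1
      have e : 2 * (c + 2) - (2 * c + 3) = 1 := by omega
      rwa [e] at h4
    exact Nat.dvd_one.mp h3
  have h5 : (2 * c + 3) ∣ 2 * c ^ 2 + 6 * c + 3 :=
    hcop2.dvd_of_dvd_mul_left (hcop1.dvd_of_dvd_mul_left h)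
  have e : 2 * c ^ 2 + 6 * c + 3 = (c + 1) * (2 * c + 3) + c := by ring
  rw [e] at h5
  have h6 : (2 * c + 3) ∣ c := (Nat.dvd_add_right (dvd_mul_left _ _)).mp h5
  exact Nat.eq_zero_of_dvd_of_lt h6 (by omega)

theorem p_eq_five {G : Subgroup (Perm Ω)} {p : ℕ} (hp : p.Prime)
    (hcard : Fintype.card Ω = 2 * p) (htr : IsPretransitive G Ω) (a₀ : Ω)
    (hC : Concl G p a₀) (hG : Nat.card G = p * (p - 1) * (p - 2)) : p = 5 := by
  obtain ⟨-, a, ha, hpa, horb⟩ := hC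
  obtain ⟨c, rfl⟩ : ∃ c, a = c + 1 := ⟨a - 1, by omega⟩
  have hidx : (stabilizer G a₀).index = 2 * p := by
    rw [MulAction.index_stabilizer_of_transitive, Nat.card_eq_fintype_card, hcard]
  have hH : Nat.card (stabilizer G a₀) * (2 * p) = p * (p - 1) * (p - 2) := by
    rw [← hidx, Subgroup.card_mul_index, hG]
  have hp1 : p - 1 = 2 * (c + 1) * (c + 2) := by
    rw [hpa]
    have e : 2 * (c + 1) ^ 2 + 2 * (c + 1) + 1 = 2 * (c + 1) * (c + 2) + 1 := by ring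
    rw [e]; rfl
  have hp2 : p - 2 = 2 * c ^ 2 + 6 * c + 3 := by
    rw [hpa]
    have e : 2 * (c + 1) ^ 2 + 2 * (c + 1) + 1 = 2 * c ^ 2 + 6 * c + 3 + 2 := by ring
    rw [e]; rfl
  have hHcard : Nat.card (stabilizer G a₀) = (c + 1) * ((c + 2) * (2 * c ^ 2 + 6 * c + 3)) := by
    rw [hp1, hp2] at hH
    have hp0 : 0 < 2 * p := by have := hp.pos; omega
    apply Nat.eq_of_mul_eq_mul_right hp0
    rw [hH]; ring
  have hone : 1 < Fintype.card Ω := by
    rw [hcard]; have := hp.two_le; omega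
  obtain ⟨b, hb⟩ := Fintype.exists_ne_of_one_lt_card hone a₀
  have hdvd : Nat.card (orbit (stabilizer G a₀) b) ∣ Nat.card (stabilizer G a₀) := by
    have h1 : (stabilizer (stabilizer G a₀) b).index = Nat.card (orbit (stabilizer G a₀) b) := by
      rw [MulAction.index_stabilizer, Nat.card_coe_set_eq]
    rw [← h1]
    exact Subgroup.index_dvd_card _
  have h23 : (2 * c + 3) ∣ Nat.card (orbit (stabilizer G a₀) b) := by
    rcases horb b hb with h | h
    · rw [h]; exact ⟨c + 1, by ring⟩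
    · rw [h]; exact ⟨c + 2, by ring⟩
  have hc : c = 0 := arith_c c (by rw [← hHcard]; exact h23.trans hdvd)
  subst hc
  rw [hpa]
  norm_num

end Cfsg.Agent.H60.PD

example {Ω : Type*} [Fintype Ω] [DecidableEq Ω] {G : Subgroup (Equiv.Perm Ω)} {p : ℕ}
    (hp : p.Prime) (hcard : Fintype.card Ω = 2 * p) (htr : MulAction.IsPretransitive G Ω)
    (a₀ : Ω) (hC : Cfsg.Agent.H74.W2P.Concl G p a₀)
    (hG : Nat.card G = p * (p - 1) * (p - 2)) : p = 5 :=
  Cfsg.Agent.H60.PD.p_eq_five hp hcard htr a₀ hC hG
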