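import Mathlib
import Cfsg.Agent.H42.SpnDefs

/-!
# SPN-PEEL (S5956 team piece for helper42): peeling off invariant nondegenerate planes
-/

set_option autoImplicit false

namespace Cfsg.Agent.H60.Spn

open Cfsg.Agent.H45 Cfsg.Agent.H42.Spd Cfsg.Agent.H42.Spn Module

universe u v

theorem peel (hC : StIsoCompl.{u, v}) (hS : StIsoSum.{u, v}) : StPeel.{u, v} := by
  intro F _ _ V _ _ _ B T hI hplane W hW k
  induction k with
  | zero =>
    intro _
    refine ⟨⊥, bot_le, ⟨?_, bot_inf_eq _⟩, by simp⟩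
    rw [Module.End.mem_invtSubmodule]
    exact bot_le
  | succ k ih =>
    intro hk
    obtain ⟨U, hUW, hU, hUk⟩ := ih (by omega)
    obtain ⟨hN, -, hdim⟩ := hC F V B T hI U W hU hW hUW
    have hne : W ⊓ perp B U ≠ ⊥ := by
      intro h
      rw [h, finrank_bot] at hdim
      omega
    obtain ⟨P, hPW, hP, hP2⟩ := hplane (W ⊓ perp B U) hN hne
    obtain ⟨hN', hdim'⟩ := hS F V B T hI U P hU hP (hPW.trans inf_le_right)
    refine ⟨U ⊔ P, sup_le hUW (hPW.trans inf_le_left), hN', ?_⟩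
    rw [hdim', hUk, hP2]
    ring

example (hC : Cfsg.Agent.H42.Spn.StIsoCompl.{u, v}) (hS : Cfsg.Agent.H42.Spn.StIsoSum.{u, v}) :
    Cfsg.Agent.H42.Spn.StPeel.{u, v} := peel hC hS

end Cfsg.Agent.H60.Spn
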