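import Mathlib
import Cfsg.Agent.Lib.Helper96.TWDefs
import Cfsg.Agent.H95.Quad

set_option autoImplicit false

/-!
# S5707-NLGEN (helper60, for helper96): the tensor-wreath elements of `Ω` normalize `Lsp`
-/

namespace Cfsg.Agent.H60.TW

open Cfsg Cfsg.Geo Matrix Cfsg.Agent.Lib.Helper96.TW
open scoped MatrixGroups

universe u

/-- Conjugation by a tensor-wreath element of `Ω` maps `Lsp` into itself. -/
theorem conj_mem_Lsp (hAlg : StAlg.{u}) (hNF : StNF.{u}) (hSim : StSim.{u}) (hCC : StCConj.{u})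
    (F : Type u) [Field F] (k t : ℕ) (Q : (Idx k t → F) → F) (c : F) (hcases : Cases k t)
    (hSM : SM k t Q c) (h : GL (Idx k t) F) (hT : h ∈ tensorWreathStandard k t F)
    (hO : h ∈ omegaGL Q) (M : Matrix (Idx k t) (Idx k t) F) (hM : M ∈ Lsp F k t) :
    (h : Matrix (Idx k t) (Idx k t) F) * M *
      ((h⁻¹ : GL (Idx k t) F) : Matrix (Idx k t) (Idx k t) F) ∈ Lsp F k t := by
  obtain ⟨gs, σ, hh⟩ := hNF hAlg F k t h hT
  have hiso : h ∈ isometryGroup F Q := Cfsg.Agent.H95.omegaGL_le Q hO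
  have hpol : ∀ x y : Idx k t → F,
      QuadraticMap.polar Q
        ((pureM (fun i => ((gs i : GL (Fin k) F) : Matrix (Fin k) (Fin k) F)) *
          permM F k t σ) *ᵥ x)
        ((pureM (fun i => ((gs i : GL (Fin k) F) : Matrix (Fin k) (Fin k) F)) *
          permM F k t σ) *ᵥ y)
        = QuadraticMap.polar Q x y := by
    intro x y
    rw [← hh]
    exact Cfsg.Agent.H95.polar_isometry hiso x y
  have hsim := hSim hAlg F k t Q c hcases hSM gs σ hpol
  have hk : k = 2 ∨ k = 4 := by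
    rcases hcases with ⟨h1, -⟩ | ⟨h1, -⟩
    · exact Or.inl h1
    · exact Or.inr h1
  obtain ⟨-, -, -, -, -, hA6, hA7, -⟩ := hAlg F k t
  have hinv : (h : Matrix (Idx k t) (Idx k t) F) *
      ((h⁻¹ : GL (Idx k t) F) : Matrix (Idx k t) (Idx k t) F) = 1 := by
    rw [← Units.val_mul, mul_inv_cancel, Units.val_one]
  obtain ⟨gs', hgs'⟩ : ∃ gs' : Fin t → Matrix (Fin k) (Fin k) F,
      gs' = fun i => ((gs i : GL (Fin k) F) : Matrix (Fin k) (Fin k) F) := ⟨_, rfl⟩
  rw [← hgs'] at hh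
  induction hM using Submodule.span_induction with
  | mem x hx =>
    obtain ⟨j, A, hA, rfl⟩ := hx
    have hB := hCC F k hSM.two hk (gs (σ j)) (hsim (σ j)) A hA
    have hgj : gs' (σ j) = ((gs (σ j) : GL (Fin k) F) : Matrix (Fin k) (Fin k) F) :=
      congrFun hgs' (σ j)
    have hcomm : gs' (σ j) * A =
        ((gs (σ j) : GL (Fin k) F) : Matrix (Fin k) (Fin k) F) * A *
          (((gs (σ j))⁻¹ : GL (Fin k) F) : Matrix (Fin k) (Fin k) F) * gs' (σ j) := by
      rw [hgj, mul_assoc _ _ ((gs (σ j) : GL (Fin k) F) : Matrix (Fin k) (Fin k) F),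
        ← Units.val_mul, inv_mul_cancel, Units.val_one, mul_one]
    have e : (h : Matrix (Idx k t) (Idx k t) F) * loc j A =
        loc (σ j) (((gs (σ j) : GL (Fin k) F) : Matrix (Fin k) (Fin k) F) * A *
          (((gs (σ j))⁻¹ : GL (Fin k) F) : Matrix (Fin k) (Fin k) F)) *
          (h : Matrix (Idx k t) (Idx k t) F) := by
      calc (h : Matrix (Idx k t) (Idx k t) F) * loc j A
          = pureM gs' * (permM F k t σ * loc j A) := by rw [hh, mul_assoc]
        _ = pureM gs' * (loc (σ j) A * permM F k t σ) := by rw [hA7 σ j A]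
        _ = (pureM gs' * loc (σ j) A) * permM F k t σ := by rw [mul_assoc]
        _ = (loc (σ j) (((gs (σ j) : GL (Fin k) F) : Matrix (Fin k) (Fin k) F) * A *
              (((gs (σ j))⁻¹ : GL (Fin k) F) : Matrix (Fin k) (Fin k) F)) * pureM gs') *
              permM F k t σ := by rw [hA6 gs' (σ j) A _ hcomm]
        _ = loc (σ j) (((gs (σ j) : GL (Fin k) F) : Matrix (Fin k) (Fin k) F) * A *
              (((gs (σ j))⁻¹ : GL (Fin k) F) : Matrix (Fin k) (Fin k) F)) *
              (h : Matrix (Idx k t) (Idx k t) F) := by rw [hh, mul_assoc]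
    rw [e, mul_assoc, hinv, mul_one]
    exact Submodule.subset_span ⟨σ j, _, hB, rfl⟩
  | zero =>
    rw [mul_zero, zero_mul]
    exact Submodule.zero_mem _
  | add x y hx hy ihx ihy =>
    rw [mul_add, add_mul]
    exact Submodule.add_mem _ ihx ihy
  | smul a x hx ih =>
    rw [Matrix.mul_smul, Matrix.smul_mul]
    exact Submodule.smul_mem _ a ih

theorem nlGen : Cfsg.Agent.Lib.Helper96.TW.StNLGen.{u} := by
  intro hAlg hNF hSim hCC F _ k t Q c hcases hSM g hg
  obtain ⟨hgT, hgO⟩ := hg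
  show ∀ M : Matrix (Idx k t) (Idx k t) F, M ∈ Lsp F k t ↔
    (g : Matrix (Idx k t) (Idx k t) F) * M *
      ((g⁻¹ : GL (Idx k t) F) : Matrix (Idx k t) (Idx k t) F) ∈ Lsp F k t
  intro M
  constructor
  · exact conj_mem_Lsp hAlg hNF hSim hCC F k t Q c hcases hSM g hgT hgO M
  · intro hM
    have h1 := conj_mem_Lsp hAlg hNF hSim hCC F k t Q c hcases hSM g⁻¹
      (Subgroup.inv_mem _ hgT) (Subgroup.inv_mem _ hgO) _ hM
    have h2 : ((g⁻¹ : GL (Idx k t) F) : Matrix (Idx k t) (Idx k t) F) *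
        (g : Matrix (Idx k t) (Idx k t) F) = 1 := by
      rw [← Units.val_mul, inv_mul_cancel, Units.val_one]
    have e : ((g⁻¹ : GL (Idx k t) F) : Matrix (Idx k t) (Idx k t) F) *
        ((g : Matrix (Idx k t) (Idx k t) F) * M *
          ((g⁻¹ : GL (Idx k t) F) : Matrix (Idx k t) (Idx k t) F)) *
        (((g⁻¹)⁻¹ : GL (Idx k t) F) : Matrix (Idx k t) (Idx k t) F) = M := by
      rw [inv_inv]
      calc ((g⁻¹ : GL (Idx k t) F) : Matrix (Idx k t) (Idx k t) F) *
            ((g : Matrix (Idx k t) (Idx k t) F) * M *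
              ((g⁻¹ : GL (Idx k t) F) : Matrix (Idx k t) (Idx k t) F)) *
            (g : Matrix (Idx k t) (Idx k t) F)
          = (((g⁻¹ : GL (Idx k t) F) : Matrix (Idx k t) (Idx k t) F) *
              (g : Matrix (Idx k t) (Idx k t) F)) * M *
              (((g⁻¹ : GL (Idx k t) F) : Matrix (Idx k t) (Idx k t) F) *
              (g : Matrix (Idx k t) (Idx k t) F)) := by
            simp only [mul_assoc]
        _ = M := by rw [h2, one_mul, mul_one]
    rw [e] at h1
    exact h1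

end Cfsg.Agent.H60.TW
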