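import Mathlib
import Cfsg.Agent.Lib.Helper96.TWDefs
import Cfsg.Agent.H95.Quad

set_option autoImplicit false

/-!
# S5707-TRANSPORT (helper60, for helper96): from tensor coordinates to `Fin n`
-/

namespace Cfsg.Agent.H60.TW

open Cfsg Cfsg.Geo Matrix Cfsg.Agent.Lib.Helper96.TW
open scoped MatrixGroups

universe u

section

variable {F : Type u} [Field F] {n k t : ℕ}

/-- The transport map `x ↦ P (x ∘ e)`. -/
def tL (e : Fin n ≃ Idx k t) (P : GL (Fin n) F) (x : Idx k t → F) : Fin n → F :=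
  (P : Matrix (Fin n) (Fin n) F) *ᵥ (x ∘ e)

/-- Its inverse. -/
def tL' (e : Fin n ≃ Idx k t) (P : GL (Fin n) F) (v : Fin n → F) : Idx k t → F :=
  (((P⁻¹ : GL (Fin n) F) : Matrix (Fin n) (Fin n) F) *ᵥ v) ∘ e.symm

theorem tL_tL' (e : Fin n ≃ Idx k t) (P : GL (Fin n) F) (v : Fin n → F) :
    tL e P (tL' e P v) = v := by
  unfold tL tL'
  have h1 : ((((P⁻¹ : GL (Fin n) F) : Matrix (Fin n) (Fin n) F) *ᵥ v) ∘ e.symm) ∘ e =
      ((P⁻¹ : GL (Fin n) F) : Matrix (Fin n) (Fin n) F) *ᵥ v := by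
    funext i
    simp
  rw [h1, Matrix.mulVec_mulVec, ← Units.val_mul, mul_inv_cancel, Units.val_one,
    Matrix.one_mulVec]

theorem tL_add (e : Fin n ≃ Idx k t) (P : GL (Fin n) F) (x y : Idx k t → F) :
    tL e P (x + y) = tL e P x + tL e P y := by
  unfold tL
  rw [← Matrix.mulVec_add]
  rfl

theorem tL_smul (e : Fin n ≃ Idx k t) (P : GL (Fin n) F) (c : F) (x : Idx k t → F) :
    tL e P (c • x) = c • tL e P x := by
  unfold tL
  rw [← Matrix.mulVec_smul]
  rfl

theorem tL_zero (e : Fin n ≃ Idx k t) (P : GL (Fin n) F) :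
    tL e P (0 : Idx k t → F) = 0 := by
  unfold tL
  have h1 : (0 : Idx k t → F) ∘ e = 0 := rfl
  rw [h1, Matrix.mulVec_zero]

theorem tL_injective (e : Fin n ≃ Idx k t) (P : GL (Fin n) F) :
    Function.Injective (tL (F := F) e P) := by
  intro x y hxy
  unfold tL at hxy
  have h1 : x ∘ e = y ∘ e := by
    have h2 := congrArg (fun v => ((P⁻¹ : GL (Fin n) F) : Matrix (Fin n) (Fin n) F) *ᵥ v) hxy
    simp only [Matrix.mulVec_mulVec, ← Units.val_mul, inv_mul_cancel, Units.val_one,
      Matrix.one_mulVec] at h2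
    exact h2
  funext a
  have h3 := congrFun h1 (e.symm a)
  simpa using h3

/-- The key identity: `Φ g (L x) = L (g x)`. -/
theorem tL_mulVec (e : Fin n ≃ Idx k t) (P : GL (Fin n) F) (g : GL (Idx k t) F)
    (x : Idx k t → F) :
    ((((MulAut.conj P).toMonoidHom.comp (glReindex (F := F) e.symm).toMonoidHom) g :
        GL (Fin n) F) : Matrix (Fin n) (Fin n) F) *ᵥ tL e P x =
      tL e P ((g : Matrix (Idx k t) (Idx k t) F) *ᵥ x) := by
  have h1 : (((MulAut.conj P).toMonoidHom.comp (glReindex (F := F) e.symm).toMonoidHom) g :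
      GL (Fin n) F) = P * glReindex (F := F) e.symm g * P⁻¹ := rfl
  have h2 : ((glReindex (F := F) e.symm g : GL (Fin n) F) : Matrix (Fin n) (Fin n) F) =
      Matrix.reindex e.symm e.symm (g : Matrix (Idx k t) (Idx k t) F) := rfl
  have h3 : Matrix.reindex e.symm e.symm (g : Matrix (Idx k t) (Idx k t) F) *ᵥ (x ∘ e) =
      ((g : Matrix (Idx k t) (Idx k t) F) *ᵥ x) ∘ e := by
    funext i
    simp only [Matrix.mulVec, dotProduct, Matrix.reindex_apply, Matrix.submatrix_apply,
      Function.comp_apply, Equiv.symm_symm]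
    exact Fintype.sum_equiv e _ _ (fun j => rfl)
  unfold tL
  rw [h1, Units.val_mul, Units.val_mul, h2, Matrix.mulVec_mulVec, mul_assoc, mul_assoc,
    ← Units.val_mul, inv_mul_cancel, Units.val_one, mul_one, ← Matrix.mulVec_mulVec, h3]

theorem nondeg_transport (Q : (Fin n → F) → F) (hQ : IsNondegenerateQuadraticForm Q)
    (e : Fin n ≃ Idx k t) (P : GL (Fin n) F) :
    IsNondegenerateQuadraticForm (fun x : Idx k t → F => Q (tL e P x)) := by
  have hpol : ∀ x y : Idx k t → F,
      QuadraticMap.polar (fun x : Idx k t → F => Q (tL e P x)) x y =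
        QuadraticMap.polar Q (tL e P x) (tL e P y) := by
    intro x y
    unfold QuadraticMap.polar
    show Q (tL e P (x + y)) - Q (tL e P x) - Q (tL e P y) = _
    rw [tL_add]
  refine ⟨?_, ?_, ?_⟩
  · intro c v
    show Q (tL e P (c • v)) = c ^ 2 * Q (tL e P v)
    rw [tL_smul, hQ.smul]
  · refine ⟨?_, ?_, ?_, ?_⟩
    · intro x y v
      rw [hpol, hpol, hpol, tL_add, hQ.polar_bilinear.add_left]
    · intro c x v
      rw [hpol, hpol, tL_smul, hQ.polar_bilinear.smul_left]
    · intro v x y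
      rw [hpol, hpol, hpol, tL_add, hQ.polar_bilinear.add_right]
    · intro c v x
      rw [hpol, hpol, tL_smul, hQ.polar_bilinear.smul_right]
  · intro v hv
    have hv' : tL e P v ≠ 0 := by
      intro h0
      apply hv
      apply tL_injective e P
      rw [h0, tL_zero]
    obtain ⟨⟨w, hw⟩, ⟨w', hw'⟩⟩ := hQ.nondegenerate _ hv'
    refine ⟨⟨tL' e P w, ?_⟩, ⟨tL' e P w', ?_⟩⟩
    · rw [hpol, tL_tL']
      exact hw
    · rw [hpol, tL_tL']
      exact hw'

theorem mem_iso_transport (Q : (Fin n → F) → F) (e : Fin n ≃ Idx k t) (P : GL (Fin n) F)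
    (g : GL (Idx k t) F) :
    g ∈ isometryGroup F (fun x : Idx k t → F => Q (tL e P x)) ↔
      ((MulAut.conj P).toMonoidHom.comp (glReindex (F := F) e.symm).toMonoidHom) g ∈
        isometryGroup F Q := by
  rw [Cfsg.Agent.H95.mem_isometryGroup_iff, Cfsg.Agent.H95.mem_isometryGroup_iff]
  constructor
  · intro h v
    have h1 := h (tL' e P v)
    have h2 : Q (tL e P ((g : Matrix (Idx k t) (Idx k t) F) *ᵥ tL' e P v)) =
        Q (tL e P (tL' e P v)) := h1
    rw [← tL_mulVec, tL_tL'] at h2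
    exact h2
  · intro h x
    show Q (tL e P ((g : Matrix (Idx k t) (Idx k t) F) *ᵥ x)) = Q (tL e P x)
    rw [← tL_mulVec]
    exact h _

theorem map_mem_commutator_top {G H : Type*} [Group G] [Group H] (f : G →* H) {g : G}
    (hg : g ∈ commutator G) : f g ∈ commutator H := by
  rw [commutator_def] at hg ⊢
  have h1 : f g ∈ Subgroup.map f ⁅(⊤ : Subgroup G), (⊤ : Subgroup G)⁆ :=
    Subgroup.mem_map_of_mem f hg
  rw [Subgroup.map_commutator] at h1
  exact Subgroup.commutator_mono le_top le_top h1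

theorem omega_transport (Q : (Fin n → F) → F) (e : Fin n ≃ Idx k t) (P : GL (Fin n) F) :
    (omegaGL (fun x : Idx k t → F => Q (tL e P x))).map
      ((MulAut.conj P).toMonoidHom.comp (glReindex (F := F) e.symm).toMonoidHom) =
      omegaGL Q := by
  obtain ⟨Ψ, hΨ⟩ : ∃ Ψ : GL (Fin n) F →* GL (Idx k t) F, ∀ y,
      ((MulAut.conj P).toMonoidHom.comp (glReindex (F := F) e.symm).toMonoidHom) (Ψ y) = y := by
    refine ⟨(glReindex (F := F) e.symm).symm.toMonoidHom.comp (MulAut.conj P⁻¹).toMonoidHom,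
      fun y => ?_⟩
    show P * glReindex (F := F) e.symm
      ((glReindex (F := F) e.symm).symm (P⁻¹ * y * P⁻¹⁻¹)) * P⁻¹ = y
    rw [MulEquiv.apply_symm_apply]
    group
  obtain ⟨f, hf⟩ : ∃ f : ↥(isometryGroup F (fun x : Idx k t → F => Q (tL e P x))) →*
      ↥(isometryGroup F Q), ∀ x, ((f x : ↥(isometryGroup F Q)) : GL (Fin n) F) =
        ((MulAut.conj P).toMonoidHom.comp (glReindex (F := F) e.symm).toMonoidHom)
          (x : GL (Idx k t) F) :=
    ⟨{ toFun := fun x => ⟨((MulAut.conj P).toMonoidHom.comp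
          (glReindex (F := F) e.symm).toMonoidHom) (x : GL (Idx k t) F),
          (mem_iso_transport Q e P x).1 x.2⟩
       map_one' := by
         apply Subtype.ext
         show ((MulAut.conj P).toMonoidHom.comp (glReindex (F := F) e.symm).toMonoidHom)
           ((1 : ↥(isometryGroup F (fun x : Idx k t → F => Q (tL e P x)))) :
             GL (Idx k t) F) = 1
         rw [Subgroup.coe_one, map_one]
       map_mul' := fun x y => by
         apply Subtype.ext
         show ((MulAut.conj P).toMonoidHom.comp (glReindex (F := F) e.symm).toMonoidHom)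
           ((x * y : ↥(isometryGroup F (fun x : Idx k t → F => Q (tL e P x)))) :
             GL (Idx k t) F) = _ * _
         rw [Subgroup.coe_mul, map_mul] }, fun x => rfl⟩
  obtain ⟨f', hf'⟩ : ∃ f' : ↥(isometryGroup F Q) →*
      ↥(isometryGroup F (fun x : Idx k t → F => Q (tL e P x))),
      ∀ y, ((f' y : ↥(isometryGroup F (fun x : Idx k t → F => Q (tL e P x)))) :
        GL (Idx k t) F) = Ψ (y : GL (Fin n) F) :=
    ⟨{ toFun := fun y => ⟨Ψ (y : GL (Fin n) F),
          (mem_iso_transport Q e P (Ψ (y : GL (Fin n) F))).2 (by rw [hΨ]; exact y.2)⟩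
       map_one' := by
         apply Subtype.ext
         show Ψ ((1 : ↥(isometryGroup F Q)) : GL (Fin n) F) = 1
         rw [Subgroup.coe_one, map_one]
       map_mul' := fun x y => by
         apply Subtype.ext
         show Ψ ((x * y : ↥(isometryGroup F Q)) : GL (Fin n) F) = _ * _
         rw [Subgroup.coe_mul, map_mul] }, fun y => rfl⟩
  ext y
  rw [Subgroup.mem_map]
  constructor
  · rintro ⟨x, hx, rfl⟩
    obtain ⟨x', hx', rfl⟩ := hx
    exact ⟨f x', map_mem_commutator_top f hx', hf x'⟩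
  · intro hy
    obtain ⟨y', hy', rfl⟩ := hy
    exact ⟨Ψ (y' : GL (Fin n) F), ⟨f' y', map_mem_commutator_top f' hy', hf' y'⟩, hΨ _⟩

end

theorem transport : Cfsg.Agent.Lib.Helper96.TW.StTransport.{u} := by
  intro F _ n k t Q hQ e P
  refine ⟨nondeg_transport Q hQ e P, ?_, omega_transport Q e P, ?_⟩
  · rw [MonoidHom.coe_comp]
    exact (MulEquiv.injective (MulAut.conj P)).comp
      (MulEquiv.injective (glReindex (F := F) e.symm))
  · unfold tensorWreathSubgroup
    rw [Subgroup.map_map]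

end Cfsg.Agent.H60.TW
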