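import Mathlib
import Cfsg.Agent.H42.TiDefs

set_option autoImplicit false

/-!
# SPI-EXEVEN (S5955 team piece for helper42): examples for `i` even
-/

namespace Cfsg.Agent.H60.Ti

open Cfsg.Agent.H45 Cfsg.Agent.H42.Spd Cfsg.Agent.H42.Spn Cfsg.Agent.H42.Ti Module Polynomial

universe u

theorem tiExEven (hC : StCycSet.{u}) (hM : StTiModAll.{u}) (hT : StTiTransport.{u})
    (hS : StTiSpread.{u}) : StTiExEven.{u} := by
  intro F _ _ p _ _ r hr hr2 hrp hev Φs hΦ d A hA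
  have hrF : (r : F) ≠ 0 := by
    intro h
    have h1 : p ∣ r := (CharP.cast_eq_zero_iff F p r).1 h
    have hp : p.Prime := Fact.out
    exact hrp ((Nat.prime_dvd_prime_iff_eq hp hr).1 h1).symm
  obtain ⟨hcard, -, -⟩ := (hC F r hr hrF).2 Φs hΦ
  have hr3 : 3 ≤ r := by
    have := hr.two_le
    omega
  have hi0 : 0 < ii F r := by
    rcases Nat.eq_zero_or_pos (ii F r) with h | h
    · rw [h, mul_zero] at hcard
      omega
    · exact h
  have hc0 : 0 < Φs.card := by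
    rcases Nat.eq_zero_or_pos Φs.card with h | h
    · rw [h, zero_mul] at hcard
      omega
    · exact h
  have ht : (r - 1) / ii F r = Φs.card := by
    rw [← hcard, Nat.mul_div_cancel _ hi0]
  obtain ⟨a, ha1, ha2⟩ := hS F[X] Φs A hc0
  have hN : Even (ii F r * A) := Even.mul_right hev A
  obtain ⟨k, hk⟩ := hN
  have hm : 2 * ((2 * d - ii F r * A) / 2) + ii F r * A = 2 * d := by omega
  have hmod := hM F p r hr hr2 hrp hev Φs hΦ a ((2 * d - ii F r * A) / 2)
  rw [ha1, hm] at hmod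
  obtain ⟨x, hx1, hx2, hx3⟩ := hT F p r hr hrp Φs d _ _ hmod
  refine ⟨x, hx1, ?_, ?_⟩
  · rw [hx2]
    exact hm
  · rw [ht]
    refine le_trans (le_of_eq ?_) ha2
    apply Finset.sum_congr rfl
    intro φ hφ
    rw [hx3 φ hφ, Nat.mul_comm 2 (ii F r)]
    exact Nat.mul_div_mul_left _ _ hi0

example (hC : Cfsg.Agent.H42.Ti.StCycSet.{u}) (hM : Cfsg.Agent.H42.Ti.StTiModAll.{u})
    (hT : Cfsg.Agent.H42.Ti.StTiTransport.{u}) (hS : Cfsg.Agent.H42.Ti.StTiSpread.{u}) :
    Cfsg.Agent.H42.Ti.StTiExEven.{u} := tiExEven hC hM hT hS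

end Cfsg.Agent.H60.Ti
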