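import Mathlib
import Cfsg.Agent.H42.TiDefs
import Cfsg.Agent.H54.SpnHyp
import Cfsg.Agent.H84.SpnInvOdd

set_option autoImplicit false

/-!
# SPI-INVSQ (S5955 team piece for helper42): `T ^ 2 = μ ^ 2`
-/

namespace Cfsg.Agent.H60.Ti

open Cfsg.Agent.H45 Cfsg.Agent.H42.Spd Cfsg.Agent.H42.Spn Cfsg.Agent.H42.Ti Module Polynomial

universe u v

theorem tiInvSq (hP : StTiPeel.{u, v}) : StTiInvSq.{u, v} := by
  intro F _ _ V _ _ _ B T h2 hI μ hμ hTT m hm
  have hskew : ∀ x y, B x y = 0 → B y x = 0 := by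
    intro x y h
    have h1 := hI.alt (x + y)
    simp only [map_add, LinearMap.add_apply, hI.alt, h, zero_add, add_zero] at h1
    exact h1
  have htop : Nd B T ⊤ := nd_top B T hI.nondeg hskew
  have hTTv : ∀ v, T (T v) = (μ * μ) • v := by
    intro v
    have := congrArg (fun f : Module.End F V => f v) hTT
    simpa using this
  have hline : ∀ x : V, x ≠ 0 → ∀ c : F, T x = c • x →
      (Submodule.span F {x}) ∈ T.invtSubmodule ∧ TI B (Submodule.span F {x}) ∧
        Module.finrank F ↥(Submodule.span F {x}) = 1 := by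
    intro x hx c hc
    refine ⟨?_, ?_, finrank_span_singleton hx⟩
    · rw [Module.End.mem_invtSubmodule]
      intro y hy
      obtain ⟨a, rfl⟩ := Submodule.mem_span_singleton.1 hy
      show T (a • x) ∈ Submodule.span F {x}
      rw [map_smul, hc, smul_smul]
      exact Submodule.smul_mem _ _ (Submodule.mem_span_singleton_self x)
    · intro u hu v hv
      obtain ⟨a, rfl⟩ := Submodule.mem_span_singleton.1 hu
      obtain ⟨b, rfl⟩ := Submodule.mem_span_singleton.1 hv
      simp only [map_smul, LinearMap.smul_apply, hI.alt, smul_zero]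
  have hstep : ∀ W : Submodule F V, W ≤ ⊤ → Nd B T W → 0 < Module.finrank F W →
      HypPair B T 1 W := by
    intro W _ hW hpos
    have hW0 : W ≠ ⊥ := by
      rintro rfl
      rw [finrank_bot] at hpos
      exact lt_irrefl 0 hpos
    obtain ⟨H, hHW, hH, hH2⟩ := Cfsg.Agent.H84.Spn.invOdd Cfsg.Agent.H54.Spn.isoHyp F V B T h2
      hI (μ * μ) hμ hTT W hW hW0
    have hH0 : H ≠ ⊥ := by
      rintro rfl
      rw [finrank_bot] at hH2
      omega
    obtain ⟨u, huH, hu0⟩ := Submodule.exists_mem_ne_zero_of_ne_bot hH0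
    have hTu : T u ∈ H := (Module.End.mem_invtSubmodule T).mp hH.1 huH
    by_cases hw : T u + μ • u = 0
    · have hc : T u = (-μ) • u := by
        rw [neg_smul]
        exact eq_neg_of_add_eq_zero_left hw
      obtain ⟨h1, h2', h3⟩ := hline u hu0 (-μ) hc
      exact ⟨H, Submodule.span F {u}, hHW, hH, by rw [hH2],
        (Submodule.span_singleton_le_iff_mem _ _).2 huH, h1, h2', h3⟩
    · have hc : T (T u + μ • u) = μ • (T u + μ • u) := by
        rw [map_add, map_smul, hTTv, smul_add, smul_smul, add_comm]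
      obtain ⟨h1, h2', h3⟩ := hline _ hw μ hc
      exact ⟨H, Submodule.span F {T u + μ • u}, hHW, hH, by rw [hH2],
        (Submodule.span_singleton_le_iff_mem _ _).2 (H.add_mem hTu (H.smul_mem _ huH)),
        h1, h2', h3⟩
  have hj : m = 0 ∨ 0 + 2 * 1 * (m - 1) < Module.finrank F ↥(⊤ : Submodule F V) := by
    rw [finrank_top]
    omega
  obtain ⟨U, -, hU1, hU2, hU3⟩ := hP F V B T hI 1 0 ⊤ htop hstep m hj
  exact ⟨U, hU1, hU2, by rw [hU3, one_mul]⟩

example (hP : Cfsg.Agent.H42.Ti.StTiPeel.{u, v}) : Cfsg.Agent.H42.Ti.StTiInvSq.{u, v} :=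
  tiInvSq hP

end Cfsg.Agent.H60.Ti
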