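import Mathlib
import Cfsg.Agent.H42.UtDefs
import Cfsg.Agent.H42.UnBase
import Cfsg.Agent.H12.UnFix
import Cfsg.Agent.H27.UnCompl
import Cfsg.Agent.H3.TiCycSet

set_option autoImplicit false

/-!
# UT-BUILD (S5953 team piece for helper42): invariant totally isotropic subspaces of
dimension `b s + j`
-/

namespace Cfsg.Agent.H60.Ut

open Cfsg.Agent.H45 Cfsg.Agent.H42.Spd Cfsg.Agent.H42.Un Cfsg.Agent.H42.Ti Cfsg.Agent.H42.Ut
  Module Polynomial

universe u v

theorem utBuild (hPeel : StUtPeel.{u, v}) (hW : StUtWitt.{u, v}) (hO : StUtStepNsd.{u, v})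
    (hE : StUtStepSd.{u, v}) : StUtBuild.{u, v} := by
  intro F _ _ q σ V _ _ _ r B T hK hσ hc s j hj hNsd hSd
  have hI : UIso B T := hc.iso
  have hr3 : 3 ≤ r := by
    have h1 := hc.prime.two_le
    have h2 := hc.ne_two
    omega
  have hi0 : 0 < ii F r := by
    obtain ⟨Φs, hΦ⟩ := (Cfsg.Agent.H3.Ti.cycSet F r hc.prime hc.cast_ne).1
    obtain ⟨hcard, -, -⟩ := (Cfsg.Agent.H3.Ti.cycSet F r hc.prime hc.cast_ne).2 Φs hΦ
    rcases Nat.eq_zero_or_pos (ii F r) with h | h
    · rw [h, mul_zero] at hcard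
      omega
    · exact h
  have htop : UNd B T ⊤ := hI.und_top
  have hV₁ : UNd B T (⊤ ⊓ LinearMap.ker (T - 1)) := Cfsg.Agent.H12.Un.uFix F σ V r B T hc ⊤ htop
  have hkk : kk T ⊤ = Module.finrank F ↥(⊤ ⊓ LinearMap.ker (T - 1)) := rfl
  have hfix : ∀ v ∈ (⊤ ⊓ LinearMap.ker (T - 1) : Submodule F V), T v = v := by
    intro v hv
    have h1 := hv.2
    rw [SetLike.mem_coe, LinearMap.mem_ker, LinearMap.sub_apply, Module.End.one_apply] at h1
    exact sub_eq_zero.mp h1
  obtain ⟨U₁, hU₁le, hU₁ti, hU₁f⟩ := hW F σ V B T hI _ hV₁.2 j (by rw [← hkk]; exact hj)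
  have hU₁inv : U₁ ∈ T.invtSubmodule := by
    rw [Module.End.mem_invtSubmodule]
    intro x hx
    show T x ∈ U₁
    rw [hfix x (hU₁le hx)]
    exact hx
  obtain ⟨hV', -, hV'f⟩ := Cfsg.Agent.H27.Un.uCompl F σ V B T hI _ ⊤ hV₁ htop le_top
  rw [finrank_top, ← hkk] at hV'f
  have hkk0 : ∀ W : Submodule F V, W ≤ ⊤ ⊓ perp B (⊤ ⊓ LinearMap.ker (T - 1)) → kk T W = 0 := by
    intro W hWle
    unfold kk
    rw [Submodule.finrank_eq_zero, eq_bot_iff, ← hV₁.2]
    intro x hx
    exact ⟨⟨Submodule.mem_top, hx.2⟩, (hWle hx.1).2⟩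
  have hU : ∃ Us : Submodule F V, Us ≤ ⊤ ⊓ perp B (⊤ ⊓ LinearMap.ker (T - 1)) ∧
      Us ∈ T.invtSubmodule ∧ UTI B Us ∧ Module.finrank F Us = ii F r * s := by
    by_cases hs0 : s = 0
    · refine ⟨⊥, bot_le, ?_, ?_, ?_⟩
      · rw [Module.End.mem_invtSubmodule]
        exact bot_le
      · intro a ha b _
        rw [(Submodule.mem_bot F).mp ha, map_zero, LinearMap.zero_apply]
      · rw [finrank_bot, hs0, mul_zero]
    · by_cases h42 : orderOf (q : ZMod r) % 4 = 2
      · rcases hSd h42 with h | h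
        · exact absurd h hs0
        · obtain ⟨Us, hUsle, hUsinv, hUsti, hUsf⟩ := hPeel F σ V B T hI (ii F r)
            (ii F r * ((r - 1) / ii F r)) _ hV'
            (fun W hWle hW hlt => hE F q σ V r B T hK hσ hc h42 W hW
              (by rw [hkk0 W hWle, zero_add]; exact hlt)) s (Or.inr (by
                generalize (r - 1) / ii F r = t at h ⊢
                generalize ii F r = i at hi0 h ⊢
                generalize Module.finrank F
                  ↥(⊤ ⊓ perp B (⊤ ⊓ LinearMap.ker (T - 1)) : Submodule F V) = d at hV'f ⊢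
                have e1 : t + 2 * s - 1 = t + 2 * (s - 1) + 1 := by omega
                have e2 : i * (t + 2 * (s - 1) + 1) = i * t + 2 * i * (s - 1) + i := by ring
                rw [e1, e2] at h
                omega))
          exact ⟨Us, hUsle, hUsinv, hUsti, hUsf⟩
      · have h := hNsd h42
        obtain ⟨Us, hUsle, hUsinv, hUsti, hUsf⟩ := hPeel F σ V B T hI (ii F r) 0 _ hV'
          (fun W hWle hW hlt => hO F q σ V r B T hK hσ hc h42 W hW
            (by rw [hkk0 W hWle]; exact hlt)) s (Or.inr (by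
              generalize ii F r = i at hi0 h ⊢
              generalize Module.finrank F
                ↥(⊤ ⊓ perp B (⊤ ⊓ LinearMap.ker (T - 1)) : Submodule F V) = d at hV'f ⊢
              have e1 : 2 * i * s = 2 * i * (s - 1) + 2 * i := by
                obtain ⟨s', rfl⟩ : ∃ s', s = s' + 1 := ⟨s - 1, by omega⟩
                rw [Nat.add_sub_cancel]
                ring
              rw [e1] at h
              omega))
        exact ⟨Us, hUsle, hUsinv, hUsti, hUsf⟩
  obtain ⟨Us, hUsle, hUsinv, hUsti, hUsf⟩ := hU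
  have hperp : ∀ a ∈ Us, ∀ w ∈ (⊤ ⊓ LinearMap.ker (T - 1) : Submodule F V), B w a = 0 :=
    fun a ha w hw => (hUsle ha).2 w hw
  refine ⟨Us ⊔ U₁, ?_, ?_, ?_⟩
  · rw [Module.End.mem_invtSubmodule]
    intro x hx
    obtain ⟨a, ha, b, hb, rfl⟩ := Submodule.mem_sup.mp hx
    show T (a + b) ∈ Us ⊔ U₁
    rw [map_add]
    exact Submodule.add_mem _ (Submodule.mem_sup_left (hUsinv ha))
      (Submodule.mem_sup_right (hU₁inv hb))
  · intro x hx y hy
    obtain ⟨a, ha, b, hb, rfl⟩ := Submodule.mem_sup.mp hx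
    obtain ⟨a', ha', b', hb', rfl⟩ := Submodule.mem_sup.mp hy
    have h11 : B a a' = 0 := hUsti a ha a' ha'
    have h22 : B b b' = 0 := hU₁ti b hb b' hb'
    have h21 : B b a' = 0 := hperp a' ha' b (hU₁le hb)
    have h12 : B a b' = 0 := hI.refl (hperp a ha b' (hU₁le hb'))
    simp only [map_add, LinearMap.add_apply, h11, h12, h21, h22, add_zero]
  · have hdisj : Us ⊓ U₁ = ⊥ := by
      rw [eq_bot_iff, ← hV₁.2]
      intro x hx
      exact ⟨hU₁le hx.2, (hUsle hx.1).2⟩
    have h1 := Submodule.finrank_sup_add_finrank_inf_eq Us U₁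
    rw [hdisj, finrank_bot, add_zero, hUsf, hU₁f] at h1
    exact h1

example : Cfsg.Agent.H42.Ut.StUtPeel.{u, v} → Cfsg.Agent.H42.Ut.StUtWitt.{u, v} →
    Cfsg.Agent.H42.Ut.StUtStepNsd.{u, v} → Cfsg.Agent.H42.Ut.StUtStepSd.{u, v} →
    Cfsg.Agent.H42.Ut.StUtBuild.{u, v} := utBuild

end Cfsg.Agent.H60.Ut
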