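import Mathlib
import Cfsg.Agent.H42.UtDefs
import Cfsg.Agent.H3.TiCycSet
import Cfsg.Agent.H72.TiSpread
import Cfsg.Agent.H7.Herm

set_option autoImplicit false

/-!
# UT-EXSD (S5953 team piece for helper42): examples for self-dual types
-/

namespace Cfsg.Agent.H60.Ut

open Cfsg.Agent.H45 Cfsg.Agent.H42.Spd Cfsg.Agent.H42.Un Cfsg.Agent.H42.Ti Cfsg.Agent.H42.Ut
  Module Polynomial

universe u

theorem utExSd (hM : StUtModAll.{u}) (hT : StUtTransport.{u}) : StUtExSd.{u} := by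
  intro F _ _ p _ _ q hF r hr hr2 hrp h42 hne2 Φs hΦ n A hA
  obtain ⟨σ, hσ⟩ := Cfsg.Agent.H7.exists_frobQ hF
  have hrF : (r : F) ≠ 0 := by
    intro h
    have h1 : p ∣ r := (CharP.cast_eq_zero_iff F p r).1 h
    have hp : p.Prime := Fact.out
    exact hrp ((Nat.prime_dvd_prime_iff_eq hp hr).1 h1).symm
  obtain ⟨hcard, -, -⟩ := (Cfsg.Agent.H3.Ti.cycSet F r hr hrF).2 Φs hΦ
  have hr3 : 3 ≤ r := by
    have := hr.two_le
    omega
  have hi0 : 0 < ii F r := by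
    rcases Nat.eq_zero_or_pos (ii F r) with h | h
    · rw [h, mul_zero] at hcard
      omega
    · exact h
  have hc0 : 0 < Φs.card := by
    rcases Nat.eq_zero_or_pos Φs.card with h | h
    · rw [h, zero_mul] at hcard
      omega
    · exact h
  have ht : (r - 1) / ii F r = Φs.card := by
    rw [← hcard, Nat.mul_div_cancel _ hi0]
  obtain ⟨a, ha1, ha2⟩ := Cfsg.Agent.H72.Ti.tiSpread F[X] Φs A hc0
  have hm : (n - ii F r * A) + ii F r * A = n := by omega
  have hmod := hM F p q σ r hF hσ hr hr2 hrp h42 Φs hΦ a (n - ii F r * A)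
  rw [ha1, hm] at hmod
  obtain ⟨x, hx0, hx1, hx2, hx3⟩ := hT F p q σ r hF hσ hr hr2 hrp hne2 Φs n _ _ hmod
  refine ⟨x, hx0, hx1, ?_, ?_⟩
  · rw [hx2]
    exact hm
  · rw [ht]
    refine le_trans (le_of_eq ?_) ha2
    apply Finset.sum_congr rfl
    intro φ hφ
    rw [hx3 φ hφ, Nat.mul_comm 2 (ii F r)]
    exact Nat.mul_div_mul_left _ _ hi0

example : Cfsg.Agent.H42.Ut.StUtModAll.{u} → Cfsg.Agent.H42.Ut.StUtTransport.{u} →
    Cfsg.Agent.H42.Ut.StUtExSd.{u} := utExSd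

end Cfsg.Agent.H60.Ut
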