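import Mathlib
import Cfsg.Agent.H42.UtDefs
import Cfsg.Agent.H42.UnBase

set_option autoImplicit false

/-!
# UT-INVSQ (S5953 team piece for helper42): `T ^ 2 = ν ^ 2` with `ν` of norm 1
-/

namespace Cfsg.Agent.H60.Ut

open Cfsg.Agent.H45 Cfsg.Agent.H42.Spd Cfsg.Agent.H42.Un Cfsg.Agent.H42.Ti Cfsg.Agent.H42.Ut
  Module Polynomial

universe u v

theorem utInvSq (hW : StUtWitt.{u, v}) : StUtInvSq.{u, v} := by
  intro F _ _ σ V _ _ _ B T hI h2 ν hν hTT m hm hev
  have hν0 : ν ≠ 0 := by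
    rintro rfl
    rw [zero_mul] at hν
    exact zero_ne_one hν
  have h2ν : (2 * ν : F) ≠ 0 := mul_ne_zero h2 hν0
  have hTTv : ∀ v, T (T v) = (ν * ν) • v := by
    intro v
    have := congrArg (fun f : Module.End F V => f v) hTT
    simpa using this
  have hEp_mem : ∀ x, x ∈ LinearMap.ker (T - ν • (1 : Module.End F V)) ↔ T x = ν • x := by
    intro x
    rw [LinearMap.mem_ker, LinearMap.sub_apply, LinearMap.smul_apply, Module.End.one_apply,
      sub_eq_zero]
  have hEm_mem : ∀ x, x ∈ LinearMap.ker (T + ν • (1 : Module.End F V)) ↔ T x = -(ν • x) := by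
    intro x
    rw [LinearMap.mem_ker, LinearMap.add_apply, LinearMap.smul_apply, Module.End.one_apply,
      add_eq_zero_iff_eq_neg]
  have hsup : LinearMap.ker (T - ν • (1 : Module.End F V)) ⊔
      LinearMap.ker (T + ν • (1 : Module.End F V)) = ⊤ := by
    rw [eq_top_iff]
    intro v _
    have e : v = (2 * ν)⁻¹ • (T v + ν • v) + (2 * ν)⁻¹ • (ν • v - T v) := by
      rw [← smul_add]
      have h1 : T v + ν • v + (ν • v - T v) = (2 * ν) • v := by
        rw [mul_smul, two_smul]
        abel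
      rw [h1, smul_smul, inv_mul_cancel₀ h2ν, one_smul]
    rw [e]
    refine Submodule.add_mem _ (Submodule.mem_sup_left ?_) (Submodule.mem_sup_right ?_)
    · apply Submodule.smul_mem
      rw [hEp_mem, map_add, map_smul, hTTv, smul_add, mul_smul]
      abel
    · apply Submodule.smul_mem
      rw [hEm_mem, map_sub, map_smul, hTTv, smul_sub, mul_smul]
      abel
  have hinf : LinearMap.ker (T - ν • (1 : Module.End F V)) ⊓
      LinearMap.ker (T + ν • (1 : Module.End F V)) = ⊥ := by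
    rw [eq_bot_iff]
    intro x hx
    have h1 := (hEp_mem x).mp hx.1
    have h3 := (hEm_mem x).mp hx.2
    rw [h1] at h3
    have h4 : (2 * ν) • x = 0 := by
      rw [mul_smul, two_smul]
      nth_rewrite 1 [h3]
      exact neg_add_cancel _
    rw [Submodule.mem_bot]
    exact (smul_eq_zero.mp h4).resolve_left h2ν
  have horth : ∀ x ∈ LinearMap.ker (T - ν • (1 : Module.End F V)),
      ∀ y ∈ LinearMap.ker (T + ν • (1 : Module.End F V)), B x y = 0 := by
    intro x hx y hy
    have h1 := hI.isom x y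
    rw [(hEp_mem x).mp hx, (hEm_mem y).mp hy, ← neg_smul, sesq_smul_smul, map_neg, mul_neg, hν]
      at h1
    have h3 : (2 : F) * B x y = 0 := by linear_combination -h1
    exact (mul_eq_zero.mp h3).resolve_left h2
  have horth' : ∀ y ∈ LinearMap.ker (T + ν • (1 : Module.End F V)),
      ∀ x ∈ LinearMap.ker (T - ν • (1 : Module.End F V)), B y x = 0 := by
    intro y hy x hx
    exact hI.refl (horth x hx y hy)
  have hEpnd : LinearMap.ker (T - ν • (1 : Module.End F V)) ⊓
      perp B (LinearMap.ker (T - ν • (1 : Module.End F V))) = ⊥ := by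
    rw [eq_bot_iff]
    intro x hx
    rw [Submodule.mem_bot]
    apply hI.nondeg' x
    intro v
    have hv : v ∈ LinearMap.ker (T - ν • (1 : Module.End F V)) ⊔
        LinearMap.ker (T + ν • (1 : Module.End F V)) := by
      rw [hsup]
      trivial
    obtain ⟨a, ha, b, hb, rfl⟩ := Submodule.mem_sup.mp hv
    rw [map_add, LinearMap.add_apply, hx.2 a ha, horth' b hb x hx.1, add_zero]
  have hEmnd : LinearMap.ker (T + ν • (1 : Module.End F V)) ⊓
      perp B (LinearMap.ker (T + ν • (1 : Module.End F V))) = ⊥ := by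
    rw [eq_bot_iff]
    intro x hx
    rw [Submodule.mem_bot]
    apply hI.nondeg' x
    intro v
    have hv : v ∈ LinearMap.ker (T - ν • (1 : Module.End F V)) ⊔
        LinearMap.ker (T + ν • (1 : Module.End F V)) := by
      rw [hsup]
      trivial
    obtain ⟨a, ha, b, hb, rfl⟩ := Submodule.mem_sup.mp hv
    rw [map_add, LinearMap.add_apply, hx.2 b hb, horth a ha x hx.1, add_zero]
  have hdim : Module.finrank F ↥(LinearMap.ker (T - ν • (1 : Module.End F V))) +
      Module.finrank F ↥(LinearMap.ker (T + ν • (1 : Module.End F V))) = Module.finrank F V := by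
    have h1 := Submodule.finrank_sup_add_finrank_inf_eq
      (LinearMap.ker (T - ν • (1 : Module.End F V))) (LinearMap.ker (T + ν • (1 : Module.End F V)))
    rw [hsup, hinf, finrank_top, finrank_bot, add_zero] at h1
    exact h1.symm
  obtain ⟨jp, jm, hjp, hjm, hsum⟩ : ∃ jp jm : ℕ,
      2 * jp ≤ Module.finrank F ↥(LinearMap.ker (T - ν • (1 : Module.End F V))) ∧
      2 * jm ≤ Module.finrank F ↥(LinearMap.ker (T + ν • (1 : Module.End F V))) ∧
      jp + jm = m := by
    by_cases hlt : 2 * m = Module.finrank F V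
    · obtain ⟨c, hc⟩ := hev hlt
      refine ⟨m - c, c, ?_, ?_, ?_⟩ <;> omega
    · refine ⟨min m (Module.finrank F ↥(LinearMap.ker (T - ν • (1 : Module.End F V))) / 2),
        m - min m (Module.finrank F ↥(LinearMap.ker (T - ν • (1 : Module.End F V))) / 2),
        ?_, ?_, ?_⟩ <;> omega
  obtain ⟨Up, hUpE, hUpTI, hUpdim⟩ := hW F σ V B T hI _ hEpnd jp hjp
  obtain ⟨Um, hUmE, hUmTI, hUmdim⟩ := hW F σ V B T hI _ hEmnd jm hjm
  refine ⟨Up ⊔ Um, ?_, ?_, ?_⟩
  · rw [Module.End.mem_invtSubmodule]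
    intro x hx
    obtain ⟨a, ha, b, hb, rfl⟩ := Submodule.mem_sup.mp hx
    show T (a + b) ∈ Up ⊔ Um
    rw [map_add, (hEp_mem a).mp (hUpE ha), (hEm_mem b).mp (hUmE hb)]
    exact Submodule.add_mem _ (Submodule.mem_sup_left (Up.smul_mem _ ha))
      (Submodule.mem_sup_right (Um.neg_mem (Um.smul_mem _ hb)))
  · intro a ha b hb
    obtain ⟨a1, ha1, a2, ha2, rfl⟩ := Submodule.mem_sup.mp ha
    obtain ⟨b1, hb1, b2, hb2, rfl⟩ := Submodule.mem_sup.mp hb
    have h11 : B a1 b1 = 0 := hUpTI a1 ha1 b1 hb1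
    have h22 : B a2 b2 = 0 := hUmTI a2 ha2 b2 hb2
    have h12 : B a1 b2 = 0 := horth a1 (hUpE ha1) b2 (hUmE hb2)
    have h21 : B a2 b1 = 0 := horth' a2 (hUmE ha2) b1 (hUpE hb1)
    simp only [map_add, LinearMap.add_apply, h11, h12, h21, h22, add_zero]
  · have hdisj : Up ⊓ Um = ⊥ := by
      rw [eq_bot_iff, ← hinf]
      exact inf_le_inf hUpE hUmE
    have h1 := Submodule.finrank_sup_add_finrank_inf_eq Up Um
    rw [hdisj, finrank_bot, add_zero] at h1
    rw [h1, hUpdim, hUmdim, hsum]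

example : Cfsg.Agent.H42.Ut.StUtWitt.{u, v} → Cfsg.Agent.H42.Ut.StUtInvSq.{u, v} := utInvSq

end Cfsg.Agent.H60.Ut
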