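import Mathlib
import Cfsg.Agent.H42.UtDefs
import Cfsg.Agent.H42.UnBase

set_option autoImplicit false

/-!
# UT-KUMTI (S5953 team piece for helper42): the Kummer case
-/

namespace Cfsg.Agent.H60.Ut

open Cfsg.Agent.H45 Cfsg.Agent.H42.Spd Cfsg.Agent.H42.Un Cfsg.Agent.H42.Ti Cfsg.Agent.H42.Ut
  Module Polynomial

universe u v

theorem utKumTi (hPeel : StUtPeel.{u, v}) (hPair : StUtPair.{u, v}) : StUtKumTi.{u, v} := by
  intro F _ _ σ V _ _ _ B T hI hss r hr z hz hTr j hj
  have hr1 : 1 ≤ r := hr.one_lt.le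
  have hirr : Irreducible (X ^ r - C z : F[X]) := (X_pow_sub_C_irreducible_iff_of_prime hr).mpr hz
  have hdeg : (X ^ r - C z : F[X]).natDegree = r := natDegree_X_pow_sub_C
  have hker : LinearMap.ker (aeval T (X ^ r - C z : F[X])) = ⊤ := by
    have h0 : aeval T (X ^ r - C z : F[X]) = 0 := by
      rw [map_sub, map_pow, aeval_X, aeval_C, Algebra.algebraMap_eq_smul_one, hTr, sub_self]
    rw [h0]
    exact LinearMap.ker_zero
  have hstep : ∀ W : Submodule F V, W ≤ ⊤ → UNd B T W → 2 * r - 1 < Module.finrank F W →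
      UHypPair B T r W := by
    intro W _ hW hlt
    have h1 := hPair F σ V B T hI hss (X ^ r - C z) hirr W hW (by rw [hker]; exact le_top)
      (by rw [hdeg]; omega)
    rw [hdeg] at h1
    exact h1
  have hjj : j = 0 ∨ 2 * r - 1 + 2 * r * (j - 1) < Module.finrank F ↥(⊤ : Submodule F V) := by
    rw [finrank_top]
    rcases Nat.eq_zero_or_pos j with h | h
    · left
      exact h
    · right
      obtain ⟨j', rfl⟩ : ∃ j', j = j' + 1 := ⟨j - 1, by omega⟩
      have e1 : r * (j' + 1) = r * j' + r := by ring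
      have e2 : 2 * r * (j' + 1 - 1) = 2 * (r * j') := by
        rw [Nat.add_sub_cancel]
        ring
      rw [e1] at hj
      rw [e2]
      omega
  obtain ⟨U, -, hU1, hU2, hU3⟩ := hPeel F σ V B T hI r (2 * r - 1) ⊤ hI.und_top hstep j hjj
  exact ⟨U, hU1, hU2, hU3⟩

example : Cfsg.Agent.H42.Ut.StUtPeel.{u, v} → Cfsg.Agent.H42.Ut.StUtPair.{u, v} →
    Cfsg.Agent.H42.Ut.StUtKumTi.{u, v} := utKumTi

end Cfsg.Agent.H60.Ut
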