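import Mathlib
import Cfsg.Agent.H42.UtDefs
import Cfsg.Agent.H42.UnBase
import Cfsg.Agent.H12.UnFix
import Cfsg.Agent.H3.TiCycSet
import Cfsg.Agent.H3.TiPrim
import Cfsg.Agent.H3.TiCompDvd
import Cfsg.Agent.H48.PrimeOrdU

set_option autoImplicit false

/-!
# UT-UPPERSD (S5953 team piece for helper42): the upper bound for self-dual types
-/

namespace Cfsg.Agent.H60.Ut

open Cfsg.Agent.H45 Cfsg.Agent.H42.Spd Cfsg.Agent.H42.Un Cfsg.Agent.H42.Ti Cfsg.Agent.H42.Ut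
  Module Polynomial

universe u v

theorem utUpperSd (hN : StUtCompNd.{u, v}) (hH : StUtHalf.{u, v}) : StUtUpperSd.{u, v} := by
  intro F _ _ q σ V _ _ _ r B T hK hσq hc h42 Φs hΦ W hW hTI
  have hI : UIso B T := hc.iso
  obtain ⟨hcard, hdeg, -⟩ := (Cfsg.Agent.H3.Ti.cycSet F r hc.prime hc.cast_ne).2 Φs hΦ
  have hr3 : 3 ≤ r := by
    have h1 := hc.prime.two_le
    have h2 := hc.ne_two
    omega
  have hi0 : 0 < ii F r := by
    rcases Nat.eq_zero_or_pos (ii F r) with h | h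
    · rw [h, mul_zero] at hcard
      omega
    · exact h
  have hprim := (Cfsg.Agent.H3.Ti.tiPrim Cfsg.Agent.H3.Ti.cycSet) F V r T hc.prime hc.cast_ne
    hc.pow Φs hΦ W hW
  have htop : UNd B T ⊤ := hI.und_top
  have hfix : UNd B T (⊤ ⊓ LinearMap.ker (T - 1)) := Cfsg.Agent.H12.Un.uFix F σ V r B T hc ⊤ htop
  have hw : 2 * Module.finrank F ↥(W ⊓ LinearMap.ker (T - 1)) ≤ kk T ⊤ :=
    hH F σ V B T hI (⊤ ⊓ LinearMap.ker (T - 1)) (W ⊓ LinearMap.ker (T - 1)) hfix.2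
      (le_inf le_top inf_le_right) (fun u hu v hv => hTI u hu.1 v hv.1)
  have hfact : Fact r.Prime := ⟨hc.prime⟩
  obtain ⟨hqi, hodd⟩ := Cfsg.Agent.H48.pow_half_of_mod_four r (q : ZMod r) h42
  have hre : r ∣ q ^ (orderOf (q : ZMod r) / 2) + 1 := by
    rw [← ZMod.natCast_eq_zero_iff]
    push_cast
    rw [hqi]
    ring
  have hcomp : ∀ φ ∈ Φs, ∃ s, Module.finrank F ↥(W ⊓ LinearMap.ker (aeval T φ)) = ii F r * s ∧
      s ≤ Module.finrank F ↥(LinearMap.ker (aeval T φ)) / (2 * ii F r) := by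
    intro φ hφ
    obtain ⟨hmon, hirr, hdvd⟩ := (hΦ φ).1 hφ
    have h1 := Cfsg.Agent.H3.Ti.tiCompDvd F V T φ hirr W hW
    rw [hdeg φ hφ] at h1
    obtain ⟨s, hs⟩ := h1
    refine ⟨s, hs, ?_⟩
    have hdvdX : φ ∣ X ^ r - 1 := hdvd.trans (cyclotomic.dvd_X_pow_sub_one r F)
    have hsd : φ ∣ dualPoly σ φ :=
      Cfsg.Agent.H48.dvd_dualPoly_of_odd hK σ hσq r _ hodd hre φ hirr hdvdX
    have hnd := hN F σ V B T hI hc.ss φ hirr hsd ⊤ htop
    have h2 := hH F σ V B T hI (⊤ ⊓ LinearMap.ker (aeval T φ)) (W ⊓ LinearMap.ker (aeval T φ))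
      hnd.2 (le_inf le_top inf_le_right) (fun u hu v hv => hTI u hu.1 v hv.1)
    rw [top_inf_eq, hs] at h2
    rw [Nat.le_div_iff_mul_le (by omega)]
    calc s * (2 * ii F r) = 2 * (ii F r * s) := by ring
      _ ≤ _ := h2
  choose! sf hsf using hcomp
  refine ⟨∑ φ ∈ Φs, sf φ, Module.finrank F ↥(W ⊓ LinearMap.ker (T - 1)), ?_, hw, ?_⟩
  · rw [hprim, Finset.mul_sum, add_comm]
    congr 1
    exact Finset.sum_congr rfl (fun φ hφ => (hsf φ hφ).1)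
  · exact Finset.sum_le_sum (fun φ hφ => (hsf φ hφ).2)

example : Cfsg.Agent.H42.Ut.StUtCompNd.{u, v} → Cfsg.Agent.H42.Ut.StUtHalf.{u, v} →
    Cfsg.Agent.H42.Ut.StUtUpperSd.{u, v} := utUpperSd

end Cfsg.Agent.H60.Ut
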