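import Mathlib
import Cfsg.Agent.H72.ZasFrobDefs
import Cfsg.Agent.H16.ZasSyl
import Cfsg.Agent.H60.QuatSylow

/-!
# S3359 team piece IX: `D · M` has index at most 2
-/

set_option autoImplicit false

namespace Cfsg.Agent.H60.Zas

open Cfsg.Agent.H72.Zas

universe u

/-- A perfect finite group of even order has non-cyclic Sylow 2-subgroups. -/
theorem perfect_sylow2_not_cyclic {D : Type*} [Group D] [Finite D] (hperf : commutator D = ⊤)
    (hmin : (Nat.card D).minFac = 2) (P : Sylow 2 D) : ¬ IsCyclic P := by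
  intro hP
  have hc := IsCyclic.isComplement' hmin hP
  letI : CommGroup P := IsCyclic.commGroup
  have h1 : commutator D ≤
      (MonoidHom.transferSylow P (hP.normalizer_le_centralizer hmin)).ker :=
    Abelianization.commutator_subset_ker _
  rw [hperf, top_le_iff] at h1
  rw [h1, Subgroup.isComplement'_top_left] at hc
  have h2 : 2 ∣ Nat.card D := by
    rw [← hmin]; exact Nat.minFac_dvd _
  exact P.ne_bot_of_dvd_card h2 hc

/-- If a normal subgroup contains all elements of odd order, its index is a power of 2. -/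
theorem index_two_pow {G : Type u} [Group G] [Finite G] (H : Subgroup G) [H.Normal]
    (hodd : ∀ g : G, Odd (orderOf g) → g ∈ H) : ∃ k : ℕ, H.index = 2 ^ k := by
  have hp : IsPGroup 2 (G ⧸ H) := by
    intro q
    obtain ⟨g, rfl⟩ := QuotientGroup.mk_surjective q
    obtain ⟨k, m, hm, hkm⟩ := Nat.exists_eq_two_pow_mul_odd (orderOf_pos g).ne'
    refine ⟨k, ?_⟩
    have h1 : orderOf (g ^ 2 ^ k) = m := by
      rw [orderOf_pow' g (pow_ne_zero k (by norm_num)), hkm,
        Nat.gcd_eq_right (Dvd.intro _ rfl), Nat.mul_div_cancel_left m (pow_pos (by norm_num) k)]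
    have h2 : g ^ 2 ^ k ∈ H := hodd _ (by rw [h1]; exact hm)
    rw [← QuotientGroup.mk_pow]
    exact (QuotientGroup.eq_one_iff _).mpr h2
  obtain ⟨k, hk⟩ := IsPGroup.iff_card.mp hp
  exact ⟨k, by rw [Subgroup.index_eq_card]; exact hk⟩

/-- **S3359-IX.** -/
theorem stIx : StIx.{u} := by
  intro G _ _ hax D hD hperf hcard M hM _ hodd
  haveI := hD
  haveI := hM
  obtain ⟨k, hk⟩ := index_two_pow (D ⊔ M) hodd
  obtain ⟨P⟩ := (Sylow.nonempty : Nonempty (Sylow 2 D))
  have hPnc : ¬ IsCyclic P := perfect_sylow2_not_cyclic hperf (by rw [hcard]; norm_num) P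
  obtain ⟨P', hP'⟩ : ∃ P' : Subgroup G, P' = (P : Subgroup D).map D.subtype := ⟨_, rfl⟩
  have hP'D : P' ≤ D := by rw [hP']; exact Subgroup.map_subtype_le _
  have hP'2 : IsPGroup 2 P' := by rw [hP']; exact P.isPGroup'.map _
  have hP'nc : ¬ IsCyclic P' := by
    intro h
    apply hPnc
    have e := (P : Subgroup D).equivMapOfInjective D.subtype D.subtype_injective
    rw [hP'] at h
    exact (MulEquiv.isCyclic e).mpr h
  obtain ⟨T, hT⟩ := hP'2.exists_le_sylow
  obtain ⟨W, hW⟩ : ∃ W : Subgroup G, W = D ⊓ (T : Subgroup G) := ⟨_, rfl⟩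
  have hWD : W ≤ D := by rw [hW]; exact inf_le_left
  have hWT : W ≤ (T : Subgroup G) := by rw [hW]; exact inf_le_right
  have hWnc : ¬ IsCyclic W := fun h =>
    hP'nc (Cfsg.Agent.H60.isCyclic_of_le (by rw [hW]; exact le_inf hP'D hT) h)
  have hW8 : Nat.card W ≤ 8 := by
    obtain ⟨j, hj⟩ := (T.isPGroup'.to_le hWT).exists_card_eq
    have h1 : Nat.card W ∣ 120 := by rw [← hcard]; exact Subgroup.card_dvd_of_le hWD
    rw [hj] at h1 ⊢
    have hj3 : j ≤ 3 := by
      by_contra h4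
      have h5 : (2 : ℕ) ^ 4 ∣ 2 ^ j := pow_dvd_pow 2 (by omega)
      have h6 : (2 : ℕ) ^ 4 ∣ 120 := dvd_trans h5 h1
      norm_num at h6
    calc 2 ^ j ≤ 2 ^ 3 := Nat.pow_le_pow_right (by norm_num) hj3
      _ = 8 := by norm_num
  have hTnc : ¬ IsCyclic (T : Subgroup G) := fun h =>
    hWnc (Cfsg.Agent.H60.isCyclic_of_le hWT h)
  rcases Cfsg.Agent.H16.Zas.part1 hax 2 (T : Subgroup G) T.isPGroup' with h | ⟨-, n, hn, ⟨e⟩⟩
  · exact absurd h hTnc
  obtain ⟨V₀, hV₀⟩ : ∃ V₀ : Subgroup (T : Subgroup G), V₀ = D.subgroupOf (T : Subgroup G) :=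
    ⟨_, rfl⟩
  haveI hV₀n : V₀.Normal := by rw [hV₀]; infer_instance
  have hV₀W : V₀.map (T : Subgroup G).subtype = W := by
    rw [hV₀, hW]; exact Subgroup.subgroupOf_map_subtype D _
  have eV₀W : V₀ ≃* W := by
    have e1 := V₀.equivMapOfInjective (T : Subgroup G).subtype (Subgroup.subtype_injective _)
    rw [hV₀W] at e1; exact e1
  obtain ⟨V', hV'⟩ : ∃ V' : Subgroup (QuaternionGroup (2 ^ n)), V' = V₀.map e.toMonoidHom :=
    ⟨_, rfl⟩
  haveI hV'n : V'.Normal := by rw [hV']; exact hV₀n.map _ e.surjective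
  have eV' : V₀ ≃* V' := by
    have e1 := V₀.equivMapOfInjective e.toMonoidHom e.injective
    rw [← hV'] at e1; exact e1
  have hV'nc : ¬ IsCyclic V' := fun h =>
    hWnc ((MulEquiv.isCyclic (eV₀W.symm.trans eV')).mpr h)
  have hV'card : Nat.card V' ≤ 8 := by
    rw [← Nat.card_congr (eV₀W.symm.trans eV').toEquiv]; exact hW8
  have hxa : ∃ i, (QuaternionGroup.xa i : QuaternionGroup (2 ^ n)) ∈ V' := by
    by_contra hcon
    push Not at hcon
    apply hV'nc
    refine Cfsg.Agent.H60.isCyclic_of_le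
      (B := Subgroup.zpowers (QuaternionGroup.a 1 : QuaternionGroup (2 ^ n))) ?_ inferInstance
    intro x hx
    rcases x with j | j
    · exact Cfsg.Agent.H60.quat_a_mem_zpowers j
    · exact absurd hx (hcon j)
  obtain ⟨i, hi⟩ := hxa
  have ha2 : (QuaternionGroup.a 2 : QuaternionGroup (2 ^ n)) ∈ V' :=
    Cfsg.Agent.H60.quat_a_two_mem_of_xa_mem V' i hi
  obtain ⟨K, hK⟩ : ∃ K : Subgroup (QuaternionGroup (2 ^ n)),
      K = Subgroup.zpowers (QuaternionGroup.a 2) := ⟨_, rfl⟩
  have hKV : K ≤ V' := by rw [hK, Subgroup.zpowers_le]; exact ha2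
  have hKne : K ≠ V' := by
    intro h
    apply hV'nc
    rw [← h, hK]; infer_instance
  have hKcard : 2 * Nat.card K ≤ Nat.card V' := by
    obtain ⟨c, hc⟩ := Subgroup.card_dvd_of_le hKV
    have hc1 : c ≠ 1 := by
      intro h1
      apply hKne
      exact Subgroup.eq_of_le_of_card_ge hKV (by rw [hc, h1, mul_one])
    have hc0 : c ≠ 0 := by
      intro h0
      rw [h0, mul_zero] at hc
      exact (Nat.card_pos (α := V')).ne' hc
    rw [hc]
    have h2 : 2 ≤ c := by omega
    calc 2 * Nat.card K = Nat.card K * 2 := mul_comm _ _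
      _ ≤ Nat.card K * c := Nat.mul_le_mul_left _ h2
  have ho4 : orderOf (QuaternionGroup.a 2 : QuaternionGroup (2 ^ n)) ≤ 4 := by
    have h1 : Nat.card K = orderOf (QuaternionGroup.a 2 : QuaternionGroup (2 ^ n)) := by
      rw [hK, Nat.card_zpowers]
    omega
  have hNdvd : 2 ^ n ∣ orderOf (QuaternionGroup.a 2 : QuaternionGroup (2 ^ n)) := by
    obtain ⟨o, ho⟩ : ∃ o, o = orderOf (QuaternionGroup.a 2 : QuaternionGroup (2 ^ n)) :=
      ⟨_, rfl⟩
    rw [← ho]
    have h1 : (QuaternionGroup.a 2 : QuaternionGroup (2 ^ n)) ^ o = 1 := by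
      rw [ho]; exact pow_orderOf_eq_one _
    have h2 : (QuaternionGroup.a 2 : QuaternionGroup (2 ^ n)) = (QuaternionGroup.a 1) ^ 2 := by
      rw [QuaternionGroup.a_one_pow, Nat.cast_ofNat]
    rw [h2, ← pow_mul, QuaternionGroup.a_one_pow, ← QuaternionGroup.a_zero] at h1
    have h3 : ((2 * o : ℕ) : ZMod (2 * 2 ^ n)) = 0 := by injection h1
    have h4 := (ZMod.natCast_eq_zero_iff (2 * o) (2 * 2 ^ n)).mp h3
    exact Nat.dvd_of_mul_dvd_mul_left (by norm_num) h4
  have hN4 : 2 ^ n ≤ 4 := by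
    have hpos : 0 < orderOf (QuaternionGroup.a 2 : QuaternionGroup (2 ^ n)) := orderOf_pos _
    exact (Nat.le_of_dvd hpos hNdvd).trans ho4
  have hTcard : Nat.card (T : Subgroup G) ≤ 16 := by
    rw [Nat.card_congr e.toEquiv, Nat.card_eq_fintype_card, QuaternionGroup.card]; linarith
  have h8 : 8 ∣ Nat.card (D ⊔ M : Subgroup G) := by
    have h1 : Nat.card D ∣ Nat.card (D ⊔ M : Subgroup G) := Subgroup.card_dvd_of_le le_sup_left
    rw [hcard] at h1
    exact dvd_trans (by norm_num) h1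
  have hG : 2 ^ (k + 3) ∣ Nat.card G := by
    rw [← Subgroup.index_mul_card (D ⊔ M), hk, pow_add]
    exact mul_dvd_mul_left _ (by norm_num; exact h8)
  have hT2 : Nat.card (T : Subgroup G) = 2 ^ (Nat.card G).factorization 2 :=
    T.card_eq_multiplicity
  have hle : k + 3 ≤ (Nat.card G).factorization 2 :=
    (Nat.Prime.pow_dvd_iff_le_factorization Nat.prime_two Nat.card_pos.ne').mp hG
  have hk1 : k ≤ 1 := by
    by_contra hk2
    have h5 : 5 ≤ (Nat.card G).factorization 2 := by omega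
    have h6 : 2 ^ 5 ≤ 2 ^ (Nat.card G).factorization 2 := Nat.pow_le_pow_right (by norm_num) h5
    rw [← hT2] at h6
    norm_num at h6
    omega
  rw [hk]
  interval_cases k
  · left; rfl
  · right; rfl

end Cfsg.Agent.H60.Zas
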